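import Cfsg.Agent.Sing.KN2

/-! The Cameron–Kantor theorem over fields with at least three elements. -/

set_option autoImplicit false
set_option linter.unusedSectionVars false

namespace CF.Sing

namespace KN

open Module CF.Geom Submodule

variable {F V : Type*} [Field F] [AddCommGroup V] [Module F V] [Finite F] [Finite V] {x y z w u t x' y' z' : V}
  {L K : Submodule F V} {k : ℕ} {g s : V ≃ₗ[F] V}

local notation "𝐪" => Nat.card F
local notation "𝐋" x:max y:max => (F ∙ x) ⊔ (F ∙ y)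
local notation "𝐦" => Submodule.Quotient.mk

theorem diag (hq : 3 ≤ 𝐪) (hx : x ≠ 0) (h : y ∉ F ∙ x) : ∃ e ∈ SLG F V, ∃ φ ψ : Dual F V, ψ x = 0 ∧ ψ y ≠ 0 ∧
    ∀ u, e u = u + φ u • x + ψ u • y := by
  obtain ⟨φ, a, -⟩ := exists_dual_one (W := (⊥ : Submodule F V)) (v := x) (by simpa)
  obtain ⟨ψ, b, c⟩ := exists_dual_one h
  have c := c x (ms x)
  obtain ⟨l, l0, l1⟩ := two hq
  have u1 : 1 + ((l - 1) • ψ) y = l := by simp [b]
  have u2 : 1 + ((l⁻¹ - 1) • φ) x = l⁻¹ := by simp [a]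
  refine ⟨LinearEquiv.dilatransvection (u1.symm ▸ IsUnit.mk0 l l0) *
    LinearEquiv.dilatransvection (u2.symm ▸ IsUnit.mk0 _ (inv_ne_zero l0)), mem_SLG.2 ?_, (l⁻¹ - 1) • φ, (l - 1) • ψ,
    by simp [c], by simpa [b] using sub_ne_zero.2 l1, fun u => ?_⟩
  · rw [LinearEquiv.coe_toLinearMap_mul, map_mul, LinearEquiv.dilatransvection.coe_toLinearMap,
      LinearEquiv.dilatransvection.coe_toLinearMap, LinearMap.transvection.det, LinearMap.transvection.det, u1, u2,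
      mul_inv_cancel₀ l0]
  · simp [LinearEquiv.dilatransvection.apply, c]

namespace Ctx
variable {G : Subgroup (V ≃ₗ[F] V)} (C : Ctx G)

theorem blk (e : C.D = C.μ 2) (x y w : V) (hxy : I2 F x y) (hxw : I2 F x w) (hw : w ∈ C.N x y) : C.N x w = C.N x y := by
  by_cases b : w ∈ 𝐋 x y
  · exact N_cg (l_eq hxw l1 b)
  have h1 := C.fI (mem_N.1 hw ⟨hxy, b⟩)
  exact (eq_of_le_of_finrank_eq inf_le_right (by rw [h1, C.fN hxw, e])).symm.trans
    (eq_of_le_of_finrank_eq inf_le_left (by rw [h1, C.fN hxy, e]))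

theorem tr_block (e : C.D = C.μ 2) : Tr2 (stabRestrict G (C.N (C.v 0) (C.v 1))).range := by
  have i2 : ∀ {a b : C.N (C.v 0) (C.v 1)}, I2 F a b → I2 F a.1 b.1 := fun {a b} h => ⟨fun o => h.1 (Subtype.ext o), fun m =>
    let ⟨c, e⟩ := mem_span_singleton.1 m; h.2 (mem_span_singleton.2 ⟨c, Subtype.ext e⟩)⟩
  intro a b a' b' h h'
  obtain ⟨g, hg, ⟨c, e1⟩, d, e2⟩ := C.tr _ _ _ _ (i2 h) (i2 h')
  have hB := fun {a b} => block C.N N_cg (C.blk e) (a := a) (b := b) C.i2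
  have : (⟨g, hg⟩ : G) ∈ stabSet G (C.N (C.v 0) (C.v 1)) := mem_stabSet_iff_map_eq.2 (by
    conv_lhs => rw [← hB a.2 b.2 (i2 h)]
    rw [← N_map hg, hB (e1 ▸ smul_mem _ c a'.2) (e2 ▸ smul_mem _ d b'.2) (i2_map.2 (i2 h))])
  exact ⟨_, ⟨⟨_, this⟩, rfl⟩, ⟨c, Subtype.ext e1⟩, d, Subtype.ext e2⟩

/-- the spread induced on the quotient by a point -/
noncomputable def A (w : V ⧸ F ∙ C.v 0) : Submodule F (V ⧸ F ∙ C.v 0) :=
  (C.N (C.v 0) (Function.surjInv (mkQ_surjective _) w)).map (F ∙ C.v 0).mkQ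

theorem A_mk (w : V) : C.A (𝐦 w) = (C.N (C.v 0) w).map (F ∙ C.v 0).mkQ := by
  have := Function.surjInv_eq (mkQ_surjective (F ∙ C.v 0)) (𝐦 w)
  rw [A]
  generalize Function.surjInv (mkQ_surjective (F ∙ C.v 0)) (𝐦 w) = t at *
  have := (Submodule.Quotient.eq _).1 this
  rw [N_cg (le_antisymm (lle.2 ⟨l1, by simpa using add_mem (mem_sup_left this) (l2 (y := w))⟩)
    (lle.2 ⟨l1, by simpa using sub_mem (l2 (y := t)) (mem_sup_left this)⟩))]

theorem ne_mk (h : (𝐦 w : V ⧸ F ∙ C.v 0) ≠ 0) : I2 F (C.v 0) w := ⟨C.i2.1, mt (Submodule.Quotient.mk_eq_zero _).2 h⟩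

theorem spr (e : C.D = k + 1) (e' : C.D = C.μ 2) : Spr C.A ⊤ k := by
  refine ⟨fun w _ _ => ?_, fun w _ h t m n => ?_, fun w _ h => ?_, fun _ _ _ => le_top⟩ <;>
    obtain ⟨w, rfl⟩ := Submodule.Quotient.mk_surjective _ w
  · rw [A_mk, mem_mk lm]; exact rm
  · obtain ⟨t, rfl⟩ := Submodule.Quotient.mk_surjective _ t
    rw [A_mk, mem_mk lm] at m
    rw [A_mk, A_mk, C.blk e' _ _ _ (C.ne_mk h) (C.ne_mk n) m]
  · have := fr_map (F ∙ C.v 0).mkQ (C.N (C.v 0) w)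
    rw [ker_mkQ, inf_eq_right.2 (by simpa using lm), finrank_span_singleton C.i2.1, C.fN (C.ne_mk h)] at this
    rw [A_mk]; omega

theorem A_map (hg : g ∈ G) (h : g (C.v 0) ∈ F ∙ C.v 0) {s : (V ⧸ F ∙ C.v 0) ≃ₗ[F] (V ⧸ F ∙ C.v 0)}
    (hs : ∀ v, s (𝐦 v) = 𝐦 (g v)) (w) : ∀ a ∈ C.A w, s a ∈ C.A (s w) := fun a m => by
  obtain ⟨w, rfl⟩ := Submodule.Quotient.mk_surjective _ w
  obtain ⟨a, rfl⟩ := Submodule.Quotient.mk_surjective _ a
  rw [hs, hs, A_mk, mem_mk lm, N_cg (x' := g (C.v 0)) (y' := g w) (by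
    rw [eq_of_le_of_finrank_eq ((span_singleton_le_iff_mem _ _).2 h)
      (by rw [finrank_span_singleton C.i2.1, finrank_span_singleton (by simpa using C.i2.1)])]), map_N hg]
  rwa [A_mk, mem_mk lm] at m

theorem imp (e : C.D = C.μ 2) (hlt : C.D < finrank F V)
    (ih : SLG F (C.N (C.v 0) (C.v 1)) ≤ (stabRestrict G (C.N (C.v 0) (C.v 1))).range) : False := by
  have h3 := e ▸ C.three_le
  have hW := fr_quot (F := F) (x := C.Φ.v 0) C.i2.1
  obtain ⟨S', Ψ, a, b, c⟩ := C.Φ.quot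
  have hs : ∀ s ∈ S', ∀ w, ∀ a ∈ C.A w, s a ∈ C.A (s w) := fun s hs =>
    let ⟨t, m, n⟩ := a s hs; C.A_map (C.le m) (by rw [C.Φ.s0 m]; exact ms _) n
  rcases h3.eq_or_lt with e3 | e3
  · exact no_spread2 C.hq Ψ (by omega) le_rfl (Ψ.U_top ▸ C.spr e3.symm e) fun s m w _ _ => hs s m w
  obtain ⟨_, m, φ, ψ, p1, p2, p3⟩ := diag (V := C.N (C.v 0) (C.v 1)) (x := ⟨_, lm⟩) (y := ⟨_, rm⟩) C.hq
    (fun o => C.i2.1 (congrArg Subtype.val o)) fun m =>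
      let ⟨c, e⟩ := mem_span_singleton.1 m; C.i2.2 (mem_span_singleton.2 ⟨c, congrArg Subtype.val e⟩)
  obtain ⟨g, rfl⟩ := ih m
  have p3 : ∀ u m, g.1.1 u - u = φ ⟨u, m⟩ • C.v 0 + ψ ⟨u, m⟩ • C.v 1 := fun u m =>
    sub_eq_iff_eq_add'.2 ((congrArg Subtype.val (p3 ⟨u, m⟩)).trans (add_assoc ..))
  obtain ⟨h, hh, k1, k2, k3, k4⟩ := C.hom (D := C.D) g.1.2 (fun u m => by
      rw [C.Φ.U1] at *
      obtain ⟨c, rfl⟩ := mem_span_singleton.1 m
      rw [map_smul, sub_eq_iff_eq_add.1 (p3 _ lm), p1, zero_smul, add_zero]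
      exact smul_mem _ _ (add_mem (smul_mem _ _ (ms _)) (ms _)))
    (fun u m => by rw [p3 u (C.N_base ▸ m), C.Φ.U2]; exact mem_span2.2 ⟨_, _, rfl⟩) (by omega)
    (by rw [p3 _ rm, C.Φ.U1, Submodule.add_mem_iff_right _ (smul_mem _ _ (ms _)), smul_mem_iff _ p2]; exact C.i2.2)
  have h0 : h (C.v 0) ∈ F ∙ C.v 0 := C.Φ.U1 ▸ k1 1 _ (C.Φ.v_mem one_pos)
  obtain ⟨d, hd⟩ := Nat.exists_eq_add_one_of_ne_zero (show C.D ≠ 0 by omega)
  refine no_spread3 Ψ (d := d) (by omega) (by omega) (C.spr hd e) (fun s m w _ => hs s m w)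
    (h := stabQuot G _ ⟨_, mem_stab hh h0⟩) (fun w _ => C.A_map hh h0 (fun _ => rfl) w) ?_ ?_ ?_
    (k4.coprime_dvd_left ((orderOf_map_dvd _ _).trans (by simp)))
  · rw [c]; rintro _ ⟨u, m, rfl⟩; exact ⟨_, k1 _ u m, rfl⟩
  · rw [c, c, ← hd]; rintro _ ⟨u, m, rfl⟩; exact ⟨_, k2 u m, rfl⟩
  · rw [b]; exact fun o => k3 (C.Φ.U1 ▸ (Submodule.Quotient.eq _).1 o)

theorem tr_quot (e : C.D = finrank F V) : Tr2 (stabQuot G (F ∙ C.v 0)).range := by
  have key : ∀ {a b : V}, I2 F (𝐦 a : V ⧸ F ∙ C.v 0) (𝐦 b) → C.Col 2 (C.v 0) a b := fun {a b} h => by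
    refine mem_N.1 ((eq_top_of_finrank_eq ((C.fN (C.ne_mk h.1)).trans e)).ge mem_top) ⟨C.ne_mk h.1, fun m => h.2 ?_⟩
    obtain ⟨c, d, rfl⟩ := mem_span2.1 m
    exact mem_span_singleton.2 ⟨d, (Submodule.Quotient.eq _).2 (by simpa using smul_mem _ c (ms _))⟩
  intro a b a' b' h h'
  obtain ⟨a, rfl⟩ := Submodule.Quotient.mk_surjective _ a
  obtain ⟨b, rfl⟩ := Submodule.Quotient.mk_surjective _ b
  obtain ⟨a', rfl⟩ := Submodule.Quotient.mk_surjective _ a'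
  obtain ⟨b', rfl⟩ := Submodule.Quotient.mk_surjective _ b'
  obtain ⟨g, hg, e1, rfl, c, c0, rfl⟩ := (key h).norm
  obtain ⟨k, hk, f1, rfl, d, d0, rfl⟩ := (key h').norm
  refine ⟨_, ⟨⟨_, mem_stab (mul_mem hk (inv_mem hg)) ?_⟩, rfl⟩, ⟨1, by simp⟩, c * d⁻¹, by simp [smul_smul, d0]⟩
  conv_rhs => rw [← e1]
  simp [f1]

end Ctx

universe u

theorem main (hq : 3 ≤ 𝐪) (n : ℕ) : ∀ (V : Type u) [AddCommGroup V] [Module F V] [Finite V], finrank F V = n → 3 ≤ n →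
    ∀ G : Subgroup (V ≃ₗ[F] V), Tr2 G → SLG F V ≤ G := by
  induction n using Nat.strong_induction_on with | _ n ih =>
  intro V _ _ _ hn h3 G hG
  let H : Subgroup (V ≃ₗ[F] V) :=
    { carrier := {g | ∃ c : F, c ≠ 0 ∧ ∃ k ∈ G, ∀ v, k v = c • g v}
      one_mem' := ⟨1, one_ne_zero, 1, one_mem _, by simp⟩
      mul_mem' := fun ⟨c, c0, k, m, e⟩ ⟨d, d0, l, n, f⟩ =>
        ⟨c * d, mul_ne_zero c0 d0, k * l, mul_mem m n, fun v => by simp [e, f, smul_smul]⟩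
      inv_mem' := fun {g} ⟨c, c0, k, m, e⟩ => ⟨c⁻¹, inv_ne_zero c0, k⁻¹, inv_mem m, fun v => k.injective (by rw [map_smul, e (g⁻¹ v)]; simp [c0])⟩ }
  have hH : Tr2 H := fun _ _ _ _ a b => let ⟨g, m, e⟩ := hG _ _ _ _ a b; ⟨g, ⟨1, one_ne_zero, g, m, by simp⟩, e⟩
  have hZ : HasZ H := fun c c0 => ⟨.smulOfNeZero F V c c0, ⟨c⁻¹, inv_ne_zero c0, 1, one_mem _, by simp [c0]⟩, fun _ => rfl⟩
  suffices SLG F V ≤ H from SLG_le_of_tvE fun φ y h => by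
    obtain ⟨c, -, k, m, e⟩ := this (tvE_mem_SLG h)
    have p : ∀ (j : ℕ) v, (k ^ j) v = c ^ j • (v + (j * φ v) • y) := fun j => by
      induction j with
      | zero => simp
      | succ j ih => intro v; simp only [pow_succ', LinearEquiv.mul_apply, ih, e, tvE_apply, map_smul, map_add, h]
                     push_cast; module
    have := Fintype.ofFinite F
    have : k ^ Fintype.card F * tvE h = k := LinearEquiv.ext fun v => by
      simp [p, e, FiniteField.pow_card]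
    exact (mul_mem_cancel_left (pow_mem m _)).1 (this.symm ▸ m)
  rcases h3.eq_or_lt with e3 | e3
  · exact hH.ck3 hZ (by omega)
  obtain ⟨C⟩ := exists_ctx hH hZ (by omega) hq
  have hW := fr_quot (F := F) C.i2.1
  refine hH.lift hq hZ (by omega) C.i2.1 (ih (n - 1) (by omega) _ (by omega) (by omega) _ (C.tr_quot (by_contra fun ne => ?_)))
  have hlt := lt_of_le_of_ne C.D_le ne
  have e := C.iota.resolve_right Ctx.Prim.false
  exact C.imp e hlt (ih C.D (by omega) _ rfl (e ▸ C.three_le) _ (C.tr_block e))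

end KN

/-- Cameron–Kantor: a linear group 2-transitive on points contains `SL`. -/
theorem ck {F : Type*} [Field F] [Finite F] (hq : 3 ≤ Nat.card F) {V : Type*} [AddCommGroup V] [Module F V] [Finite V]
    (hn : 3 ≤ Module.finrank F V) {G : Subgroup (V ≃ₗ[F] V)} (h : Tr2 G) : Geom.SLG F V ≤ G := KN.main hq _ V rfl hn G h

end CF.Sing
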