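import Cfsg.Agent.Sing.C3
import Cfsg.Agent.Sing.KN3
import Cfsg.Agent.AFl.G
import Cfsg.Agent.MaxSub.C3C

/-! The normaliser of a Singer cycle is maximal in `SL_n(q)`, `n ≥ 13` prime. -/

set_option autoImplicit false
set_option linter.style.haveILetI false

namespace CF.Sing

open Module CF.Geom CF.MaxSub

section
variable {F V : Type*} [Field F] [AddCommGroup V] [Module F V] [Finite F] [Finite V]

theorem ck2 (hq : Nat.card F = 2) (hn : 5 ≤ finrank F V) {G : Subgroup (V ≃ₗ[F] V)} (h : Tr2 G) :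
    SLG F V ≤ G := by
  have cs : ∀ a : F, a ≠ 0 → a = 1 := fun a ha =>
    ((Nat.card_eq_two_iff' (0 : F)).1 hq).unique ha one_ne_zero
  have c2 : (2 : F) = 0 := by_contra fun c => one_ne_zero (α := F) (by
    linear_combination cs 2 c)
  letI : Module (ZMod 2) V := AddCommGroup.zmodModule fun x => by
    rw [← Nat.cast_smul_eq_nsmul F, Nat.cast_ofNat, c2, zero_smul]
  let φ : (V ≃ₗ[F] V) →* AFl.GL2 V :=
    { toFun := fun g => { g.toAddEquiv with map_smul' := ZMod.map_smul g.toAddEquiv }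
      map_one' := rfl
      map_mul' := fun _ _ => rfl }
  have rk : finrank (ZMod 2) V = finrank F V := by
    have := (card_top (F := ZMod 2) (V := V)).symm.trans (card_top (F := F))
    rw [hq, Nat.card_zmod] at this
    exact Nat.pow_right_injective le_rfl this
  have i2 : ∀ x y : V, AFl.I2 x y → I2 F x y := fun x y a => ⟨a.1, fun c => by
    obtain ⟨r, rfl⟩ := Submodule.mem_span_singleton.1 c
    exact a.2.2 (by rw [cs r (left_ne_zero_of_smul a.2.1), one_smul])⟩
  have := ((AFl.ck_main _ V rk (by omega) (G.map φ) fun x y x' y' a b => by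
    obtain ⟨g, hg, ⟨r, hr⟩, s, hs⟩ := h x y x' y' (i2 _ _ a) (i2 _ _ b)
    rw [cs r fun z => a.1 (by simpa [z] using hr), one_smul] at hr
    rw [cs s fun z => a.2.1 (by simpa [z] using hs), one_smul] at hs
    exact ⟨_, ⟨g, hg, rfl⟩, hr, hs⟩).1).resolve_right (by omega)
  intro g _
  obtain ⟨k, hk, e⟩ : φ g ∈ G.map φ := this.symm ▸ Subgroup.mem_top _
  exact (LinearEquiv.ext fun v => LinearEquiv.congr_fun e v : k = g) ▸ hk

theorem ck' (hn : 5 ≤ finrank F V) {G : Subgroup (V ≃ₗ[F] V)} (h : Tr2 G) : SLG F V ≤ G := by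
  rcases (two_le_q (F := F)).eq_or_lt with e | e
  exacts [ck2 e.symm hn h, ck e (by omega) h]

theorem singer_maxIn {K : Type*} [Field K] [Algebra F K] [Module K V] [IsScalarTower F K V]
    (hp : (finrank F K).Prime) (hn : 13 ≤ finrank F K) (h1 : finrank K V = 1)
    {X : Subgroup (V ≃ₗ[F] V)} (hX : SLG F V ⊓ SemiG F K V ≤ X) (hS : X ≤ SLG F V)
    {g : V ≃ₗ[F] V} (hg : g ∈ X) (hm : g ∉ SemiG F K V) : SLG F V ≤ X := by
  haveI : FiniteDimensional F K := .of_finrank_pos (by omega)
  haveI : Finite K := Module.finite_of_finite F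
  haveI : FiniteDimensional K V := .of_finrank_pos (by omega)
  haveI := Module.nontrivial_of_finrank_pos (R := K) (M := V) (by omega)
  let e₀ : V ≃ₗ[K] K := LinearEquiv.ofFinrankEq V K (by rw [h1, finrank_self])
  let e := e₀.restrictScalars F
  have he : ∀ (k : K) v, e (k • v) = k * e v := e₀.map_smul
  have semi : ∀ g, Mono (autCongr e g) → g ∈ SemiG F K V := fun g c => by
    obtain ⟨σ, hσ⟩ := c.semi
    refine mem_semiG fun k => ⟨σ k, fun v => e.injective ?_⟩
    have := hσ k (e v)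
    rw [← he, autCongr_apply, autCongr_apply, e.symm_apply_apply, e.symm_apply_apply] at this
    rw [this, he]
  obtain ⟨d, m, h⟩ := exists_par (two_le_q (F := F)) hp hn
  have := ck' (G := X.map (autCongr e).toMonoidHom) (by omega) (h.tr2 (fun t ht => by
    obtain ⟨k, hk⟩ := (autCongr e).surjective (ml F t)
    refine ⟨k, hX ⟨(autCongr_mem_SLG e k).1 (mem_SLG.2 ((algebraMap F K).injective ?_)),
      semi k (hk ▸ mono_ml t)⟩, hk⟩
    rw [hk, det_ml, ← Nat.card_units, h.card_units, mul_assoc,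
      Nat.mul_div_cancel_left _ (by have := h.q2; omega), mul_comm, pow_mul,
      ← Units.val_pow_eq_pow_val, ht]; simp)
    (by rintro _ ⟨k, hk, rfl⟩; exact (autCongr_mem_SLG e k).2 (hS hk)) ⟨g, hg, rfl⟩ (mt (semi g) hm))
  intro k hk
  obtain ⟨k', a, b⟩ := this ((autCongr_mem_SLG e k).2 hk)
  exact (autCongr e).injective b ▸ a
end

open Cfsg.Geo Matrix
open scoped MatrixGroups

theorem isMaximalIn_singer {F : Type*} [Field F] [Finite F] {ι : Type} [Fintype ι] [DecidableEq ι]
    (hn : 13 ≤ Fintype.card ι) {r : ℕ} (hr : r.Prime) {K : Subalgebra F (Matrix ι ι F)}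
    (hK : IsFieldSubalgebra r K) :
    IsMaximalIn (specialLinear ι F) (subalgebraNormalizer K ⊓ specialLinear ι F) := by
  rcases lt_or_ge r (Fintype.card ι) with hlt | hge
  · exact isMaximalIn_sl_field hr hlt hK
  refine MaxIn.isMaximalIn (MulEquiv.refl _) ⟨SL_not_le_field (by omega) hr.two_le hK,
    fun X hX hS m hm hm' => ?_⟩ (fun _ => Iff.rfl) fun _ => Iff.rfl
  have : Nonempty ι := Fintype.card_pos_iff.1 (by omega)
  have hF := isField_of_fieldSubalgebra hK
  letI := hF.toField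
  have : IsScalarTower F K (ι → F) := ⟨fun c k v => smul_mulVec c (k : Matrix ι ι F) v⟩
  have h1 := finrank_mul_finrank F K (ι → F)
  rw [hK.finrank_eq, finrank_fintype_fun_eq_card] at h1
  have h0 : finrank K (ι → F) = 1 := by
    rcases Nat.lt_trichotomy (finrank K (ι → F)) 1 with c | c | c
    · rw [Nat.lt_one_iff.1 c] at h1; omega
    · exact c
    · nlinarith
  have h2 := singer_maxIn (K := K) (X := X.map (glEquiv ι F).toMonoidHom) (hK.finrank_eq ▸ hr)
    (hK.finrank_eq ▸ hn.trans hge) h0 (fun g hg => by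
      obtain ⟨g, rfl⟩ := (glEquiv ι F).surjective g
      exact ⟨g, hX ⟨(mem_specialLinear_iff g).2 hg.1,
        (mem_subalgebraNormalizer_iff_semiG hF g).2 hg.2⟩, rfl⟩)
    (by rintro _ ⟨k, hk, rfl⟩; exact (mem_specialLinear_iff k).1 (hS hk)) ⟨m, hm, rfl⟩
    (mt (mem_subalgebraNormalizer_iff_semiG hF m).2 hm')
  intro g hg
  obtain ⟨g', h3, h4⟩ := h2 ((mem_specialLinear_iff g).1 hg)
  exact (glEquiv ι F).injective h4 ▸ h3

end CF.Sing
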