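import Mathlib

/-! Power sums over an orbit of a linear group containing the norm one group (functional method). -/

set_option autoImplicit false
set_option linter.style.haveILetI false

namespace CF.Sing.PA

open MvPolynomial Finsupp

variable {K : Type*} [Field K] [Fintype K] {p e n : ℕ} [Fact p.Prime] [CharP K p] [NeZero (e * n)]

/-- Frobenius powers indexed by `ZMod N` -/
noncomputable def fr (p : ℕ) [Fact p.Prime] [CharP K p] {N : ℕ} (u : ZMod N) : K →+* K :=
  iterateFrobenius K p u.val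

omit [Fintype K] in
theorem fr_def {N : ℕ} (u : ZMod N) (x : K) : fr p u x = x ^ p ^ u.val := rfl

omit [CharP K p] [Fact p.Prime] in
theorem pow_mod {N : ℕ} (hK : Fintype.card K = p ^ N) (x : K) (a : ℕ) :
    x ^ p ^ (a % N) = x ^ p ^ a := by
  conv_rhs => rw [← Nat.div_add_mod a N, pow_add, pow_mul, pow_mul, ← hK, FiniteField.pow_card_pow]

theorem fr_add {N : ℕ} [NeZero N] (hK : Fintype.card K = p ^ N) (u v : ZMod N) (x : K) :
    fr p (u + v) x = fr p u (fr p v x) := by
  rw [fr_def, fr_def, fr_def, ZMod.val_add, pow_mod hK, ← pow_mul, ← pow_add, add_comm]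

theorem fr_natCast {N : ℕ} [NeZero N] (hK : Fintype.card K = p ^ N) (a : ℕ) (x : K) :
    fr p (a : ZMod N) x = x ^ p ^ a := by
  rw [fr_def, ZMod.val_natCast, pow_mod hK]

theorem fr_succ {N : ℕ} [NeZero N] (hK : Fintype.card K = p ^ N) (u : ZMod N) (x : K) :
    fr p (u + 1) x = fr p u x ^ p := by
  rw [add_comm, fr_add hK, ← Nat.cast_one, fr_natCast hK, pow_one]

/-- level -/
def lev (e n : ℕ) : ZMod (e * n) →+* ZMod e := ZMod.castHom (Dvd.intro n rfl) (ZMod e)

/-- level weight -/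
def wt (e n : ℕ) (u : ZMod (e * n)) : ZMod e → ℕ := Pi.single (lev e n u) 1

theorem weight_wt (A : ZMod (e * n) →₀ ℕ) (s : ZMod e) :
    weight (wt e n) A s = ∑ u ∈ Finset.univ.filter (fun u => lev e n u = s), A u := by
  rw [weight_eq_sum, Finset.sum_apply, Finset.sum_filter]
  refine Finset.sum_congr rfl fun u _ => ?_
  simp [wt, Pi.single_apply, eq_comm]

omit [NeZero (e * n)] in
theorem e_ne [h : NeZero (e * n)] : NeZero e := ⟨fun h0 => h.out (by simp [h0])⟩

theorem degree_eq (A : ZMod (e * n) →₀ ℕ) :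
    haveI := e_ne (e := e) (n := n)
    A.degree = ∑ s, weight (wt e n) A s := by
  haveI := e_ne (e := e) (n := n)
  simp only [weight_wt]
  rw [degree_eq_sum, Finset.sum_fiberwise]

theorem card_fib (s : ZMod e) : (Finset.univ.filter (fun u => lev e n u = s)).card = n := by
  haveI := e_ne (e := e) (n := n)
  have hs : Function.Surjective (lev e n) := ZMod.castHom_surjective _
  have h1 : ∀ s, (Finset.univ.filter (fun u => lev e n u = s)).card =
      (Finset.univ.filter (fun u => lev e n u = 0)).card := fun s =>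
    AddMonoidHom.card_fiber_eq_of_mem_range (lev e n).toAddMonoidHom (hs s) (hs 0)
  have h2 := Finset.card_eq_sum_card_fiberwise (f := lev e n) (s := Finset.univ)
    (t := Finset.univ) (fun _ _ => Finset.mem_coe.2 (Finset.mem_univ _))
  simp only [h1, Finset.sum_const, Finset.card_univ, ZMod.card, smul_eq_mul] at h2
  rw [h1]
  exact (Nat.eq_of_mul_eq_mul_left (NeZero.pos e) h2).symm

/-- periodic exponent vectors -/
def Per (A : ZMod (e * n) →₀ ℕ) : Prop := ∀ u, A (u + (e : ZMod (e * n))) = A u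

theorem Per.eq {A : ZMod (e * n) →₀ ℕ} (h : Per A) {u v : ZMod (e * n)}
    (e' : lev e n u = lev e n v) : A u = A v := by
  have : lev e n (u - v) = 0 := by rw [map_sub, e', sub_self]
  rw [lev, ZMod.castHom_apply, ← ZMod.natCast_val, ZMod.natCast_eq_zero_iff] at this
  obtain ⟨j, hj⟩ := this
  have h2 : u = v + (j : ℕ) * (e : ZMod (e * n)) := by
    have := ZMod.natCast_zmod_val (u - v)
    rw [hj] at this
    push_cast at this
    linear_combination -this
  rw [h2]
  clear h2 hj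
  induction j with
  | zero => simp
  | succ j ih => rw [← ih, ← h (v + j * e)]; push_cast; ring_nf

theorem Per.weight {A : ZMod (e * n) →₀ ℕ} (h : Per A) (u : ZMod (e * n)) :
    weight (wt e n) A (lev e n u) = n * A u := by
  rw [weight_wt, Finset.sum_congr rfl fun v hv => h.eq (Finset.mem_filter.1 hv).2,
    Finset.sum_const, card_fib, smul_eq_mul]

theorem Per.ext {A B : ZMod (e * n) →₀ ℕ} (h : Per A) (h' : Per B)
    (hw : Finsupp.weight (wt e n) A = Finsupp.weight (wt e n) B) : A = B := by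
  ext u
  have := congrFun hw (lev e n u)
  rw [h.weight, h'.weight] at this
  exact Nat.eq_of_mul_eq_mul_left (Nat.pos_of_ne_zero fun h0 =>
    NeZero.ne (e * n) (by simp [h0])) this

/-- the exponent of a monomial -/
def ex (p : ℕ) {N : ℕ} [NeZero N] (A : ZMod N →₀ ℕ) : ℕ := ∑ u, A u * p ^ u.val

/-- evaluation -/
noncomputable def ev (p : ℕ) [Fact p.Prime] [CharP K p] (N : ℕ) (x : K) :
    MvPolynomial (ZMod N) K →+* K := eval fun u => fr p u x

omit [Fintype K] in
theorem ev_mono {N : ℕ} [NeZero N] (A : ZMod N →₀ ℕ) (x : K) :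
    ev p N x (monomial A 1) = ∏ u, fr p u x ^ A u := by
  rw [ev, eval_monomial, one_mul, Finsupp.prod_fintype _ _ (by simp)]

omit [Fintype K] in
theorem ev_mono' {N : ℕ} [NeZero N] (A : ZMod N →₀ ℕ) (x : K) :
    ev p N x (monomial A 1) = x ^ ex p A := by
  rw [ev_mono, ex, ← Finset.prod_pow_eq_pow_sum]
  simp only [fr_def, ← pow_mul, mul_comm]

omit [Fact p.Prime] in
theorem ex_inj {N : ℕ} [NeZero N] {A B : ZMod N →₀ ℕ} (hA : ∀ u, A u < p) (hB : ∀ u, B u < p)
    (h : ex p A = ex p B) : A = B := by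
  obtain ⟨N, rfl⟩ := Nat.exists_eq_succ_of_ne_zero (NeZero.ne N)
  have := finFunctionFinEquiv.injective (a₁ := fun u : Fin (N + 1) => (⟨A u, hA u⟩ : Fin p))
    (a₂ := fun u => ⟨B u, hB u⟩) (Fin.ext (by
      rw [finFunctionFinEquiv_apply, finFunctionFinEquiv_apply]; exact h))
  ext u
  exact congrArg Fin.val (congrFun this u)

omit [Fact p.Prime] in
theorem ex_lt {N : ℕ} [NeZero N] {A : ZMod N →₀ ℕ} (hA : ∀ u, A u < p) : ex p A < p ^ N := by
  obtain ⟨N, rfl⟩ := Nat.exists_eq_succ_of_ne_zero (NeZero.ne N)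
  have := (finFunctionFinEquiv (fun u : Fin (N + 1) => (⟨A u, hA u⟩ : Fin p))).2
  rwa [finFunctionFinEquiv_apply] at this

omit [Fact p.Prime] in
theorem ex_surj {N : ℕ} [NeZero N] {a : ℕ} (ha : a < p ^ N) :
    ∃ A : ZMod N →₀ ℕ, (∀ u, A u < p) ∧ ex p A = a := by
  obtain ⟨N, rfl⟩ := Nat.exists_eq_succ_of_ne_zero (NeZero.ne N)
  obtain ⟨f, hf⟩ := finFunctionFinEquiv.surjective (⟨a, ha⟩ : Fin (p ^ (N + 1)))
  refine ⟨equivFunOnFinite.symm fun u => f u, fun u => (f u).2, ?_⟩
  have := congrArg Fin.val hf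
  rwa [finFunctionFinEquiv_apply] at this

theorem ex_eq_zero {N : ℕ} [NeZero N] {A : ZMod N →₀ ℕ} (h : ex p A = 0) : A = 0 :=
  ex_inj (p := p) (fun u => by
    have := Finset.sum_eq_zero_iff.1 h u (Finset.mem_univ _)
    have hp := (Fact.out : p.Prime).pos
    rw [(mul_eq_zero.1 this).resolve_right (by positivity)]; exact hp)
    (fun _ => (Fact.out : p.Prime).pos) (by rw [h]; simp [ex])

/-- the functional -/
noncomputable def Lam (p : ℕ) [Fact p.Prime] [CharP K p] (N : ℕ) (O : Finset K)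
    (P : MvPolynomial (ZMod N) K) : K := ∑ x ∈ O, ev p N x P

omit [Fintype K] in
theorem Lam_mul_mono {N : ℕ} (O : Finset K) (P : MvPolynomial (ZMod N) K) (Q : ZMod N →₀ ℕ) :
    Lam p N O (P * monomial Q 1) =
      ∑ B ∈ P.support, coeff B P * Lam p N O (monomial (B + Q) 1) := by
  conv_lhs => rw [P.as_sum, Finset.sum_mul]
  simp only [Lam, map_sum, Finset.mul_sum]
  rw [Finset.sum_comm]
  refine Finset.sum_congr rfl fun B _ => Finset.sum_congr rfl fun x _ => ?_
  rw [monomial_mul, mul_one, ← mul_one (coeff B P), ← C_mul_monomial, map_mul, mul_one, ev, eval_C]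

theorem Lam_carry {N : ℕ} [NeZero N] (hK : Fintype.card K = p ^ N) (O : Finset K)
    (C : ZMod N →₀ ℕ) (u : ZMod N) : Lam p N O (monomial (single u p + C) 1) =
      Lam p N O (monomial (single (u + 1) 1 + C) 1) := by
  refine Finset.sum_congr rfl fun x _ => ?_
  rw [← one_mul (1 : K), ← monomial_mul, ← monomial_mul, map_mul, map_mul, ← X_pow_eq_monomial,
    ← X_pow_eq_monomial, map_pow, map_pow, ev, eval_X, eval_X, fr_succ hK, pow_one]

theorem per_of_ne (hK : Fintype.card K = p ^ (e * n)) {O : Finset K}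
    (hT : ∀ b : K, b ≠ 0 → ∀ x ∈ O, b ^ p ^ e / b * x ∈ O) {A : ZMod (e * n) →₀ ℕ}
    (hA : ∀ u, A u < p) (h : Lam p (e * n) O (monomial A 1) ≠ 0) : Per A := by
  classical
  let A' : ZMod (e * n) →₀ ℕ := equivFunOnFinite.symm fun u => A (u - e)
  have hA' : ∀ u, A' u < p := fun u => hA _
  have h1 : ∀ b : K, (b ^ p ^ e) ^ ex p A = b ^ ex p A' := fun b => by
    rw [← ev_mono', ← ev_mono', ev_mono, ev_mono]
    refine Fintype.prod_equiv (Equiv.addRight (e : ZMod (e * n))) _ _ fun u => ?_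
    simp [A', fr_add hK, fr_natCast hK]
  obtain ⟨g, hg⟩ := IsCyclic.exists_generator (α := Kˣ)
  have hg' := orderOf_eq_card_of_forall_mem_zpowers hg
  have ha : (g : K) ^ p ^ e / g ≠ 0 := div_ne_zero (pow_ne_zero _ g.ne_zero) g.ne_zero
  have h2 : Lam p (e * n) O (monomial A 1) =
      ((g : K) ^ p ^ e / g) ^ ex p A * Lam p (e * n) O (monomial A 1) := by
    simp only [Lam, ev_mono', Finset.mul_sum, ← mul_pow]
    symm
    refine Finset.sum_bij (fun x _ => (g : K) ^ p ^ e / g * x) (fun x hx => hT _ g.ne_zero x hx)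
      (fun _ _ _ _ h => mul_left_cancel₀ ha h) (fun y hy => ?_) fun _ _ => rfl
    have := Finset.surj_on_of_inj_on_of_card_le (s := O) (t := O)
      (fun x _ => (g : K) ^ p ^ e / g * x) (fun x hx => hT _ g.ne_zero x hx)
      (fun _ _ _ _ h => mul_left_cancel₀ ha h) le_rfl y hy
    obtain ⟨a, b, c⟩ := this
    exact ⟨a, b, c.symm⟩
  have h3 : g ^ ex p A' = g ^ ex p A := by
    have := mul_right_cancel₀ h ((one_mul _).trans h2)
    rw [div_pow, h1, eq_div_iff (pow_ne_zero _ g.ne_zero), one_mul] at this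
    exact Units.ext (by simpa using this.symm)
  rw [pow_eq_pow_iff_modEq, hg', Nat.card_eq_fintype_card, Fintype.card_units, hK] at h3
  have l1 := ex_lt hA
  have l2 := ex_lt hA'
  have h4 : A' = A := by
    by_cases h0 : A = 0
    · subst h0; ext; simp [A']
    have h0' : A' ≠ 0 := fun c => h0 (by
      ext u; simpa [A'] using DFunLike.congr_fun c (u + e))
    have p1 := Nat.pos_of_ne_zero (mt ex_eq_zero h0 : ex p A ≠ 0)
    have p2 := Nat.pos_of_ne_zero (mt ex_eq_zero h0' : ex p A' ≠ 0)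
    refine ex_inj hA' hA ?_
    have := Nat.ModEq.eq_of_lt_of_lt (a := ex p A' - 1) (b := ex p A - 1)
      (Nat.ModEq.add_right_cancel' 1 (by rwa [Nat.sub_add_cancel p1, Nat.sub_add_cancel p2]))
      (by omega) (by omega)
    omega
  intro u
  simpa [A'] using (DFunLike.congr_fun h4 (u + e)).symm

theorem exists_ne {N : ℕ} [NeZero N] (hK : Fintype.card K = p ^ N) {O : Finset K} (h0 : (0 : K) ∉ O)
    {z z' : K} (hz : z ∈ O) (hz' : z' ∉ O) (hz0 : z' ≠ 0) :
    ∃ A : ZMod N →₀ ℕ, A ≠ 0 ∧ (∀ u, A u < p) ∧ (∃ u, A u + 1 ≠ p) ∧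
      Lam p N O (monomial A 1) ≠ 0 := by
  classical
  by_contra hc
  push Not at hc
  set Q := p ^ N - 1 with hQ
  have hp1 : 1 < p ^ N := hK ▸ Fintype.one_lt_card
  have h1 : ∀ a, 0 < a → a < Q → ∑ x ∈ O, x ^ a = 0 := by
    intro a a0 a1
    obtain ⟨A, hA, rfl⟩ := ex_surj (p := p) (N := N) (a := a) (by omega)
    by_contra h
    have h2 : ∀ u, A u + 1 = p := by
      by_contra h3
      push Not at h3
      exact h (by simpa [Lam, ev_mono'] using hc A (fun c => by simp [c, ex] at a0) hA h3)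
    obtain ⟨B, hB, e⟩ := ex_surj (p := p) (N := N) (a := Q) (by omega)
    have : ex p B ≤ ex p A := Finset.sum_le_sum fun u _ =>
      Nat.mul_le_mul_right _ (by have := hB u; have := h2 u; omega)
    omega
  have h2 : ∀ w : K, w ≠ 0 → ∑ x ∈ O, ∑ a ∈ Finset.range Q, (x / w) ^ a = O.card := by
    intro w _
    rw [Finset.sum_comm, Finset.sum_eq_single 0]
    · simp
    · intro a ha a0
      simp only [div_pow, ← Finset.sum_div]
      rw [h1 a (Nat.pos_of_ne_zero a0) (Finset.mem_range.1 ha), zero_div]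
    · intro h; exact absurd (Finset.mem_range.2 (by omega)) h
  have h3 : ∀ w : K, w ≠ 0 → ∀ x ∈ O, x ≠ w → ∑ a ∈ Finset.range Q, (x / w) ^ a = 0 := by
    intro w hw x hx hxw
    have e := mul_neg_geom_sum (x / w) Q
    rw [hQ, ← hK, FiniteField.pow_card_sub_one_eq_one _ (div_ne_zero (fun c => h0 (c ▸ hx)) hw),
      sub_self] at e
    rw [hQ, ← hK]
    exact (mul_eq_zero.1 e).resolve_left fun c => hxw (by
      rw [sub_eq_zero, eq_div_iff hw, one_mul] at c; exact c.symm)
  have hz1 : z ≠ 0 := fun c => h0 (c ▸ hz)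
  have e1 := h2 z hz1
  have e2 := h2 z' hz0
  rw [Finset.sum_eq_single_of_mem z hz fun x hx hne => h3 z hz1 x hx hne] at e1
  rw [Finset.sum_eq_zero fun x hx => h3 z' hz0 x hx fun c => hz' (c ▸ hx)] at e2
  rw [← e2, div_self hz1] at e1
  simp only [one_pow, Finset.sum_const, Finset.card_range, nsmul_eq_mul, mul_one] at e1
  rw [hQ, ← hK, Nat.cast_sub Fintype.card_pos, FiniteField.cast_card_eq_zero] at e1
  simp at e1

end CF.Sing.PA
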