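import Cfsg.Agent.Sing.A1

/-! The functional method: a non-monomial map preserving a proper orbit is impossible. -/

set_option autoImplicit false
set_option linter.style.haveILetI false

namespace CF.Sing.PA

open MvPolynomial Finsupp

variable {K : Type*} [Field K] [Fintype K] {p e n : ℕ} [Fact p.Prime] [CharP K p] [NeZero (e * n)]

/-- the linear form giving `h(x)^(p^u)` -/
noncomputable def ell (p : ℕ) [Fact p.Prime] [CharP K p] {N : ℕ} [NeZero N] (c : ZMod N → K)
    (u : ZMod N) : MvPolynomial (ZMod N) K := ∑ w, C (fr p u (c (w - u))) * X w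

theorem ev_ell {N : ℕ} [NeZero N] (hK : Fintype.card K = p ^ N) (c : ZMod N → K) (u : ZMod N)
    (x : K) : ev p N x (ell p c u) = fr p u (∑ w, c w * fr p w x) := by
  rw [ell, map_sum, map_sum]
  refine (Fintype.sum_equiv (Equiv.addLeft u) _ _ fun w => ?_).symm
  simp [ev, fr_add hK]

omit [Fintype K] in
theorem ell_wh {c : ZMod (e * n) → K} (hc : ∀ w, lev e n w ≠ 0 → c w = 0) (u : ZMod (e * n)) :
    IsWeightedHomogeneous (wt e n) (ell p c u) (wt e n u) := by
  refine IsWeightedHomogeneous.sum _ _ _ fun w _ => ?_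
  by_cases h : lev e n (w - u) = 0
  · have : wt e n u = wt e n w := by rw [map_sub, sub_eq_zero] at h; rw [wt, wt, h]
    rw [this]
    exact (isWeightedHomogeneous_X K _ w).C_mul _
  · rw [hc _ h, map_zero, map_zero, zero_mul]; exact isWeightedHomogeneous_zero _ _ _

omit [Fintype K] in
theorem ell_h {N : ℕ} [NeZero N] (c : ZMod N → K) (u : ZMod N) : (ell p c u).IsHomogeneous 1 :=
  IsHomogeneous.sum _ _ _ fun w _ => (isHomogeneous_X K w).C_mul _

omit [Fintype K] in
theorem eval_ell {N : ℕ} [NeZero N] (c : ZMod N → K) (u w : ZMod N) :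
    eval (Pi.single w 1) (ell p c u) = fr p u (c (w - u)) := by
  rw [ell, map_sum, Finset.sum_eq_single w] <;> simp +contextual [Pi.single_apply]

omit [Fintype K] in
theorem pderiv_ell {N : ℕ} [NeZero N] (c : ZMod N → K) (u w : ZMod N) :
    pderiv w (ell p c u) = C (fr p u (c (w - u))) := by
  rw [ell, map_sum, Finset.sum_eq_single w] <;> simp +contextual [Pi.single_apply]

omit [Fintype K] [CharP K p] [Fact p.Prime] in
theorem coeff_single {σ : Type*} [Fintype σ] [DecidableEq σ] {P : MvPolynomial σ K} {d : ℕ}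
    (h : P.IsHomogeneous d) (w : σ) : coeff (single w d) P = eval (Pi.single w 1) P := by
  rw [eval_eq', Finset.sum_eq_single (single w d)]
  · rw [Finset.prod_eq_one, mul_one]
    intro u _
    by_cases e : u = w
    · simp [e]
    · simp [single_apply, Ne.symm e]
  · intro B hB hne
    have hd : B.degree = d := by
      have := h (MvPolynomial.mem_support_iff.1 hB); rw [degree_eq_weight_one]; exact this
    by_contra hc
    refine hne ?_
    have h0 : ∀ u, u ≠ w → B u = 0 := fun u hu => by
      by_contra h1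
      exact hc (by rw [Finset.prod_eq_zero (Finset.mem_univ u) (by simp [hu, h1]), mul_zero])
    rw [degree_eq_sum, Finset.sum_eq_single w (fun u _ hu => h0 u hu) (by simp)] at hd
    ext u
    by_cases e : u = w
    · simp [e, hd]
    · simp [single_apply, Ne.symm e, h0 u e]
  · intro h; rw [MvPolynomial.notMem_support_iff.1 h, zero_mul]

/-- the setting -/
structure St (p e n : ℕ) [Fact p.Prime] [CharP K p] [NeZero (e * n)] (O : Finset K)
    (c c' : ZMod (e * n) → K) : Prop where
  hK : Fintype.card K = p ^ (e * n)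
  hT : ∀ b : K, b ≠ 0 → ∀ x ∈ O, b ^ p ^ e / b * x ∈ O
  hc : ∀ w, lev e n w ≠ 0 → c w = 0
  hc' : ∀ w, lev e n w ≠ 0 → c' w = 0
  mem : ∀ x ∈ O, ∑ w, c w * fr p w x ∈ O
  inv : ∀ x, ∑ w, c' w * fr p w (∑ w, c w * fr p w x) = x

/-- minimal exponent vectors -/
structure Mn (p : ℕ) [Fact p.Prime] [CharP K p] {N : ℕ} (O : Finset K) (R : ZMod N →₀ ℕ) :
    Prop where
  ne : R ≠ 0
  lam : Lam p N O (monomial R 1) ≠ 0
  min : ∀ A : ZMod N →₀ ℕ, A ≠ 0 → Lam p N O (monomial A 1) ≠ 0 → R.degree ≤ A.degree

variable {O : Finset K} {c c' : ZMod (e * n) → K} {R : ZMod (e * n) →₀ ℕ}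

omit [Fintype K] in
theorem Mn.of_deg (h : Mn p O R) {A : ZMod (e * n) →₀ ℕ} (hA : A.degree = R.degree)
    (hl : Lam p _ O (monomial A 1) ≠ 0) : Mn p O A :=
  ⟨fun c => h.ne ((degree_eq_zero_iff _).1 (by rw [← hA, c, map_zero])), hl,
    fun B a b => hA ▸ h.min B a b⟩

theorem split {N : ℕ} {A : ZMod N →₀ ℕ} {u : ZMod N} {k : ℕ} (h : k ≤ A u) :
    A = single u k + (A - single u k) := (add_tsub_cancel_of_le (single_le_iff.2 h)).symm

theorem Mn.red (hK : Fintype.card K = p ^ (e * n)) (h : Mn p O R) (u : ZMod (e * n)) : R u < p := by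
  by_contra hc
  have e1 := split (not_lt.1 hc)
  have h1 := h.lam
  rw [e1, Lam_carry hK] at h1
  have h2 := h.min _ (fun c => by simpa using DFunLike.congr_fun c (u + 1)) h1
  rw [e1, map_add, map_add, degree_single, degree_single, add_tsub_cancel_left] at h2
  have := (Fact.out : p.Prime).two_le
  omega

theorem St.per (S : St p e n O c c') (h : Mn p O R) : Per R := per_of_ne S.hK S.hT (h.red S.hK) h.lam

theorem St.uniq (S : St p e n O c c') (h : Mn p O R) {A : ZMod (e * n) →₀ ℕ}
    (hw : weight (wt e n) A = weight (wt e n) R) (hl : Lam p _ O (monomial A 1) ≠ 0) : A = R :=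
  (S.per (h.of_deg (by rw [degree_eq, degree_eq, hw]) hl)).ext (S.per h) hw

theorem St.swap (S : St p e n O c c') (P Q : ZMod (e * n) →₀ ℕ) :
    Lam p _ O ((∏ u, ell p c' u ^ Q u) * monomial P 1) =
      Lam p _ O ((∏ u, ell p c u ^ P u) * monomial Q 1) := by
  classical
  have hi : Function.Injective fun x => ∑ w, c w * fr p w x := fun x y h => by
    rw [← S.inv x, ← S.inv y]; exact congrArg (fun z => ∑ w, c' w * fr p w z) h
  symm
  refine Finset.sum_bij (fun x _ => ∑ w, c w * fr p w x) (fun x hx => S.mem x hx)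
    (fun _ _ _ _ h => hi h) (fun y hy => ?_) fun x _ => ?_
  · obtain ⟨a, b, d⟩ := Finset.surj_on_of_inj_on_of_card_le (s := O) (t := O)
      (fun x _ => ∑ w, c w * fr p w x) (fun x hx => S.mem x hx) (fun _ _ _ _ h => hi h) le_rfl y hy
    exact ⟨a, b, d.symm⟩
  · simp only [map_mul, map_prod, map_pow, ev_ell S.hK, ev_mono, S.inv]
    exact mul_comm _ _

omit [Fintype K] in
theorem prod_wh {c : ZMod (e * n) → K} (hc : ∀ w, lev e n w ≠ 0 → c w = 0) (Q : ZMod (e * n) →₀ ℕ) :
    IsWeightedHomogeneous (wt e n) (∏ u, ell p c u ^ Q u) (weight (wt e n) Q) := by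
  rw [weight_eq_sum]
  exact IsWeightedHomogeneous.prod _ _ _ fun u _ => (ell_wh hc u).pow _

theorem St.key (S : St p e n O c c') (h : Mn p O R) {P Q B : ZMod (e * n) →₀ ℕ}
    (h1 : ∀ A, weight (wt e n) A = weight (wt e n) Q → Lam p _ O (monomial (A + P) 1) = 0)
    (h2 : ∀ A, weight (wt e n) A = weight (wt e n) P → A ≠ B → Lam p _ O (monomial (A + Q) 1) = 0)
    (h3 : Lam p _ O (monomial (B + Q) 1) ≠ 0) : coeff B (∏ u, ell p c u ^ P u) = 0 := by
  have := S.swap P Q
  rw [Lam_mul_mono, Lam_mul_mono, Finset.sum_eq_zero fun A hA => by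
    rw [h1 A (prod_wh S.hc' Q (MvPolynomial.mem_support_iff.1 hA)), mul_zero], Finset.sum_eq_single B
      (fun A hA hne => by rw [h2 A (prod_wh S.hc P (MvPolynomial.mem_support_iff.1 hA)) hne, mul_zero])
      (fun hB => by rw [MvPolynomial.notMem_support_iff.1 hB, zero_mul])] at this
  exact (mul_eq_zero.1 this.symm).resolve_right h3

omit [Fintype K] in
theorem prod_single {N : ℕ} [NeZero N] (f : ZMod N → MvPolynomial (ZMod N) K) (a : ZMod N) (k : ℕ) :
    ∏ u, f u ^ (single a k : ZMod N →₀ ℕ) u = f a ^ k := by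
  rw [Finset.prod_eq_single a] <;> simp +contextual [single_apply, eq_comm]

theorem St.caseA (S : St p e n O c c') (h : Mn p O R) {a j k : ZMod (e * n)} (h1 : R a ≠ 0)
    (h2 : R a + 1 ≠ p) (hjk : j ≠ k) (hj : c j ≠ 0) (hk : c k ≠ 0) : False := by
  have lj : lev e n (a + j) = lev e n a := by
    rw [map_add, not_not.1 (mt (S.hc j) hj), add_zero]
  have lk : lev e n (a + k) = lev e n a := by
    rw [map_add, not_not.1 (mt (S.hc k) hk), add_zero]
  have hne : a + j ≠ a + k := fun c => hjk (add_left_cancel c)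
  set B : ZMod (e * n) →₀ ℕ := single (a + j) (R a) + single (a + k) 1 with hB
  have hle : B ≤ R := fun u => by
    have := (S.per h).eq lj
    have := (S.per h).eq lk
    simp only [hB, Finsupp.add_apply, single_apply]
    split_ifs with c1 c2 c2
    · exact absurd (c1.trans c2.symm) hne
    · subst c1; omega
    · subst c2; omega
    · omega
  have e1 : B + (R - B) = R := add_tsub_cancel_of_le hle
  have w1 : weight (wt e n) B = weight (wt e n) (single a (R a + 1)) := by
    rw [hB, map_add, weight_single, weight_single, weight_single, wt, wt, wt, lj, lk, add_smul]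
  have := S.key h (P := single a (R a + 1)) (Q := R - B) (B := B) (fun A hA => by
    by_contra c
    have := S.uniq h (by rw [map_add, hA, ← w1, ← map_add, add_comm, e1]) c
    have := DFunLike.congr_fun this a
    simp at this; omega) (fun A hA hne => by
    by_contra c
    have := S.uniq h (by rw [map_add, hA, ← w1, ← map_add, e1]) c
    exact hne (add_right_cancel (this.trans e1.symm))) (by rw [e1]; exact h.lam)
  rw [prod_single] at this
  have e2 := coeff_pderiv (i := a + k) (ell p c a ^ (R a + 1)) (single (a + j) (R a))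
  rw [← hB, this, zero_mul, pderiv_pow, pderiv_ell, Nat.add_sub_cancel, mul_right_comm,
    ← map_natCast (C : K →+* MvPolynomial (ZMod (e * n)) K), ← map_mul, coeff_C_mul,
    coeff_single (d := R a) (by simpa using (ell_h c a).pow (R a)), map_pow, eval_ell] at e2
  simp only [add_sub_cancel_left, mul_eq_zero, map_eq_zero, hk, hj, pow_eq_zero_iff', false_and,
    or_false, false_or] at e2
  rw [CharP.cast_eq_zero_iff K p] at e2
  have := Nat.le_of_dvd (Nat.succ_pos _) e2
  have := h.red S.hK a
  omega

theorem St.kill (S : St p e n O c c') (hn : 4 ≤ n) (h : Mn p O R)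
    (hall : ∀ A : ZMod (e * n) →₀ ℕ, Mn p O A → ∀ u, A u = 0 ∨ A u + 1 = p) {a : ZMod (e * n)}
    (h0 : R a = 0) (h1 : R (a + 1) ≠ 0) {B D : ZMod (e * n) →₀ ℕ}
    (hB : weight (wt e n) B = p • wt e n a) (hB' : ∀ u, B u < p)
    (hD : wt e n (a + 1) + weight (wt e n) D = weight (wt e n) R) :
    Lam p _ O (monomial (B + D) 1) = 0 := by
  haveI := e_ne (e := e) (n := n)
  have hp := (Fact.out : p.Prime).two_le
  have hl : lev e n a ≠ lev e n (a + 1) := fun c => h1 ((S.per h).eq c ▸ h0)
  have d0 := congrFun hD (lev e n a)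
  have d1 := congrFun hD (lev e n (a + 1))
  have b0 := congrFun hB (lev e n a)
  have b1 := congrFun hB (lev e n (a + 1))
  rw [Pi.add_apply, (S.per h).weight] at d0 d1
  simp only [wt, Pi.smul_apply, Pi.single_eq_same, Pi.single_eq_of_ne hl, Pi.single_eq_of_ne hl.symm,
    smul_eq_mul, mul_one, mul_zero, h0, zero_add] at d0 d1 b0 b1
  by_contra hc
  by_cases hr : ∀ u, (B + D) u < p
  · have := (per_of_ne S.hK S.hT hr hc).weight (a + 1)
    rw [map_add, Pi.add_apply, b1, zero_add] at this
    have h2 : n ∣ 1 := (Nat.dvd_add_left (Dvd.intro _ this.symm)).1 (Dvd.intro _ d1.symm)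
    have := Nat.le_of_dvd one_pos h2
    omega
  push Not at hr
  obtain ⟨u, hu⟩ := hr
  have hu' : lev e n a ≠ lev e n u := fun c => by
    have : D u ≤ weight (wt e n) D (lev e n a) := by
      rw [weight_wt]
      exact Finset.single_le_sum (f := fun u => D u) (fun _ _ => Nat.zero_le _) (by simp [c])
    have := hB' u
    simp only [Finsupp.add_apply] at hu
    omega
  have e1 := split hu
  rw [e1, Lam_carry S.hK] at hc
  have g1 : B.degree = p := by
    rw [degree_eq, hB]; simp [wt, ← Finset.mul_sum, Pi.single_apply]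
  have g2 : 1 + D.degree = R.degree := by
    rw [degree_eq, degree_eq, ← hD]; simp [wt, Finset.sum_add_distrib, Pi.single_apply]
  have g3 := congrArg degree e1
  rw [map_add, map_add, degree_single] at g3
  have hm := h.of_deg (by rw [map_add, degree_single]; omega) hc
  have g4 := (S.per hm).weight a
  have g5 := congrFun (congrArg (weight (wt e n)) e1) (lev e n a)
  rw [map_add, Pi.add_apply, weight_single] at g4
  rw [map_add, map_add, Pi.add_apply, Pi.add_apply, weight_single] at g5
  simp only [wt, Pi.smul_apply, Pi.single_eq_of_ne hu', smul_eq_mul, mul_zero, zero_add, one_mul,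
    b0, d0, add_zero] at g4 g5
  rw [← g5, Pi.single_apply] at g4
  rcases hall _ hm a with c | c
  · rw [c] at g4; omega
  · set t := (single (u + 1) 1 + (B + D - single u p) : ZMod (e * n) →₀ ℕ) a
    have : 4 * t ≤ n * t := Nat.mul_le_mul_right _ hn
    split_ifs at g4 <;> omega

theorem St.caseB (S : St p e n O c c') (hn : 4 ≤ n) (h : Mn p O R)
    (hall : ∀ A : ZMod (e * n) →₀ ℕ, Mn p O A → ∀ u, A u = 0 ∨ A u + 1 = p) {a j k : ZMod (e * n)}
    (h0 : R a = 0) (h1 : R (a + 1) ≠ 0) (hjk : j ≠ k) (hj : c j ≠ 0) (hk : c k ≠ 0) : False := by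
  haveI := e_ne (e := e) (n := n)
  have hp := (Fact.out : p.Prime).two_le
  have lj : lev e n j = 0 := not_not.1 (mt (S.hc j) hj)
  have lk : lev e n k = 0 := not_not.1 (mt (S.hc k) hk)
  have hne : a ≠ a + j - k := fun c => hjk (by linear_combination -c)
  have w0 : wt e n (a + j - k) = wt e n a := by simp [wt, lj, lk]
  have w1 : wt e n (a + j + 1) = wt e n (a + 1) := by simp [wt, lj]
  have r1 : 1 ≤ R (a + j + 1) := by
    rw [(S.per h).eq (v := a + 1) (by simp [lj])]; omega
  have e1 := split r1
  set Q := R - single (a + j + 1) 1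
  have wQ : wt e n (a + 1) + weight (wt e n) Q = weight (wt e n) R := by
    conv_rhs => rw [e1, map_add, weight_single, one_smul, w1]
  have wP : weight (wt e n) (single a 1 + single (a + j - k) (p - 1)) = p • wt e n a := by
    rw [map_add, weight_single, weight_single, w0, ← add_smul, show 1 + (p - 1) = p by omega]
  have := S.key h (P := single a 1 + single (a + j - k) (p - 1)) (Q := Q) (B := single (a + j) p)
    (fun A hA => by
      rw [add_comm]
      refine S.kill hn h hall h0 h1 wP (fun u => ?_) (by rw [hA, wQ])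
      simp only [Finsupp.add_apply, single_apply]
      split_ifs with c1 c2 c2
      · exact absurd (c1.trans c2.symm) hne
      all_goals omega)
    (fun A hA hne => by
      rw [wP] at hA
      by_cases hr : ∀ u, A u < p
      · exact S.kill hn h hall h0 h1 hA hr wQ
      push Not at hr
      obtain ⟨u, hu⟩ := hr
      have g1 : A.degree = p := by
        rw [degree_eq, hA]; simp [wt, ← Finset.mul_sum, Pi.single_apply]
      have e2 := split hu
      have g2 := congrArg degree e2
      rw [map_add, degree_single, g1, left_eq_add, degree_eq_zero_iff] at g2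
      rw [g2, add_zero] at e2
      rw [e2, weight_single] at hA
      have lu : lev e n u = lev e n a := by
        by_contra c
        have := congrFun hA (lev e n u)
        simp [wt, c] at this; omega
      by_contra c
      rw [e2, Lam_carry S.hK] at c
      have := S.uniq h (by
        rw [map_add, weight_single, one_smul, ← wQ]; simp [wt, lu]) c
      rw [e1] at this
      have := (single_left_injective one_ne_zero) (add_right_cancel this)
      exact hne (by rw [e2, add_right_cancel this]))
    (by rw [Lam_carry S.hK, ← e1]; exact h.lam)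
  simp only [Finsupp.add_apply, pow_add, Finset.prod_mul_distrib, prod_single] at this
  rw [coeff_single (d := p) (by
    have := ((ell_h (p := p) c a).pow 1).mul ((ell_h (p := p) c (a + j - k)).pow (p - 1))
    rwa [show 1 * 1 + 1 * (p - 1) = p by omega] at this), map_mul, map_pow, map_pow, eval_ell,
    eval_ell] at this
  simp [hj, hk] at this

theorem St.main (S : St p e n O c c') (hn : 4 ≤ n) (h0 : (0 : K) ∉ O) {z z' : K} (hz : z ∈ O)
    (hz' : z' ∉ O) (hz0 : z' ≠ 0) {j k : ZMod (e * n)} (hjk : j ≠ k) (hj : c j ≠ 0) (hk : c k ≠ 0) :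
    False := by
  classical
  obtain ⟨A, a1, a2, ⟨u1, a3⟩, a4⟩ := exists_ne S.hK h0 hz hz' hz0
  obtain ⟨R, ⟨r1, r2⟩, r3⟩ := (measure fun A : ZMod (e * n) →₀ ℕ => A.degree).wf.has_min
    {A | A ≠ 0 ∧ Lam p _ O (monomial A 1) ≠ 0} ⟨A, a1, a4⟩
  have h : Mn p O R := ⟨r1, r2, fun B a b => not_lt.1 (r3 B ⟨a, b⟩)⟩
  by_cases hall : ∀ A : ZMod (e * n) →₀ ℕ, Mn p O A → ∀ u, A u = 0 ∨ A u + 1 = p
  swap
  · push Not at hall
    obtain ⟨B, b1, u, b2, b3⟩ := hall
    exact S.caseA b1 b2 b3 hjk hj hk
  obtain ⟨u, hu⟩ : ∃ u, R u = 0 := by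
    by_contra hc
    push Not at hc
    have := h.min A a1 a4
    rw [degree_eq_sum, degree_eq_sum] at this
    refine absurd this (not_le.2 (Finset.sum_lt_sum (fun u _ => ?_) ⟨u1, Finset.mem_univ _, ?_⟩))
    · have := (hall R h u).resolve_left (hc u); have := a2 u; omega
    · have := (hall R h u1).resolve_left (hc u1); have := a2 u1; omega
  obtain ⟨a, b1, b2⟩ : ∃ a, R a = 0 ∧ R (a + 1) ≠ 0 := by
    by_contra hc
    push Not at hc
    have : ∀ i : ℕ, R (u + i) = 0 := fun i => by
      induction i with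
      | zero => simpa using hu
      | succ i ih => have := hc _ ih; rwa [add_assoc, ← Nat.cast_succ] at this
    exact r1 (Finsupp.ext fun w => by simpa using this (w - u).val)
  exact S.caseB hn h hall b1 b2 hjk hj hk

end CF.Sing.PA
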