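import Cfsg.Agent.Sing.A2

/-! A linear group containing the norm one group and a non-semilinear map is transitive. -/

set_option autoImplicit false
set_option linter.style.haveILetI false

namespace CF.Sing

open Module PA

variable {F K : Type*} [Field F] [Field K] [Algebra F K] [Finite K]

theorem exists_linpoly [Fintype F] (f : K →ₗ[F] K) : ∃ c : Fin (finrank F K) → K,
    ∀ x, f x = ∑ j, c j * x ^ Fintype.card F ^ j.1 := by
  have h1 := (linearIndependent_algHom_toLinearMap F K K).comp _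
    (FiniteField.bijective_frobeniusAlgHom_pow F K).1
  haveI : Nonempty (Fin (finrank F K)) := ⟨⟨0, finrank_pos⟩⟩
  let b := basisOfLinearIndependentOfCardEqFinrank h1 (by
    rw [Module.finrank_linearMap_self]; simp)
  refine ⟨b.repr f, fun x => ?_⟩
  conv_lhs => rw [← b.sum_repr f]
  rw [LinearMap.sum_apply]
  refine Finset.sum_congr rfl fun j _ => ?_
  rw [LinearMap.smul_apply, smul_eq_mul, coe_basisOfLinearIndependentOfCardEqFinrank]
  congr 1
  change (FiniteField.frobeniusAlgHom F K ^ j.1) x = _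
  rw [AlgHom.coe_pow, FiniteField.coe_frobeniusAlgHom, pow_iterate]

theorem transA (hn : 4 ≤ finrank F K) (H : Subgroup (K ≃ₗ[F] K))
    (hT : ∀ a : K, a ≠ 0 → ∃ g ∈ H, ∀ x, g x = a ^ Nat.card F / a * x) {h : K ≃ₗ[F] K} (hh : h ∈ H)
    (hm : ¬ ∃ σ : K ≃ₐ[F] K, ∀ x, h x = h 1 * σ x) {x y : K} (hx : x ≠ 0) (hy : y ≠ 0) :
    ∃ g ∈ H, g x = y := by
  classical
  haveI : Finite F := Finite.of_injective _ (algebraMap F K).injective
  letI := Fintype.ofFinite F
  letI := Fintype.ofFinite K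
  obtain ⟨p, hp⟩ := CharP.exists F
  obtain ⟨⟨e, he⟩, pp, hq⟩ := FiniteField.card F p
  simp only [PNat.mk_coe] at hq
  haveI := Fact.mk pp
  haveI : CharP K p := charP_of_injective_algebraMap (algebraMap F K).injective p
  set n := finrank F K with hnn
  haveI : NeZero (e * n) := ⟨by positivity⟩
  have hK : Fintype.card K = p ^ (e * n) := by
    rw [Module.card_eq_pow_finrank (K := F), hq, ← pow_mul]
  have key : ∀ f : K →ₗ[F] K, ∃ c : ZMod (e * n) → K, (∀ w, c w ≠ 0 → ∃ j : ℕ, w = (e * j : ℕ)) ∧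
      ∀ x, ∑ w, c w * fr p w x = f x := by
    intro f
    obtain ⟨c, hc⟩ := exists_linpoly f
    refine ⟨fun w => ∑ j, if w = (e * j.1 : ℕ) then c j else 0, fun w hw => ?_, fun x => ?_⟩
    · obtain ⟨j, -, hj⟩ := Finset.exists_ne_zero_of_sum_ne_zero hw
      exact ⟨j, by by_contra c; simp only [c, if_false] at hj; exact hj rfl⟩
    · simp only [Finset.sum_mul, hc]
      rw [Finset.sum_comm]
      refine Finset.sum_congr rfl fun j _ => ?_
      simp only [ite_mul, zero_mul, Finset.sum_ite_eq', Finset.mem_univ, if_true]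
      rw [fr_natCast hK, hq, ← pow_mul]
  have lv : ∀ {c : ZMod (e * n) → K}, (∀ w, c w ≠ 0 → ∃ j : ℕ, w = (e * j : ℕ)) →
      ∀ w, lev e n w ≠ 0 → c w = 0 := fun hc w hw => by
    by_contra h0
    obtain ⟨j, rfl⟩ := hc w h0
    exact hw (by rw [map_natCast]; simp)
  obtain ⟨c, c1, c2⟩ := key h
  obtain ⟨c', c3, c4⟩ := key h.symm
  by_contra hc
  let O : Finset K := Finset.univ.filter fun z => ∃ g ∈ H, g x = z
  have hO : ∀ g ∈ H, ∀ z ∈ O, g z ∈ O := fun g hg z hz => by
    obtain ⟨k, hk, rfl⟩ := (Finset.mem_filter.1 hz).2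
    exact Finset.mem_filter.2 ⟨Finset.mem_univ _, g * k, mul_mem hg hk, rfl⟩
  have S : St p e n O c c' := ⟨hK, fun b hb z hz => by
    obtain ⟨g, hg, e⟩ := hT b hb
    have := hO g hg z hz
    rwa [e, Nat.card_eq_fintype_card, hq] at this, lv c1, lv c3,
    fun z hz => by rw [c2]; exact hO h hh z hz, fun z => by rw [c2, c4]; simp⟩
  obtain ⟨j, hj⟩ : ∃ j, c j ≠ 0 := by
    by_contra h0
    push Not at h0
    have := c2 x
    simp only [h0, zero_mul, Finset.sum_const_zero] at this
    exact hx (h.map_eq_zero_iff.1 this.symm)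
  obtain ⟨k, hk, hjk⟩ : ∃ k, c k ≠ 0 ∧ j ≠ k := by
    by_contra h0
    push Not at h0
    obtain ⟨i, hi⟩ := c1 j hj
    have e1 : ∀ z, h z = c j * z ^ Fintype.card F ^ i := fun z => by
      have := c2 z
      rw [Finset.sum_eq_single j (fun k _ hk => by
        rw [not_not.1 (mt (h0 k) hk.symm), zero_mul]) (by simp)] at this
      rw [hq, ← pow_mul, ← fr_natCast hK, ← hi]; exact this.symm
    exact hm ⟨FiniteField.frobeniusAlgEquivOfAlgebraic F K ^ i, fun z => by
      rw [e1, e1, one_pow, mul_one, AlgEquiv.coe_pow,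
        FiniteField.coe_frobeniusAlgEquivOfAlgebraic_iterate]⟩
  refine S.main hn (z := x) (z' := y) ?_ ?_ ?_ hy hjk hj hk
  · simp only [O, Finset.mem_filter, not_and, not_exists]
    exact fun _ g _ c => hx (g.map_eq_zero_iff.1 c)
  · exact Finset.mem_filter.2 ⟨Finset.mem_univ _, 1, one_mem _, rfl⟩
  · exact fun c => hc (Finset.mem_filter.1 c).2

end CF.Sing
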