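import Cfsg.Agent.Sing.BL

/-! Constituents of a permutation character vanishing on a TI subgroup; the trace bound. -/

set_option autoImplicit false
set_option linter.style.haveILetI false

namespace CF.Char.Sg

open Cfsg Subgroup CF.BG CF.Clifford BL MulAction
open scoped ComplexConjugate IsMulCommutative

universe u

variable {G : Type u} [Group G] {P : Subgroup G} [Finite G]

theorem card_mul_le_deg [Fintype G] {ρ : G → ℂ} (hρ : IsCharacter G ρ) {ι : Type*} [Fintype ι]
    {η : ι → IrrCharacter G} (hη : Function.Injective η) (h : ∀ i, classInner ρ (η i) ≠ 0) {f d : ℕ}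
    (hf : ∀ i, (η i : G → ℂ) 1 = f) (hd : ρ 1 = d) : Fintype.card ι * f ≤ d := by
  classical
  obtain ⟨n, rfl⟩ := isCharacter_iff_exists_nat.1 hρ
  choose g _ hg using fun χ : IrrCharacter G => irr_one_eq_nat χ.2
  have e : ∑ χ, n χ * g χ = d := by
    rw [Finset.sum_apply] at hd
    simp only [Pi.smul_apply, smul_eq_mul, hg] at hd
    exact_mod_cast hd
  rw [← e, ← Finset.card_univ, ← Finset.card_image_of_injective _ hη, ← smul_eq_mul,
    ← Finset.sum_const]
  refine le_trans (Finset.sum_le_sum fun χ hχ => ?_)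
    (Finset.sum_le_sum_of_subset (Finset.subset_univ _))
  obtain ⟨i, -, rfl⟩ := Finset.mem_image.1 hχ
  have h1 := h i
  rw [inner_sum_irr_left] at h1
  have h2 : g (η i) = f := by exact_mod_cast (hg _).symm.trans (hf i)
  rw [h2]
  exact Nat.le_mul_of_pos_left _ (Nat.pos_of_ne_zero (by exact_mod_cast h1))

theorem HT.exists_theta (h : HT P) [Fintype P] [Fintype (𝐂 P)] {π : 𝐂 P →* P}
    (hπ : ∀ x, π (inclusion h.abel x) = x) {χ : G → ℂ} (hχ : IsClassFunction G χ) {μ ν : P →* ℂˣ}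
    (hne : classInner (fun x : P => χ x) (fun x => μ x) ≠
      classInner (fun x : P => χ x) (fun x => ν x)) :
    ∃ θ, IsIrrCharacter _ θ ∧ (∀ x, θ (inclusion h.abel x) = θ 1) ∧
      classInner (fun c : 𝐂 P => χ c) (tw π θ μ) ≠ classInner (fun c : 𝐂 P => χ c) (tw π θ ν) := by
  have key : ∀ μ : P →* ℂˣ, classInner (fun x : P => χ x) (fun x => μ x) =
      ∑ θ : IrrCharacter (𝐂 P), classInner (fun c : 𝐂 P => χ c) (tw π θ μ) *
        classInner (fun x : P => (θ : 𝐂 P → ℂ) (inclusion h.abel x)) (fun _ => 1) := by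
    intro μ
    let E : IrrCharacter (𝐂 P) → IrrCharacter (𝐂 P) := fun θ => ⟨tw π θ μ, tw_irr θ.2 μ⟩
    have hE : Function.Bijective E := Finite.injective_iff_bijective.1 fun a b e =>
      Subtype.ext (funext fun c => mul_right_cancel₀ (μ (π c)).ne_zero
        (congrFun (congrArg Subtype.val e) c))
    have e1 : (fun x : P => χ x) = ∑ θ : IrrCharacter (𝐂 P),
        classInner (fun c : 𝐂 P => χ c) (tw π θ μ) • fun x : P => tw π θ μ (inclusion h.abel x) := by
      funext x
      have := classFun_apply_eq_sum (classFun_restrict hχ (𝐂 P)) (inclusion h.abel x)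
      rw [← hE.sum_comp] at this
      rw [Finset.sum_apply]; exact this
    rw [e1, inner_sum_left]
    refine Finset.sum_congr rfl fun θ _ => ?_
    rw [inner_smul_left, inner_eq_inner_one _ fun x => (μ x : ℂ)]
    congr 2
    funext x
    simp [tw, hπ, linear_conj]
  by_contra hc
  push Not at hc
  refine hne ?_
  rw [key, key]
  refine Finset.sum_congr rfl fun θ _ => ?_
  by_cases e : classInner (fun x : P => (θ : 𝐂 P → ℂ) (inclusion h.abel x)) (fun _ => 1) = 0
  · rw [e, mul_zero, mul_zero]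
  rw [hc θ θ.2 fun x => ?_]
  obtain ⟨l, b⟩ := exists_linear_of_le_charCenter (irr_one_ne_zero θ.2) (inclusion h.abel).range
    (le_trans (by
      rintro _ ⟨y, rfl⟩
      exact mem_center_iff.2 fun c => Subtype.ext (mem_cent.1 c.2 y y.2).symm)
        (center_le_charCenter θ.2))
  have c : ∀ y, (θ : 𝐂 P → ℂ) (inclusion h.abel y) =
      l ((inclusion h.abel).rangeRestrict y) * (θ : 𝐂 P → ℂ) 1 := fun y => by
    simpa using b ((inclusion h.abel).rangeRestrict y) 1
  have e2 : (fun x : P => (θ : 𝐂 P → ℂ) (inclusion h.abel x)) =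
      (θ : 𝐂 P → ℂ) 1 • fun x => ((l.comp (inclusion h.abel).rangeRestrict) x : ℂ) := by
    funext y; rw [c, mul_comm]; rfl
  rw [e2, inner_smul_left] at e
  have := congrFun (irr_eq_of_inner_ne_zero (irr_linear _) irr_one (right_ne_zero_of_mul e)) x
  rw [c, show (l ((inclusion h.abel).rangeRestrict x) : ℂ) = 1 from this, one_mul]

theorem HT.const (h : HT P) [Fintype G] [Fintype P]
    (hP : ∀ K : Subgroup G, K.Normal → P ≤ K → K = ⊤) (hN : ¬ 𝐍 P ≤ 𝐂 P) {ρ : G → ℂ}
    (hρ : IsCharacter G ρ) (van : ∀ c ∈ 𝐂 P, ∀ k : ℕ, c ^ k ∈ P → c ^ k ≠ 1 → ρ c = 0) {d : ℕ}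
    (hd : ρ 1 = d) (big : ∀ f : ℕ, (♯P - 1) * f ≤ (𝐂 P).relIndex (𝐍 P) * d → f ^ 2 + 1 < ♯P)
    {χ : G → ℂ} (hχ : IsIrrCharacter G χ) (h1 : χ ≠ fun _ => 1) (hi : classInner ρ χ ≠ 0)
    {μ ν : P →* ℂˣ} (hμ : μ ≠ 1) (hν : ν ≠ 1) :
    classInner (fun x : P => χ x) (fun x => μ x) = classInner (fun x : P => χ x) (fun x => ν x) := by
  classical
  by_contra hne
  have := Fintype.ofFinite (𝐍 P)
  have := Fintype.ofFinite (𝐂 P)
  have := Fintype.ofFinite (P →* ℂˣ)
  obtain ⟨π, m, hm, hπ⟩ := exists_retraction h.abel le_rfl h.cop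
  have hc := irr_isClassFunction hχ
  obtain ⟨θ, hθ, hk, a⟩ := h.exists_theta hπ hc hne
  let Q := {q : orbitRel.Quotient (𝐍 P) (P →* ℂˣ) // q ≠ Quotient.mk'' 1}
  have ne : ∀ {ν : P →* ℂˣ}, ν ≠ 1 → (Quotient.mk'' ν : orbitRel.Quotient (𝐍 P) _) ≠ Quotient.mk'' 1 :=
    fun n e => by
      obtain ⟨g, rfl⟩ := Quotient.exact' e
      exact n rfl
  set q₀ : Q := ⟨_, ne hν⟩
  set q : Q := ⟨_, ne hμ⟩
  have d₀ : q ≠ q₀ := fun e => by
    obtain ⟨g, rfl⟩ := Quotient.exact' (congrArg Subtype.val e)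
    exact hne (inner_smul hc g ν)
  obtain ⟨s, hs, sμ, sν⟩ : ∃ s : Q → P →* ℂˣ, (∀ q, Quotient.mk'' (s q) = q.1) ∧ s q = μ ∧ s q₀ = ν :=
    ⟨Function.update (Function.update (fun q => q.1.out) q μ) q₀ ν, fun r => by
      by_cases e : r = q₀
      · rw [e, Function.update_self]
      rw [Function.update_of_ne e]
      by_cases e : r = q
      · rw [e, Function.update_self]
      · rw [Function.update_of_ne e, Quotient.out_eq'],
      by rw [Function.update_of_ne d₀, Function.update_self], Function.update_self ..⟩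
  have s1 : ∀ q, s q ≠ 1 := fun q e => q.2 (by rw [← hs, e])
  have sr : ∀ {q q'}, q ≠ q' → ¬ orbitRel (𝐍 P) _ (s q) (s q') := fun e r =>
    e (Subtype.ext (by rw [← hs, ← hs]; exact Quotient.sound' r))
  have I := fun i j β => h.iso hm (α := tw π θ (s i) - tw π θ (s j)) (fun c e => by simp [tw, e]) β
  have B : ∀ i j, classInner (ind (EC P).ι (tw π θ (s i))) (ind (EC P).ι (tw π θ (s j))) =
      if i = j then 1 else 0 := fun i j => by
    split_ifs with e
    exacts [e ▸ h.inner_tw_self hm hπ hθ hk (s1 _), h.inner_tw_ne hm hπ hθ hθ hk hk (sr (Ne.symm e))]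
  obtain ⟨ε, η, hε, hη, t⟩ := exists_sign_irr q₀ (fun i => indFun _ (tw π θ (s i) - tw π θ (s q₀)))
    (by simp [← ind_subtype, ind_zero]) (fun i => gen_indFun _ (gen_sub (gen_of_irr (tw_irr hθ _))
      (gen_of_irr (tw_irr hθ _)))) (fun i => by simp [indFun_one_eq, tw])
        (fun i e => by simp [I, ind_sub, inner_sub_left, inner_sub_right, B, e, e.symm]; norm_num)
          fun i j e e' f => by simp [I, ind_sub, inner_sub_left, inner_sub_right, B, e, e'.symm, f]
  have e0 : conj ε ≠ 0 := by rcases hε with rfl | rfl <;> simp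
  have T : ∀ ψ, IsClassFunction G ψ → ∀ i, classInner (fun c : 𝐂 P => ψ c) (tw π θ (s i) - tw π θ (s q₀))
      = conj ε * (classInner ψ (η i) - classInner ψ (η q₀)) := fun ψ hψ i => by
    rw [← inner_indFun_right _ _ hψ, t, inner_smul_right, inner_sub_right]
  have x : ∃ i, χ = η i := by
    by_contra hx
    push Not at hx
    have := T χ hc q
    rw [inner_irr_ne hχ (η _).2 (hx _), inner_irr_ne hχ (η _).2 (hx _), inner_sub_right, sμ, sν,
      sub_self, mul_zero, sub_eq_zero] at this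
    exact a this
  obtain ⟨j, rfl⟩ := x
  obtain ⟨f, -, hf⟩ := irr_one_eq_nat hχ
  have g1 : ∀ i, (η i : G → ℂ) 1 = (η q₀ : G → ℂ) 1 := fun i => by
    have := congrFun (t i) 1
    simp only [indFun_one_eq, tw, Pi.sub_apply, map_one, Units.val_one, mul_one, sub_self, mul_zero,
      Pi.smul_apply, smul_eq_mul] at this
    exact sub_eq_zero.1 ((mul_eq_zero.1 this.symm).resolve_left fun c => e0 (by simp [c]))
  have g2 : ∀ i, classInner ρ (η i) = classInner ρ (η q₀) := fun i => by
    have := T ρ (char_isClassFunction hρ) i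
    rw [inner_def, Finset.sum_eq_zero fun c _ => ?_, mul_zero] at this
    · exact sub_eq_zero.1 ((mul_eq_zero.1 this.symm).resolve_left e0)
    · by_cases e : π c = 1
      · simp [tw, e]
      · rw [van c c.2 m (hm c ▸ (π c).2) (hm c ▸ fun w => e (Subtype.ext w)), zero_mul]
  have l1 := card_mul_le_deg hρ hη (fun i => by rw [g2, ← g2 j]; exact hi)
    (fun i => by rw [g1, ← g1 j, hf]) hd
  have c := card_le (Finset.univ.erase (1 : P →* ℂˣ))
  rw [Finset.card_erase_of_mem (Finset.mem_univ _), Finset.card_univ, ← Nat.card_eq_fintype_card,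
    h.card_dual] at c
  have : ((Finset.univ.erase (1 : P →* ℂˣ)).image
      (Quotient.mk'' : _ → orbitRel.Quotient (𝐍 P) (P →* ℂˣ))).card ≤ Fintype.card Q := by
    rw [Fintype.card_subtype]
    exact Finset.card_le_card (Finset.image_subset_iff.2 fun ν n => Finset.mem_filter.2
      ⟨Finset.mem_univ _, ne (Finset.mem_erase.1 n).1⟩)
  have := c.trans (Nat.mul_le_mul_left _ this)
  exact hN (h.linear hP hχ h1 hf (big f ((Nat.mul_le_mul_right _ this).trans (by
    rw [mul_assoc]; exact Nat.mul_le_mul_left _ l1)))).2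

/-- values of a character with equal multiplicities on an abelian subgroup -/
theorem exists_uc [Fintype P] (ha : Abel P) {χ : G → ℂ} (hχ : IsCharacter G χ) (k : ¬ P ≤ charKer χ)
    (h : ∀ μ ν : P →* ℂˣ, μ ≠ 1 → ν ≠ 1 → classInner (fun x : P => χ x) (fun x => μ x) =
      classInner (fun x : P => χ x) (fun x => ν x)) :
    ∃ u c : ℕ, 0 < c ∧ χ 1 = (u : ℂ) - c + c * ♯P ∧ ∀ t ∈ P, t ≠ 1 → χ t = (u : ℂ) - c := by
  have hr := char_restrict hχ P
  have cm : ∀ a b : P, a * b = b * a := fun x y => Subtype.ext (ha.mul_comm x.2 y.2)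
  obtain ⟨u, hu⟩ := inner_char_eq_nat hr char_const_one
  obtain ⟨μ, hμ⟩ : ∃ μ : P →* ℂˣ, μ ≠ 1 := by
    obtain ⟨x, x1, x2⟩ := SetLike.not_le_iff_exists.1 k
    obtain ⟨μ, -, b⟩ := exists_linear_of_not_mem_of_comm cm ⊥ (g := ⟨x, x1⟩) fun c =>
      x2 (by rw [show x = 1 from congrArg Subtype.val (mem_bot.1 c)]; exact one_mem _)
    exact ⟨μ, fun c => b (by simp [c])⟩
  obtain ⟨c, hc⟩ := inner_char_eq_nat hr (char_linear μ)
  have e : (fun x : P => χ x) = ((u : ℂ) - c) • (fun _ => (1 : ℂ)) + (c : ℂ) • regChar P := by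
    refine classFun_ext (char_isClassFunction hr) (classFun_of_comm cm _) fun ψ hψ => ?_
    obtain ⟨ν, rfl⟩ := exists_linear_of_one (irr_isCharacter hψ) (irr_one_eq_one_of_comm cm hψ)
    rw [inner_add_left, inner_smul_left, inner_smul_left, inner_regChar_left]
    by_cases e : ν = 1
    · subst e
      simp only [MonoidHom.one_apply, Units.val_one, hu, inner_one_one, map_one]; ring
    · rw [h ν μ e hμ, hc, inner_irr_ne irr_one hψ fun w => e (linear_injective w.symm)]; simp
  have e1 := congrFun e 1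
  have e2 : ∀ t ∈ P, t ≠ 1 → χ t = (u : ℂ) - c := fun t ht h1 => by
    simpa [regChar_of_ne (show (⟨t, ht⟩ : P) ≠ 1 from fun w => h1 (congrArg Subtype.val w))]
      using congrFun e ⟨t, ht⟩
  simp only [OneMemClass.coe_one, Pi.add_apply, Pi.smul_apply, smul_eq_mul, mul_one,
    regChar_one] at e1
  refine ⟨u, c, Nat.pos_of_ne_zero fun c0 => k fun t ht => (mem_charKer_iff hχ).2 ?_, e1, e2⟩
  by_cases h1 : t = 1
  · rw [h1]
  · rw [e2 t ht h1, e1, c0]; simp

end CF.Char.Sg
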