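import Cfsg.Agent.Sing.B1

/-! The trace bound for orbitals. -/

set_option autoImplicit false
set_option linter.style.haveILetI false

namespace CF.Char.Sg

open Cfsg Subgroup MulAction Finset
open scoped ComplexConjugate

variable {G : Type*} [Group G] [Fintype G] {Ω : Type*} [MulAction G Ω] [Fintype Ω]

theorem sum_conj_fix [Nonempty Ω] [IsPretransitive G Ω] {t : G} {m D : ℕ} (hm : 2 ≤ m)
    (hΩ : Nat.card Ω = D * m) (ht : ∀ x : Ω, t • x ≠ x)
    (h : ∀ χ, IsIrrCharacter G χ → χ ≠ (fun _ => 1) →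
      classInner (fun g : G => (Nat.card (fixedBy Ω g) : ℂ)) χ ≠ 0 →
      ∃ u c : ℕ, 0 < c ∧ χ 1 = (u : ℂ) - c + c * m ∧ χ t = (u : ℂ) - c) :
    ∑ g : G, ∑ k : G, (Nat.card (fixedBy Ω ((k * t * k⁻¹)⁻¹ * (g * t * g⁻¹))) : ℝ) ≤
      (Nat.card G : ℝ) ^ 2 * (1 + 2 * D ^ 2 / (m - 1)) := by
  classical
  have hρ := char_fixedBy (G := G) Ω
  have h1 := inner_fixedBy_one_of_pretransitive (G := G) Ω
  obtain ⟨n, hn⟩ := isCharacter_iff_exists_nat.1 hρ
  have hn' : ∀ g, (Nat.card (fixedBy Ω g) : ℂ) = ∑ χ : IrrCharacter G, n χ * (χ : G → ℂ) g :=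
    fun g => by simpa [Finset.sum_apply] using congrFun hn g
  have n1 : n (oneIrr G) = 1 := by
    rw [hn, ← coe_oneIrr, inner_sum_irr_left] at h1; exact_mod_cast h1
  have : ∀ χ : IrrCharacter G, ∃ u c : ℕ, n χ ≠ 0 → (χ ≠ oneIrr G → 0 < c) ∧
      (χ = oneIrr G → u = 1 ∧ c = 0) ∧
      (χ : G → ℂ) 1 = (u : ℂ) - c + c * m ∧ (χ : G → ℂ) t = (u : ℂ) - c := fun χ => by
    by_cases e : χ = oneIrr G
    · exact ⟨1, 0, fun _ => by simp [e]⟩
    by_cases e0 : n χ = 0
    · exact ⟨0, 0, fun c => absurd e0 c⟩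
    obtain ⟨u, c, a, b⟩ := h χ χ.2 (fun w => e (Subtype.ext w)) (by
      rw [hn, inner_sum_irr_left]; exact_mod_cast e0)
    exact ⟨u, c, fun _ => ⟨fun _ => a, fun w => absurd w e, b⟩⟩
  choose u c huc using this
  have s1 : ∑ χ, (n χ : ℝ) * ((u χ : ℝ) - c χ + c χ * m) = D * m := by
    have := hn' 1
    rw [fixedBy_one_eq_univ, Nat.card_univ, hΩ, Finset.sum_congr rfl
      (g := fun χ => (n χ : ℂ) * ((u χ : ℂ) - c χ + c χ * m)) fun χ _ => by
        by_cases e : n χ = 0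
        · simp [e]
        · rw [(huc χ e).2.2.1]] at this
    exact_mod_cast this.symm
  have s2 : ∑ χ, (n χ : ℝ) * ((u χ : ℝ) - c χ) = 0 := by
    have := hn' t
    rw [show fixedBy Ω t = ∅ from Set.eq_empty_of_forall_notMem ht, Finset.sum_congr rfl
      (g := fun χ => (n χ : ℂ) * ((u χ : ℂ) - c χ)) fun χ _ => by
        by_cases e : n χ = 0
        · simp [e]
        · rw [(huc χ e).2.2.2]] at this
    simp only [Nat.card_eq_fintype_card, Fintype.card_ofIsEmpty, Nat.cast_zero] at this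
    exact_mod_cast this.symm
  have m1 : (1 : ℝ) ≤ m - 1 := by have : (2 : ℝ) ≤ m := by exact_mod_cast hm
                                  linarith
  have s3 : ∑ χ, (n χ : ℝ) * c χ = D := by
    refine mul_right_cancel₀ (show (m : ℝ) ≠ 0 by linarith) ?_
    rw [← s1, ← sub_zero (∑ χ, (n χ : ℝ) * ((u χ : ℝ) - c χ + c χ * m)), ← s2, Finset.sum_mul,
      ← Finset.sum_sub_distrib]
    exact Finset.sum_congr rfl fun _ _ => by ring
  have s4 : ∑ χ, (n χ : ℝ) * u χ = D := by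
    rw [← s3, ← sub_eq_zero, ← Finset.sum_sub_distrib, ← s2]
    exact Finset.sum_congr rfl fun _ _ => by ring
  have e1 : ∀ k : G, ∑ g : G, (Nat.card (fixedBy Ω ((k * t * k⁻¹)⁻¹ * (g * t * g⁻¹))) : ℝ) =
      Nat.card G * ∑ χ, (n χ : ℝ) * ((u χ : ℝ) - c χ) ^ 2 / ((u χ : ℝ) - c χ + c χ * m) := by
    intro k
    have : ∑ g : G, (Nat.card (fixedBy Ω ((k * t * k⁻¹)⁻¹ * (g * t * g⁻¹))) : ℂ) =
        Nat.card G * ∑ χ, (n χ : ℂ) * ((u χ : ℂ) - c χ) ^ 2 / ((u χ : ℂ) - c χ + c χ * m) := by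
      simp only [hn']
      rw [Finset.sum_comm, Finset.mul_sum]
      refine Finset.sum_congr rfl fun χ _ => ?_
      by_cases e : n χ = 0
      · simp [e]
      rw [← Finset.mul_sum, Finset.sum_congr rfl fun g _ =>
        classFun_mul_comm (irr_isClassFunction χ.2) _ _, sum_irr_conj_mul χ.2, irr_inv χ.2,
        classFun_conj (irr_isClassFunction χ.2), (huc χ e).2.2.1, (huc χ e).2.2.2]
      simp only [map_sub, map_natCast]; ring
    exact_mod_cast this
  rw [Finset.sum_comm, Finset.sum_congr rfl fun k _ => e1 k, Finset.sum_const, Finset.card_univ,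
    ← Nat.card_eq_fintype_card, nsmul_eq_mul, ← mul_assoc, ← sq]
  refine mul_le_mul_of_nonneg_left ?_ (by positivity)
  have e2 : (1 : ℝ) + 2 * D ^ 2 / (m - 1) = ∑ χ : IrrCharacter G, ((if χ = oneIrr G then 1 else 0) +
      D * ((n χ : ℝ) * u χ + n χ * c χ) / (m - 1)) := by
    rw [Finset.sum_add_distrib, ← Finset.sum_div, ← Finset.mul_sum, Finset.sum_add_distrib, s3, s4]
    simp; ring
  rw [e2]
  refine Finset.sum_le_sum fun χ _ => ?_
  by_cases e : n χ = 0
  · simp only [e, Nat.cast_zero, zero_mul, zero_div, add_zero, mul_zero]; split_ifs <;> norm_num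
  obtain ⟨a1, a2, -⟩ := huc χ e
  split_ifs with w
  · obtain ⟨b1, b2⟩ := a2 w
    rw [b1, b2, w, n1]
    simp; positivity
  have c1 : (1 : ℝ) ≤ c χ := by exact_mod_cast a1 w
  have n1 : (1 : ℝ) ≤ n χ := by exact_mod_cast Nat.pos_of_ne_zero e
  have u0 : (0 : ℝ) ≤ u χ := by positivity
  have l1 : (n χ : ℝ) * u χ ≤ D := s4 ▸ Finset.single_le_sum (f := fun χ => (n χ : ℝ) * u χ)
    (fun _ _ => by positivity) (Finset.mem_univ χ)
  have l2 : (n χ : ℝ) * c χ ≤ D := s3 ▸ Finset.single_le_sum (f := fun χ => (n χ : ℝ) * c χ)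
    (fun _ _ => by positivity) (Finset.mem_univ χ)
  have l3 : (u χ : ℝ) ≤ D := by nlinarith
  have l4 : (c χ : ℝ) ≤ D := by nlinarith
  rw [zero_add]
  refine div_le_div₀ (by positivity) ?_ (by linarith) (by nlinarith)
  have : ((u χ : ℝ) - c χ) ^ 2 ≤ D * (u χ + c χ) := by nlinarith
  nlinarith

theorem trace_bound [Nonempty Ω] [IsPretransitive G Ω] {t : G} {m D : ℕ} (hm : 2 ≤ m)
    (hΩ : Nat.card Ω = D * m) (ht : ∀ x : Ω, t • x ≠ x)
    (h : ∀ χ, IsIrrCharacter G χ → χ ≠ (fun _ => 1) →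
      classInner (fun g : G => (Nat.card (fixedBy Ω g) : ℂ)) χ ≠ 0 →
      ∃ u c : ℕ, 0 < c ∧ χ 1 = (u : ℂ) - c + c * m ∧ χ t = (u : ℂ) - c)
    (Δ : Ω → Ω → Prop) (inv : ∀ (g : G) x y, Δ x y → Δ (g • x) (g • y)) {k M : ℕ}
    (hk : ∀ x, {y | Δ x y}.ncard ≤ k) (hM : M ≤ {x | Δ x (t • x)}.ncard) (hkM : k ≤ M) :
    ((M : ℝ) - k) ^ 2 * (m - 1) ≤ 2 * D ^ 3 * m * k := by
  classical
  have key := sum_conj_fix hm hΩ ht h
  set N : ℝ := (Nat.card G : ℝ) with hN
  set V : ℝ := (Nat.card Ω : ℝ) with hV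
  have N0 : 0 < N := by rw [hN]; exact_mod_cast Nat.card_pos
  have V0 : 0 < V := by rw [hV]; exact_mod_cast Nat.card_pos
  have m1 : (1 : ℝ) ≤ m - 1 := by have : (2 : ℝ) ≤ m := by exact_mod_cast hm
                                  linarith
  let w : Ω × Ω → ℝ := fun z => ∑ g : G, if (g * t * g⁻¹) • z.1 = z.2 then 1 else 0
  let S : Finset (Ω × Ω) := univ.filter fun z => Δ z.1 z.2
  have e1 : ∑ z, w z ^ 2 =
      ∑ g : G, ∑ k : G, (Nat.card (fixedBy Ω ((k * t * k⁻¹)⁻¹ * (g * t * g⁻¹))) : ℝ) := by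
    simp only [w, sq, Finset.sum_mul_sum]
    rw [Finset.sum_comm]
    refine Finset.sum_congr rfl fun g _ => ?_
    rw [Finset.sum_comm]
    refine Finset.sum_congr rfl fun k _ => ?_
    rw [Fintype.sum_prod_type, Nat.card_eq_fintype_card, Fintype.card_subtype, Finset.card_filter,
      Nat.cast_sum]
    refine Finset.sum_congr rfl fun x _ => ?_
    simp only [ite_mul, one_mul, zero_mul, Finset.sum_ite_eq, Finset.mem_univ, if_true, mem_fixedBy,
      mul_smul (k * t * k⁻¹)⁻¹, inv_smul_eq_iff, Nat.cast_ite, Nat.cast_one, Nat.cast_zero]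
    exact if_congr eq_comm rfl rfl
  have e2 : ∑ z, w z = V * N := by
    simp only [w]
    rw [Fintype.sum_prod_type, Finset.sum_congr rfl fun x _ => Finset.sum_comm]
    simp [hN, hV]
  have e3 : ∑ z ∈ S, w z = N * {x | Δ x (t • x)}.ncard := by
    simp only [w, S]
    rw [Finset.sum_comm, hN, Nat.card_eq_fintype_card, ← Finset.card_univ, ← nsmul_eq_mul,
      ← Finset.sum_const]
    refine Finset.sum_congr rfl fun g _ => ?_
    rw [Finset.sum_filter, Fintype.sum_prod_type, Set.ncard_eq_toFinset_card', Set.toFinset_ofPred,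
      Finset.card_filter, Nat.cast_sum]
    refine (Fintype.sum_equiv (MulAction.toPerm g) _ _ fun x => ?_).symm
    have : Δ x (t • x) ↔ Δ (g • x) (g • t • x) :=
      ⟨inv g _ _, fun a => by simpa using inv g⁻¹ _ _ a⟩
    rw [Finset.sum_eq_single (g • t • x)]
    · simp [mul_smul, this]
    · intro y _ hy; simp [mul_smul, hy.symm]
    · simp
  have e4 : (S.card : ℝ) ≤ V * k := by
    have := Finset.card_le_mul_card_image_of_maps_to (s := S) (t := univ) (f := Prod.fst)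
      (fun _ _ => Finset.mem_univ _) k fun x _ => le_trans (by
        rw [← Set.ncard_coe_finset]
        refine Set.ncard_le_ncard_of_injOn Prod.snd (fun z hz => ?_) fun z hz z' hz' e => ?_
        · simp only [S, coe_filter, Set.mem_ofPred_eq, mem_filter] at hz
          exact hz.2 ▸ hz.1.2
        · simp only [S, coe_filter, Set.mem_ofPred_eq, mem_filter] at hz hz'
          exact Prod.ext (hz.2.trans hz'.2.symm) e) (hk x)
    rw [Finset.card_univ, ← Nat.card_eq_fintype_card, mul_comm] at this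
    rw [hV]; exact_mod_cast this
  have e5 : ∑ z, (w z - N / V) ^ 2 ≤ N ^ 2 * (2 * D ^ 2 / (m - 1)) := by
    simp only [sub_sq, Finset.sum_add_distrib, Finset.sum_sub_distrib, ← Finset.sum_mul,
      ← Finset.mul_sum, e1, e2, Finset.sum_const, Finset.card_univ,
      ← Nat.card_eq_fintype_card, Nat.card_prod, nsmul_eq_mul, Nat.cast_mul, ← hV]
    have : 2 * (V * N) * (N / V) - V * V * (N / V) ^ 2 = N ^ 2 := by field_simp; ring
    linarith
  have e6 := sq_sum_le_card_mul_sum_sq (s := S) (f := fun z => w z - N / V)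
  have e7 : ∑ z ∈ S, (w z - N / V) ^ 2 ≤ ∑ z, (w z - N / V) ^ 2 :=
    Finset.sum_le_sum_of_subset_of_nonneg (Finset.subset_univ _) fun _ _ _ => sq_nonneg _
  rw [Finset.sum_sub_distrib, e3, Finset.sum_const, nsmul_eq_mul] at e6
  have hM' : (M : ℝ) ≤ {x | Δ x (t • x)}.ncard := by exact_mod_cast hM
  have hkM' : (k : ℝ) ≤ M := by exact_mod_cast hkM
  have e8 : N * ((M : ℝ) - k) ≤ N * {x | Δ x (t • x)}.ncard - S.card * (N / V) := by
    have : S.card * (N / V) ≤ N * k := by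
      rw [mul_div_assoc', div_le_iff₀ V0]; nlinarith
    nlinarith
  have e9 : (N * ((M : ℝ) - k)) ^ 2 ≤ V * k * (N ^ 2 * (2 * D ^ 2 / (m - 1))) :=
    (pow_le_pow_left₀ (by nlinarith) e8 2).trans (e6.trans
      (mul_le_mul e4 (e7.trans e5) (Finset.sum_nonneg fun _ _ => sq_nonneg _) (by positivity)))
  have hV' : V = D * m := by rw [hV, hΩ]; push_cast; rfl
  rw [← le_div_iff₀ (by linarith)]
  refine le_of_mul_le_mul_left (a := N ^ 2) ?_ (by positivity)
  rw [← mul_pow]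
  refine e9.trans (le_of_eq ?_)
  rw [hV']; ring

end CF.Char.Sg
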