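import Cfsg.Agent.Char.BLeo

/-! The Brauer–Leonard bound for an abelian TI Hall-type subgroup (copy of `Char/BLeo`). -/

set_option autoImplicit false

namespace CF.Char.Sg

open Cfsg Subgroup CF.BG CF.Clifford BL MulAction
open scoped ComplexConjugate IsMulCommutative

universe u

variable {G : Type u} [Group G] {P : Subgroup G}

/-- abelian TI subgroup with `C(x) = C(P)`, Hall in its centraliser -/
structure HT (P : Subgroup G) : Prop where
  abel : Abel P
  cent : ∀ x ∈ P, x ≠ 1 → 𝐂₁ x = 𝐂 P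
  ti : ∀ {x g : G}, x ∈ P → x ≠ 1 → g * x * g⁻¹ ∈ P → g ∈ 𝐍 P
  cop : (♯P).Coprime (P.relIndex (𝐂 P))

variable [Finite G]

theorem HT.stab (h : HT P) {μ : P →* ℂˣ} (e : μ ≠ 1) :
    stabilizer (𝐍 P) μ = (𝐂 P).subgroupOf (𝐍 P) := by
  refine le_antisymm (fun n hn => by_contra fun k => e (MonoidHom.ext fun y => ?_)) (le_stab μ)
  have := h.abel.comm
  obtain ⟨x, rfl⟩ := Finite.surjective_of_injective (f := ((EP P).c n⁻¹).toMonoidHom / MonoidHom.id P)
    ((injective_iff_map_eq_one _).2 fun x hx => by_contra fun z => k (mem_subgroupOf.2 (h.cent x x.2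
      (fun w => z (Subtype.ext w)) ▸ mem_cent1.2 (by
        have : (n : G)⁻¹ * x * (n : G)⁻¹⁻¹ = x := congrArg Subtype.val (div_eq_one.1 hx)
        rwa [inv_inv, mul_assoc, inv_mul_eq_iff_eq_mul, eq_comm] at this)))) y
  exact (map_div μ _ _).trans (div_eq_one.2 (DFunLike.congr_fun hn x))

section

variable (h : HT P) {π : 𝐂 P →* P} {m : ℕ} (hm : ∀ c, (π c : G) = c ^ m)
  (hπ : ∀ x, π (inclusion h.abel x) = x) {θ θ' : 𝐂 P → ℂ} {μ ν : P →* ℂˣ}

include hm hπ in
theorem HT.eq_of_cj (hθ : IsIrrCharacter _ θ) (k : ∀ x, θ (inclusion h.abel x) = θ 1)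
    (k' : ∀ x, θ' (inclusion h.abel x) = θ' 1) {n : 𝐍 P} (e : (EC P).cj (tw π θ μ) n = tw π θ' ν) :
    n⁻¹ • μ = ν := by
  rw [cj_tw hm] at e
  have a := congrFun e 1
  simp only [tw, map_one, Units.val_one, mul_one, NormalEmb.cj_apply_one] at a
  ext x
  have b := congrFun e (inclusion h.abel x)
  rw [tw, tw, hπ, k', ← a, show (EC P).cj θ n (inclusion h.abel x) = θ 1 from k ((EP P).c n x)] at b
  exact mul_left_cancel₀ (irr_one_ne_zero hθ) b

variable [Fintype G] [Fintype (𝐂 P)] [Fintype (𝐍 P)]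

include h hm in
theorem HT.iso {α : 𝐂 P → ℂ} (hα : ∀ c, π c = 1 → α c = 0) (β : 𝐂 P → ℂ) :
    classInner (indFun _ α) (indFun _ β) = classInner (ind (EC P).ι α) (ind (EC P).ι β) := by
  rw [← ind_subtype, inner_ind_left _ _ (indFun_isClassFunction _ _), inner_ind_left _ _ (ind_isClassFunction _ _),
    inner_def, inner_def]
  refine congrArg _ (Finset.sum_congr rfl fun c _ => ?_)
  by_cases e : π c = 1
  · rw [hα c e, zero_mul, zero_mul]
  rw [← ind_subtype, show (𝐂 P).subtype = (𝐍 P).subtype.comp (EC P).ι from rfl, ← ind_ind, ind_subtype,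
    ← indFun_apply_of_ti _ (ind_isClassFunction _ _) ((EC P).ι c) fun g hg k =>
      (EC P).ind_apply_of_not_mem _ fun ⟨y, hy⟩ => hg (h.ti (π c).2 (fun w => e (Subtype.ext w)) ?_)]
  · rfl
  rw [hm, ← conj_pow, show g * c * g⁻¹ = y from (congrArg Subtype.val hy).symm, ← hm]
  exact (π y).2

include hm hπ in
theorem HT.inner_tw_ne (hθ : IsIrrCharacter _ θ) (hθ' : IsIrrCharacter _ θ')
    (k : ∀ x, θ (inclusion h.abel x) = θ 1) (k' : ∀ x, θ' (inclusion h.abel x) = θ' 1)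
    (e : ¬ orbitRel (𝐍 P) _ ν μ) :
    classInner (ind (EC P).ι (tw π θ μ)) (ind (EC P).ι (tw π θ' ν)) = 0 := by
  rw [NormalEmb.inner_ind_ind _ (tw_irr hθ _) (tw_irr hθ' _), if_neg fun ⟨n, a⟩ =>
    e ⟨n⁻¹, h.eq_of_cj hm hπ hθ k k' a⟩]

include hm hπ in
theorem HT.inner_tw_self (hθ : IsIrrCharacter _ θ) (k : ∀ x, θ (inclusion h.abel x) = θ 1)
    (e : μ ≠ 1) : classInner (ind (EC P).ι (tw π θ μ)) (ind (EC P).ι (tw π θ μ)) = 1 :=
  inner_irr_self (((EC P).ind_irr_iff (tw_irr hθ _)).2 fun n hn =>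
    ⟨⟨n, inv_mem_iff.1 ((h.stab e).le (h.eq_of_cj hm hπ hθ k k hn))⟩, rfl⟩)

omit [Fintype (𝐍 P)] in
include hπ in
theorem HT.exists_tw {ξ : G → ℂ} (hξ : IsCharacter G ξ) (k : ¬ P ≤ charKer ξ) :
    ∃ θ μ, IsIrrCharacter _ θ ∧ (∀ x, θ (inclusion h.abel x) = θ 1) ∧
      μ ≠ 1 ∧ classInner (fun c : 𝐂 P => ξ c) (tw π θ μ) ≠ 0 := by
  by_contra! w
  refine k fun x hx => ?_
  suffices (⟨x, h.abel hx⟩ : 𝐂 P) ∈ charKer fun c : 𝐂 P => ξ c by
    rwa [charKer_restrict hξ] at this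
  refine mem_charKer_of_constituents (char_isClassFunction (char_restrict hξ _)) fun φ hφ a => ?_
  obtain ⟨μ, b⟩ := exists_linear_of_le_charCenter (irr_one_ne_zero hφ) (inclusion h.abel).range
    (le_trans (by
      rintro _ ⟨y, rfl⟩
      exact mem_center_iff.2 fun c => Subtype.ext (mem_cent.1 c.2 y y.2).symm)
        (center_le_charCenter hφ))
  have c : ∀ y, φ (inclusion h.abel y) = μ ((inclusion h.abel).rangeRestrict y) * φ 1 := fun y => by
    simpa using b ((inclusion h.abel).rangeRestrict y) 1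
  refine (mem_charKer_iff (irr_isCharacter hφ)).2 (by_contra fun z => a ?_)
  have := w _ (μ.comp (inclusion h.abel).rangeRestrict) (tw_irr (π := π) hφ
    (μ.comp (inclusion h.abel).rangeRestrict)⁻¹) (fun y => by
      simp [tw, hπ, c, mul_right_comm _ (φ 1)]) fun e => z ((c ⟨x, hx⟩).trans (by
        rw [show μ _ = 1 from DFunLike.congr_fun e ⟨x, hx⟩]; simp))
  convert this using 2
  funext c
  simp [tw]

include hπ in
theorem HT.inner_tw_zero [Fintype P] {ξ : G → ℂ} (hξ : IsCharacter G ξ)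
    (z : classInner (fun x : P => ξ x) (fun x => ν x) = 0) (r : orbitRel (𝐍 P) _ μ ν)
    (hθ : IsIrrCharacter _ θ) (hk : ∀ x, θ (inclusion h.abel x) = θ 1) :
    classInner (fun c : 𝐂 P => ξ c) (tw π θ μ) = 0 := by
  obtain ⟨n, rfl⟩ := r
  by_contra a
  refine inner_comp_ne_zero_of_constituent (inclusion h.abel) (char_restrict hξ _)
    (tw_irr hθ _) (char_linear (n • ν)) a ?_ ((inner_smul (char_isClassFunction hξ) n ν).trans z)
  simp only [tw, hπ, hk]
  exact (inner_smul_left (θ 1) _ _).trans_ne (by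
    rw [inner_irr_self (irr_linear _), mul_one]; exact irr_one_ne_zero hθ)

omit [Fintype G] [Fintype (𝐂 P)] [Fintype (𝐍 P)] in
theorem HT.card_dual (h : HT P) : Nat.card (P →* ℂˣ) = ♯P := by
  rw [card_linear, show commutator P = ⊥ from der_eq_bot_iff_cd.2 (abel_iff_cd.1 h.abel), index_bot]

omit [Fintype (𝐂 P)] [Fintype (𝐍 P)] in
theorem HT.inner_res_eq_zero (h : HT P) [Fintype P] [Fintype (𝐂 P)]
    (l : (𝐂 P).relIndex (𝐍 P) ^ 2 + 1 < ♯P) {ξ : G → ℂ} (hξ : IsIrrCharacter G ξ) (h1 : ξ ≠ fun _ => 1)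
    (k : ¬ P ≤ charKer ξ) {μ₀ μ₁ : P →* ℂˣ} (n₀ : μ₀ ≠ 1) (n₁ : μ₁ ≠ 1)
    (r : ¬ orbitRel (𝐍 P) _ μ₀ μ₁) (z₀ : classInner (fun x : P => ξ x) (fun x => μ₀ x) = 0)
    (z₁ : classInner (fun x : P => ξ x) (fun x => μ₁ x) = 0) :
    classInner (fun c : 𝐂 P => ξ c) (fun _ => 1) = 0 := by
  classical
  have := Fintype.ofFinite (𝐍 P)
  have := Fintype.ofFinite (P →* ℂˣ)
  obtain ⟨π, m, hm, hπ⟩ := exists_retraction h.abel le_rfl h.cop
  have hc := irr_isClassFunction hξ
  obtain ⟨θ, μ, hθ, hk, hμ, a⟩ := h.exists_tw hπ (irr_isCharacter hξ) k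
  let Q := {q : orbitRel.Quotient (𝐍 P) (P →* ℂˣ) // q ≠ Quotient.mk'' 1}
  have ne : ∀ {ν : P →* ℂˣ}, ν ≠ 1 → (Quotient.mk'' ν : orbitRel.Quotient (𝐍 P) _) ≠ Quotient.mk'' 1 :=
    fun n e => by
      obtain ⟨g, rfl⟩ := Quotient.exact' e
      exact n rfl
  obtain ⟨s, hs, sμ⟩ : ∃ s : Q → P →* ℂˣ, (∀ q, Quotient.mk'' (s q) = q.1) ∧ s ⟨_, ne hμ⟩ = μ :=
    ⟨Function.update (fun q => q.1.out) ⟨_, ne hμ⟩ μ, fun q => by
      by_cases e : q = ⟨_, ne hμ⟩
      · rw [e, Function.update_self]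
      · rw [Function.update_of_ne e, Quotient.out_eq'], Function.update_self ..⟩
  have s1 : ∀ q, s q ≠ 1 := fun q e => q.2 (by rw [← hs, e])
  have sr : ∀ {q q'}, q ≠ q' → ¬ orbitRel (𝐍 P) _ (s q) (s q') := fun e r =>
    e (Subtype.ext (by rw [← hs, ← hs]; exact Quotient.sound' r))
  set q₀ : Q := ⟨_, ne n₀⟩
  set q₁ : Q := ⟨_, ne n₁⟩
  set q : Q := ⟨_, ne hμ⟩
  have a₀ := fun θ => h.inner_tw_zero (θ := θ) hπ (irr_isCharacter hξ) z₀ (Quotient.exact' (hs q₀))
  have a₁ := fun θ => h.inner_tw_zero (θ := θ) hπ (irr_isCharacter hξ) z₁ (Quotient.exact' (hs q₁))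
  have d₀₁ : q₀ ≠ q₁ := fun e => r (Quotient.exact' (congrArg Subtype.val e))
  have d₁ : q ≠ q₁ := fun e => a (by rw [← sμ, e]; exact a₁ θ hθ hk)
  have I := fun i j β => h.iso hm (α := tw π θ (s i) - tw π θ (s j)) (fun c e => by simp [tw, e]) β
  have B : ∀ i j, classInner (ind (EC P).ι (tw π θ (s i))) (ind (EC P).ι (tw π θ (s j))) =
      if i = j then 1 else 0 := fun i j => by
    split_ifs with e
    exacts [e ▸ h.inner_tw_self hm hπ hθ hk (s1 _), h.inner_tw_ne hm hπ hθ hθ hk hk (sr (Ne.symm e))]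
  obtain ⟨ε, η, hε, hη, t⟩ := exists_sign_irr q₀ (fun i => indFun _ (tw π θ (s i) - tw π θ (s q₀)))
    (by simp [← ind_subtype, ind_zero]) (fun i => gen_indFun _ (gen_sub (gen_of_irr (tw_irr hθ _))
      (gen_of_irr (tw_irr hθ _)))) (fun i => by simp [indFun_one_eq, tw])
        (fun i e => by simp [I, ind_sub, inner_sub_left, inner_sub_right, B, e, e.symm]; norm_num)
          fun i j e e' f => by simp [I, ind_sub, inner_sub_left, inner_sub_right, B, e, e'.symm, f]
  have T : ∀ (ψ : IrrCharacter G) i, classInner (fun c : 𝐂 P => (ψ : G → ℂ) c) (tw π θ (s i)) -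
      classInner (fun c : 𝐂 P => (ψ : G → ℂ) c) (tw π θ (s q₀)) =
        conj ε * ((if ψ = η i then 1 else 0) - if ψ = η q₀ then 1 else 0) := fun ψ i => by
    rw [← inner_sub_right, ← inner_indFun_right _ _ (irr_isClassFunction ψ.2), t, inner_smul_right,
      inner_sub_right, inner_irr', inner_irr']
  have e0 : conj ε ≠ 0 := by rcases hε with rfl | rfl <;> simp
  have x₀ : ⟨ξ, hξ⟩ ≠ η q₀ := fun e => by
    have := T ⟨ξ, hξ⟩ q₁
    rw [a₀ θ hθ hk, a₁ θ hθ hk, e, if_neg (hη.ne d₀₁)] at this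
    simp [e0] at this
  have x : ⟨ξ, hξ⟩ = η q := by_contra fun e => by
    have := T ⟨ξ, hξ⟩ q
    rw [a₀ θ hθ hk, sμ, if_neg e, if_neg x₀] at this
    exact a (by simpa using this)
  have i1 : IsIrrCharacter (𝐂 P) (tw π (fun _ => 1) (s q₁)) := tw_irr irr_one _
  have o1 : ∀ ν, ν ≠ 1 → ∀ θ, IsIrrCharacter _ θ → (∀ x, θ (inclusion h.abel x) = θ 1) →
      classInner (ind (EC P).ι fun _ => 1) (ind (EC P).ι (tw π θ ν)) = 0 := fun ν n θ hθ hk => by
    convert h.inner_tw_ne hm hπ irr_one hθ (fun _ => rfl) hk fun r => ne n (Quotient.sound' r) using 4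
    simp [tw]
  have I' := h.iso hm (α := (fun _ => 1) - tw π (fun _ => 1) (s q₁)) fun c e => by simp [tw, e]
  have g := gen_indFun _ (gen_sub gen_const_one (gen_of_irr i1))
  obtain ⟨u, hu⟩ := inner_char_eq_nat (char_restrict (irr_isCharacter hξ) (𝐂 P)) char_const_one
  have U : ∀ i, i ≠ q₁ → classInner (indFun _ ((fun _ => 1) - tw π (fun _ => 1) (s q₁))) (η i) =
      classInner (indFun _ ((fun _ => 1) - tw π (fun _ => 1) (s q₁))) (η q₀) := fun i e => by
    have := I' (tw π θ (s i) - tw π θ (s q₀))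
    rw [t, inner_smul_right, ind_sub, ind_sub, inner_sub_left, inner_sub_right, inner_sub_right,
      inner_sub_right, o1 _ (s1 _) θ hθ hk, o1 _ (s1 _) θ hθ hk, h.inner_tw_ne hm hπ irr_one hθ
        (fun _ => rfl) hk (sr e), h.inner_tw_ne hm hπ irr_one hθ (fun _ => rfl) hk (sr d₀₁)] at this
    simpa [e0, sub_eq_zero] using this
  have o : ∀ i, η i ≠ ⟨_, irr_one⟩ := fun i e => by
    have f : ∀ j, classInner (fun _ => 1) (tw π θ (s j)) = 0 := fun j =>
      h.inner_tw_zero (ξ := fun _ => 1) hπ char_const_one (inner_irr_ne irr_one (irr_linear _)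
        fun w => s1 j (linear_injective w.symm)) ((orbitRel _ _).refl _) hθ hk
    have := fun j => T ⟨_, irr_one⟩ j
    simp only [f, ← e, hη.eq_iff, sub_self, eq_comm (a := (0 : ℂ)), mul_eq_zero, e0, false_or,
      sub_eq_zero] at this
    by_cases w : i = q₀
    · simpa [w, d₀₁] using this q₁
    · simpa [w] using this i
  by_contra w
  obtain ⟨u, rfl⟩ := Nat.exists_eq_succ_of_ne_zero (n := u) (by rintro rfl; exact w (by simpa using hu))
  have := card_lt_of_pos g (by simp [indFun_one_eq, tw]) (n := (𝐂 P).relIndex (𝐍 P) + 1)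
    (by
      rw [I', ind_sub, inner_sub_left, inner_sub_right, inner_sub_right, o1 _ (s1 _) _ irr_one
        fun _ => rfl, (inner_eq_zero_comm _ _).1 (o1 _ (s1 _) _ irr_one fun _ => rfl),
          h.inner_tw_self hm hπ irr_one (fun _ => rfl) (s1 _), (EC P).inner_ind_self' irr_one,
            (EC P).invariant_iff_inertia.1 fun _ _ => rfl, relIndex_top_right]
      simp [← NormalEmb.index_ofLe (cent_le_norm P) fun _ ht n hn =>
        (mem_norm.1 (norm_le_norm_cent P ht) n).1 hn, NormalEmb.index, EC])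
    (X := insert ⟨_, irr_one⟩ ((Finset.univ.erase q₁).image η)) (Finset.insert_nonempty _ _) (by
      simp only [Finset.forall_mem_insert, Finset.forall_mem_image, Finset.mem_erase]
      refine ⟨⟨0, ?_⟩, fun i e => ⟨u, ?_⟩⟩
      · rw [inner_indFun_left _ _ (irr_isClassFunction irr_one), inner_sub_left, inner_one_one,
          inner_irr_ne i1 irr_one fun w => s1 q₁ (MonoidHom.ext fun y => Units.ext (by
            simpa [tw, hπ] using congrFun w (inclusion h.abel y)))]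
        simp
      rw [U i e.1, ← U q d₁, ← x, inner_gen_comm g (gen_of_irr hξ), inner_indFun_right _ _ hc,
        inner_sub_right, hu, a₁ _ irr_one fun _ => rfl]
      simp)
  rw [Finset.card_insert_of_notMem (by simpa using fun i _ => o i), Finset.card_image_of_injective _ hη,
    Finset.card_erase_add_one (Finset.mem_univ _), Finset.card_univ] at this
  have c := card_le (Finset.univ.erase (1 : P →* ℂˣ))
  rw [Finset.card_erase_of_mem (Finset.mem_univ _), Finset.card_univ, ← Nat.card_eq_fintype_card,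
    h.card_dual] at c
  have : ((Finset.univ.erase (1 : P →* ℂˣ)).image
      (Quotient.mk'' : _ → orbitRel.Quotient (𝐍 P) (P →* ℂˣ))).card ≤ Fintype.card Q := by
    rw [Fintype.card_subtype]
    exact Finset.card_le_card (Finset.image_subset_iff.2 fun ν n => Finset.mem_filter.2
      ⟨Finset.mem_univ _, ne (Finset.mem_erase.1 n).1⟩)
  have := c.trans (Nat.mul_le_mul_left _ (this.trans (Nat.le_of_lt_succ ‹_›)))
  rw [sq] at l
  omega

omit [Fintype G] [Fintype (𝐂 P)] [Fintype (𝐍 P)] in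
theorem HT.exists_two (h : HT P) {d : ℕ} (f : Fin d → P →* ℂˣ) (l : d ^ 2 + 1 < ♯P)
    (ed : (𝐂 P).relIndex (𝐍 P) ≤ d) : ∃ μ₀ μ₁ : P →* ℂˣ, (∀ μ ∈ ({μ₀, μ₁} : Set _), μ ≠ 1 ∧
      ∀ i j, f i / f j ≠ μ) ∧ ¬ orbitRel (𝐍 P) _ μ₀ μ₁ := by
  classical
  have := Fintype.ofFinite (P →* ℂˣ)
  set W := (Finset.univ.erase 1) \ (Finset.univ.offDiag.image fun x : Fin d × Fin d => f x.1 / f x.2)
  have v : ∀ μ ∈ W, μ ≠ 1 ∧ ∀ i j, f i / f j ≠ μ := fun μ hμ => by
    simp only [W, Finset.mem_sdiff, Finset.mem_erase] at hμ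
    refine ⟨hμ.1.1, fun i j e => hμ.2 (Finset.mem_image.2 ⟨(i, j), Finset.mem_offDiag.2
      ⟨Finset.mem_univ _, Finset.mem_univ _, ?_⟩, e⟩)⟩
    rintro (rfl : i = j)
    exact hμ.1.1 (e.symm.trans (MonoidHom.ext fun _ => div_self' _))
  by_contra! w
  have a := card_le W
  have b := Finset.card_le_one.2 (Finset.forall_mem_image.2 fun μ x => Finset.forall_mem_image.2
    fun ν y => (Quotient.sound' (w μ ν (by simpa using ⟨v μ x, v ν y⟩)) :
      (Quotient.mk'' μ : orbitRel.Quotient (𝐍 P) (P →* ℂˣ)) = Quotient.mk'' ν))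
  have c : _ ≤ W.card := Finset.le_card_sdiff _ _
  have := Finset.card_image_le (s := Finset.univ.offDiag) (f := fun x : Fin d × Fin d => f x.1 / f x.2)
  rw [Finset.card_erase_of_mem (Finset.mem_univ _), Finset.card_univ, ← Nat.card_eq_fintype_card,
    h.card_dual] at c
  rw [Finset.offDiag_card, Finset.card_univ, Fintype.card_fin] at this
  have := a.trans (Nat.mul_le_mul ed b)
  have := Nat.le_mul_self d
  rw [sq] at l
  omega

omit [Fintype G] [Fintype (𝐂 P)] [Fintype (𝐍 P)] in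
/-- Brauer–Leonard. -/
theorem HT.linear (h : HT P) (hP : ∀ K : Subgroup G, K.Normal → P ≤ K → K = ⊤) {χ : G → ℂ}
    (hχ : IsIrrCharacter G χ) (h1 : χ ≠ fun _ => 1) {d : ℕ} (e : χ 1 = d) (l : d ^ 2 + 1 < ♯P) :
    d = 1 ∧ 𝐍 P ≤ 𝐂 P := by
  have := Fintype.ofFinite G
  have := Fintype.ofFinite P
  have := Fintype.ofFinite (𝐂 P)
  have := Fintype.ofFinite (𝐍 P)
  have c := irr_isCharacter hχ
  have K : ∀ ξ, IsIrrCharacter G ξ → ξ ≠ (fun _ => 1) → ¬ P ≤ charKer ξ := fun ξ a b k =>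
    b (irr_eq_one_of_charKer_eq_top a (hP _ (charKer_normal (irr_isClassFunction a)) k))
  obtain ⟨f, hf⟩ := exists_linear_sum (fun x y : P => Subtype.ext (h.abel.mul_comm x.2 y.2))
    (char_restrict c P) e
  obtain ⟨i, hi⟩ : ∃ i, f i ≠ 1 := by
    by_contra! w
    exact K χ hχ h1 fun x hx => (mem_charKer_iff c).2 (by simpa [w, e] using hf ⟨x, hx⟩)
  have ed : (𝐂 P).relIndex (𝐍 P) ≤ d := by
    rw [relIndex, ← h.stab hi, index_stabilizer]
    refine (Set.ncard_le_ncard (t := Set.range f) ?_).trans (by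
      simpa using Set.ncard_image_le (s := Set.univ) (f := f))
    rintro _ ⟨n, rfl⟩
    exact (inner_linear_ne_zero hf _).1 ((inner_smul (irr_isClassFunction hχ) n _).trans_ne
      ((inner_linear_ne_zero hf _).2 ⟨i, rfl⟩))
  suffices d = 1 from ⟨this, relIndex_eq_one.1 (le_antisymm (this ▸ ed) (relIndex_pos _ _))⟩
  obtain ⟨μ₀, μ₁, w, r⟩ := h.exists_two f l ed
  have cc := char_mul c (char_conj c)
  have : classInner (fun x : 𝐂 P => (χ * (fun g => conj (χ g)) - fun _ => 1 : G → ℂ) x)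
      (fun _ => 1) = 0 := by
    by_contra w'
    obtain ⟨ξ, a, b, t⟩ := exists_irr_comp_inner_ne_zero (𝐂 P).subtype (gen_isClassFunction
      (gen_sub (gen_of_char cc) gen_const_one)) w'
    have n : ξ ≠ fun _ => 1 := by
      rintro rfl
      exact b (by rw [inner_sub_left, inner_one_one, sub_eq_zero]
                  exact (inner_eq_inner_one χ χ).symm.trans (inner_irr_self hχ))
    rw [inner_sub_left, inner_irr_ne irr_one a n.symm, sub_zero] at b
    have z : ∀ μ ∈ ({μ₀, μ₁} : Set (P →* ℂˣ)), classInner (fun x : P => ξ x) (fun x => μ x) = 0 :=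
      fun μ hμ => by_contra fun k => by
        obtain ⟨x, hx⟩ := (inner_linear_ne_zero (g := fun x : Fin d × Fin d => f x.1 / f x.2)
          (fun x => by
            change χ x * conj (χ x) = _
            simp [hf, Finset.sum_mul_sum, linear_conj, Fintype.sum_prod_type, div_eq_mul_inv]) μ).1
              (inner_comp_ne_zero_of_constituent P.subtype cc a (char_linear μ) b k)
        exact (w μ hμ).2 _ _ hx
    exact t (h.inner_res_eq_zero ((Nat.succ_le_succ (Nat.pow_le_pow_left ed 2)).trans_lt l) a n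
      (K ξ a n) (w _ (.inl rfl)).1 (w _ (.inr rfl)).1 r (z _ (.inl rfl)) (z _ (.inr rfl)))
  have i := (irr_iff_inner_self (char_restrict c (𝐂 P))).2 ((inner_eq_inner_one _ _).trans
    ((sub_eq_zero.1 ((inner_sub_left _ _ _).symm.trans this)).trans inner_one_one))
  refine Nat.cast_eq_one.1 (e.symm.trans (irr_one_eq_one_of_charCenter_eq_top hχ (hP _ (charCenter_normal
    (irr_isClassFunction hχ)) fun x hx => (mem_charCenter_iff c).2 ?_)))
  exact (mem_charCenter_iff (irr_isCharacter i) (g := ⟨x, h.abel hx⟩)).1 (center_le_charCenter i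
    (mem_center_iff.2 fun c => Subtype.ext (mem_cent.1 c.2 x hx).symm))

end

end CF.Char.Sg
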