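import Cfsg.Agent.Sing.K0
import Cfsg.Agent.Perm.Basic

/-! Large suborbits force 2-transitivity on points. -/

set_option autoImplicit false
set_option linter.style.haveILetI false

namespace CF.Sing

open Module CF.Geom

variable {F V : Type*} [Field F] [AddCommGroup V] [Module F V] [Finite F] [Finite V]
  {H : Subgroup (V ≃ₗ[F] V)}

/-- suborbit -/
def Sub (H : Subgroup (V ≃ₗ[F] V)) (x y : V) : Set V := {z | ∃ g ∈ H, g x = x ∧ g y = z}

omit [Finite F] [Finite V] in
theorem I2.coef {x y : V} (h : I2 F x y) {a a' b b' : F} (e : a • y + b • x = a' • y + b' • x) :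
    a = a' ∧ b = b' := by
  have h1 : a = a' := by
    by_contra c
    refine h.2 (Submodule.mem_span_singleton.2 ⟨(a - a')⁻¹ * (b' - b), ?_⟩)
    rw [mul_smul, inv_smul_eq_iff₀ (sub_ne_zero.2 c), sub_smul, sub_smul]
    linear_combination (norm := module) -e
  subst h1
  exact ⟨rfl, smul_left_injective F h.1 (add_left_cancel e)⟩

theorem aff_card {x y : V} (h : I2 F x y) {w : F} (hw : y + w • x ∉ Sub H x y) :
    {z : F × F | z.1 • y + z.2 • x ∈ Sub H x y}.ncard ≤ Nat.card F - 1 := by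
  classical
  let E : Set F := {b | y + b • x ∈ Sub H x y}
  have e1 : ∀ a b b' : F, a • y + b • x ∈ Sub H x y → a • y + b' • x ∈ Sub H x y → b - b' ∈ E := by
    rintro a b b' ⟨g, hg, g1, g2⟩ ⟨k, hk, k1, k2⟩
    have : g (k⁻¹ (a • y + b' • x)) = a • y + b • x := by rw [← k2, ← g2]; simp
    have a0 : a ≠ 0 := by
      rintro rfl
      refine h.2 (Submodule.mem_span_singleton.2 ⟨b, g.injective ?_⟩)
      rw [map_smul, g1, g2]; simp
    refine ⟨k⁻¹ * g, mul_mem (inv_mem hk) hg, by simp [g1, LinearEquiv.symm_apply_eq, k1], ?_⟩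
    rw [LinearEquiv.mul_apply, g2, LinearEquiv.coe_inv, LinearEquiv.symm_apply_eq, map_add, map_smul,
      k1, k2]
    module
  have e2 : ∀ a b c : F, a • y + b • x ∈ Sub H x y → c ∈ E → a * c ∈ E := by
    rintro a b c ⟨g, hg, g1, g2⟩ ⟨k, hk, k1, k2⟩
    refine e1 a (a * c + b) b ⟨k * g, mul_mem hk hg, by simp [g1, k1], ?_⟩ ⟨g, hg, g1, g2⟩ |>
      fun t => by simpa using t
    rw [LinearEquiv.mul_apply, g2, map_add, map_smul, map_smul, k1, k2]; module
  have e3 : ∀ c ∈ E, ∀ c' ∈ E, c - c' ∈ E := fun c hc c' hc' =>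
    e1 1 c c' (by rw [one_smul]; exact hc) (by rw [one_smul]; exact hc')
  have e0 : (0 : F) ∈ E := ⟨1, one_mem _, rfl, by simp⟩
  have e4 : ∀ a : F, a ≠ 0 → (∀ c ∈ E, a * c ∈ E) → a * w ∉ E := fun a a0 ha hc => by
    obtain ⟨c, hc', e⟩ := ((Set.toFinite E).injOn_iff_bijOn_of_mapsTo ha).1
      (fun _ _ _ _ e => mul_left_cancel₀ a0 e) |>.surjOn hc
    exact hw (mul_left_cancel₀ a0 e ▸ hc')
  let β : F → F := fun a => if h : ∃ b, a • y + b • x ∈ Sub H x y then h.choose else 0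
  have hβ : ∀ a b, a • y + b • x ∈ Sub H x y → b - β a ∈ E := fun a b hab => by
    have : ∃ b, a • y + b • x ∈ Sub H x y := ⟨b, hab⟩
    exact e1 a _ _ hab (by simp only [β, dif_pos this]; exact this.choose_spec)
  have a0 : ∀ a b : F, a • y + b • x ∈ Sub H x y → a ≠ 0 := by
    rintro a b ⟨g, hg, g1, g2⟩ rfl
    refine h.2 (Submodule.mem_span_singleton.2 ⟨b, g.injective ?_⟩)
    rw [map_smul, g1, g2]; simp
  rw [← Set.ncard_univ, ← Set.ncard_sdiff_singleton_of_mem (Set.mem_univ (0 : F))]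
  refine Set.ncard_le_ncard_of_injOn (fun z => z.1 * w + (z.2 - β z.1)) ?_ ?_
  · rintro ⟨a, b⟩ hz
    refine ⟨trivial, fun e => e4 a (a0 a b hz) (fun c => e2 a b c hz) ?_⟩
    have := e3 _ e0 _ (hβ a b hz)
    rwa [show 0 - (b - β a) = a * w by linear_combination -(Set.mem_singleton_iff.1 e)] at this
  · rintro ⟨a, b⟩ hz ⟨a', b'⟩ hz' e
    simp only at e
    have : a = a' := by
      by_contra c
      refine e4 (a - a') (sub_ne_zero.2 c) (fun c hc => ?_) ?_
      · rw [sub_mul]; exact e3 _ (e2 a b c hz hc) _ (e2 a' b' c hz' hc)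
      · have := e3 _ (hβ a' b' hz') _ (hβ a b hz)
        rwa [show b' - β a' - (b - β a) = (a - a') * w by linear_combination -e] at this
    subst this
    exact Prod.ext rfl (by linear_combination e)

theorem line_trans {x y : V} (h : I2 F x y)
    (hb : Nat.card F ^ (finrank F V - 1) ≤ (Sub H x y).ncard) (w : F) : y + w • x ∈ Sub H x y := by
  classical
  by_contra hw
  have h1 := aff_card h hw
  letI := Fintype.ofFinite F
  letI := Fintype.ofFinite V
  letI := Fintype.ofFinite (V ⧸ F ∙ x)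
  have nm : ∀ z ∈ Sub H x y, z ∉ F ∙ x := by
    rintro _ ⟨g, hg, g1, rfl⟩ c
    obtain ⟨b, hb⟩ := Submodule.mem_span_singleton.1 c
    exact h.2 (Submodule.mem_span_singleton.2 ⟨b, g.injective (by rw [map_smul, g1, hb])⟩)
  have := Finset.card_le_mul_card_image_of_maps_to
    (s := (Finset.univ.erase (0 : F)) ×ˢ (Sub H x y).toFinset) (t := Finset.univ.erase 0)
    (f := fun z => (Submodule.Quotient.mk (z.1 • z.2) : V ⧸ F ∙ x)) (fun z hz => by
      simp only [Finset.mem_product, Finset.mem_erase, Set.mem_toFinset, Finset.mem_univ,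
        and_true] at hz ⊢
      rw [ne_eq, Submodule.Quotient.mk_eq_zero, Submodule.smul_mem_iff _ hz.1]
      exact nm _ hz.2) (Nat.card F - 1) fun u _ => ?_
  · rw [Finset.card_product, Finset.card_erase_of_mem (Finset.mem_univ _),
      Finset.card_erase_of_mem (Finset.mem_univ _), Finset.card_univ, Finset.card_univ,
      ← Nat.card_eq_fintype_card, ← Nat.card_eq_fintype_card, ← Set.ncard_eq_toFinset_card',
      card_top (F := F) (V := V ⧸ F ∙ x)] at this
    have e := Submodule.finrank_quotient_add_finrank (F ∙ x)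
    rw [finrank_span_singleton h.1] at e
    have := Nat.le_of_mul_le_mul_left this (by have := two_le_q (F := F); omega)
    rw [show finrank F (V ⧸ F ∙ x) = finrank F V - 1 by omega] at this
    have : 0 < Nat.card F ^ (finrank F V - 1) := pow_pos Nat.card_pos _
    omega
  refine le_trans ?_ h1
  rw [← Set.ncard_coe_finset]
  rcases Set.eq_empty_or_nonempty (α := F × V) ↑(((Finset.univ.erase (0 : F)) ×ˢ
    (Sub H x y).toFinset).filter fun z => (Submodule.Quotient.mk (z.1 • z.2) : V ⧸ F ∙ x) = u)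
    with e | ⟨⟨c, z⟩, e⟩
  · rw [e]; simp
  simp only [Finset.coe_filter, Finset.mem_product, Finset.mem_erase, Set.mem_toFinset,
    Finset.mem_univ, and_true, Set.mem_ofPred_eq] at e ⊢
  obtain ⟨⟨c0, g, hg, g1, rfl⟩, rfl⟩ := e
  have key : ∀ z : F × V, (z.1 ≠ 0 ∧ z.2 ∈ Sub H x y) ∧ (Submodule.Quotient.mk (z.1 • z.2) : V ⧸ F ∙ x)
      = Submodule.Quotient.mk (c • g y) → ∃ b : F, z.2 = g ((c / z.1) • y + b • x) := by
    rintro ⟨a, z⟩ ⟨⟨a0, -⟩, e⟩
    obtain ⟨b, hb⟩ := Submodule.mem_span_singleton.1 ((Submodule.Quotient.eq _).1 e)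
    refine ⟨b / a, smul_right_injective V a0 ?_⟩
    simp only [map_add, map_smul, g1, smul_add, smul_smul, mul_div_cancel₀ _ a0, hb]
    simp
  choose! β hβ using key
  refine Set.ncard_le_ncard_of_injOn (fun z => (c / z.1, β z)) (fun z hz => ?_) fun z hz z' hz' e => ?_
  · obtain ⟨k, hk, k1, k2⟩ := hz.1.2
    exact ⟨g⁻¹ * k, mul_mem (inv_mem hg) hk, by simp [k1, LinearEquiv.symm_apply_eq, g1], by
      rw [LinearEquiv.mul_apply, k2, hβ z hz]; simp⟩
  · simp only [Prod.mk.injEq] at e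
    refine Prod.ext ?_ (by rw [hβ z hz, hβ z' hz', e.1, e.2])
    exact inv_injective (mul_left_cancel₀ c0 (by simpa [div_eq_mul_inv] using e.1))

theorem antiflag {x : V} (h : ∀ y ∉ F ∙ x, ∀ w : F, y + w • x ∈ Sub H x y) {f f' : Dual F V}
    (hf : f x = 1) (hf' : f' x = 1) : ∃ g ∈ H, g x = x ∧ dl g f = f' := by
  classical
  letI := Fintype.ofFinite V
  letI := Fintype.ofFinite (Dual F V)
  obtain ⟨e, he⟩ := (AddChar.exists_apply_ne_zero (a := (1 : F))).2 one_ne_zero
  let O : Finset (Dual F V) := Finset.univ.filter fun φ => ∃ g ∈ H, g x = x ∧ dl g f = φ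
  let u : V → ℂ := fun y => ∑ φ ∈ O, e (φ y)
  have o1 : ∀ φ ∈ O, φ x = 1 := fun φ hφ => by
    obtain ⟨g, -, g1, rfl⟩ := (Finset.mem_filter.1 hφ).2
    rw [dl_apply, (LinearEquiv.symm_apply_eq g).2 g1.symm, hf]
  have o2 : ∀ g ∈ H, g x = x → ∀ φ ∈ O, dl g φ ∈ O := fun g hg g1 φ hφ => by
    obtain ⟨k, hk, k1, rfl⟩ := (Finset.mem_filter.1 hφ).2
    exact Finset.mem_filter.2 ⟨Finset.mem_univ _, g * k, mul_mem hg hk, by simp [k1, g1],
      by rw [map_mul]; rfl⟩
  have u0 : ∀ y ∉ F ∙ x, u y = 0 := fun y hy => by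
    obtain ⟨g, hg, g1, g2⟩ := h y hy 1
    have e1 : u (g y) = u y := by
      refine (Finset.sum_bij' (fun φ _ => dl g φ) (fun φ _ => dl g⁻¹ φ) (o2 g hg g1)
        (o2 _ (inv_mem hg) (by simp [LinearEquiv.symm_apply_eq, g1])) ?_ ?_ ?_).symm
      · intro φ _; ext; simp
      · intro φ _; ext; simp
      · intro φ _; simp
    have e2 : u (g y) = u y * e 1 := by
      rw [g2, Finset.sum_mul]
      exact Finset.sum_congr rfl fun φ hφ => by
        rw [map_add, map_smul, o1 φ hφ, AddChar.map_add_eq_mul]; simp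
    exact (mul_right_eq_self₀.1 (e2.symm.trans e1)).resolve_left he
  have key : ∀ ψ : Dual F V, ∑ y, u y * e (-ψ y) = if ψ ∈ O then (Fintype.card V : ℂ) else 0 := by
    intro ψ
    simp only [u, Finset.sum_mul]
    rw [Finset.sum_comm, ← Finset.sum_ite_eq O ψ fun _ => (Fintype.card V : ℂ)]
    refine Finset.sum_congr rfl fun φ _ => ?_
    have := AddChar.sum_eq_ite (e.compAddMonoidHom (φ - ψ).toAddMonoidHom)
    simp only [AddChar.compAddMonoidHom_apply, LinearMap.toAddMonoidHom_coe, LinearMap.sub_apply,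
      sub_eq_add_neg, AddChar.map_add_eq_mul, LinearMap.add_apply, LinearMap.neg_apply] at this
    rw [this]
    refine if_congr ⟨fun c => ?_, fun c => by ext; simp [c]⟩ rfl rfl
    by_contra hne
    obtain ⟨v, hv⟩ := LinearMap.surjective (f := φ + -ψ) (fun c => hne (by
      rw [← sub_eq_add_neg, sub_eq_zero] at c; exact c.symm)) 1
    exact he (by simpa [hv] using DFunLike.congr_fun c v)
  have e1 : ∑ y, u y * e (-f' y) = ∑ y, u y * e (-f y) := Finset.sum_congr rfl fun y _ => by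
    by_cases hy : y ∈ F ∙ x
    · obtain ⟨c, rfl⟩ := Submodule.mem_span_singleton.1 hy
      simp [hf, hf']
    · rw [u0 y hy, zero_mul, zero_mul]
  have o3 : f ∈ O := Finset.mem_filter.2 ⟨Finset.mem_univ _, 1, one_mem _, rfl, by simp⟩
  by_contra hc
  have o4 : f' ∉ O := fun c => hc (Finset.mem_filter.1 c).2
  rw [key, key, if_pos o3, if_neg o4] at e1
  exact Fintype.card_ne_zero (Nat.cast_eq_zero.1 e1.symm)

theorem tr2_of_big (hZ : HasZ H) (hn : 2 ≤ finrank F V)
    (ht : ∀ x y : V, x ≠ 0 → y ≠ 0 → ∃ g ∈ H, g x = y)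
    (hb : ∀ x y : V, I2 F x y → Nat.card F ^ (finrank F V - 1) ≤ (Sub H x y).ncard) : Tr2 H := by
  classical
  obtain ⟨p, hp⟩ := CharP.exists F
  letI := Fintype.ofFinite F
  obtain ⟨e, pp, hq⟩ := FiniteField.card F p
  haveI := Fact.mk pp
  rw [← Nat.card_eq_fintype_card] at hq
  haveI : Nontrivial V := Module.nontrivial_of_finrank_pos (R := F) (by omega)
  obtain ⟨v0, hv0⟩ := exists_ne (0 : V)
  obtain ⟨f, hf, -⟩ := exists_dual_one (W := (⊥ : Submodule F V)) (v := v0) (by simpa using hv0)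
  have hk : finrank F (LinearMap.ker f) = finrank F V - 1 := by
    have := f.finrank_range_add_finrank_ker
    rw [LinearMap.range_eq_top.2 (LinearMap.surjective (fun c => by simp [c] at hf)),
      finrank_top, finrank_self] at this
    omega
  let K : Subgroup (V ≃ₗ[F] V) := H ⊓ (MulAction.stabilizer _ f).comap dl
  have hK : ∀ g : K, ∀ v, f (g.1 v) = f v := fun g v => by
    have : dl g.1 f = f := g.2.2
    conv_lhs => rw [← this]
    simp
  let A : SubMulAction K V := ⟨{v | f v = 1}, fun g v hv => (hK g v).trans hv⟩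
  let W : SubMulAction K V := ⟨{v | f v = 0}, fun g v hv => (hK g v).trans hv⟩
  haveI : MulAction.IsPretransitive K A := ⟨fun a b => by
    obtain ⟨g, hg, g1⟩ := ht a.1 b.1 (fun c => by have : f a = 1 := a.2; simp [c] at this)
      (fun c => by have : f b = 1 := b.2; simp [c] at this)
    obtain ⟨k, hk, k1, k2⟩ := antiflag (H := H) (x := b.1) (fun y hy => line_trans
      ⟨fun c => by have : f b = 1 := b.2; simp [c] at this, hy⟩ (hb _ _
        ⟨fun c => by have : f b = 1 := b.2; simp [c] at this, hy⟩)) (f := dl g f) (f' := f)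
      (by rw [← g1, dl_apply, LinearEquiv.symm_apply_apply]; exact a.2) b.2
    exact ⟨⟨k * g, mul_mem hk hg, by
      change dl (k * g) f = f
      rw [map_mul]; exact k2⟩, Subtype.ext (by change k (g a) = b; rw [g1, k1])⟩⟩
  have cW : Nat.card W = p ^ (e * (finrank F V - 1)) := by
    rw [pow_mul, ← hq, ← hk, ← card_sub, ← Nat.card_coe_set_eq]; rfl
  have cA : Nat.card A = p ^ (e * (finrank F V - 1)) := by
    rw [← cW]
    exact Nat.card_congr ⟨fun a => ⟨a.1 - v0, by
      change f _ = 0; rw [map_sub, show f a = 1 from a.2, hf, sub_self]⟩,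
      fun a => ⟨a.1 + v0, by change f _ = 1; rw [map_add, show f a = 0 from a.2, hf, zero_add]⟩,
      fun a => by simp, fun a => by simp⟩
  obtain ⟨P⟩ := (inferInstance : Nonempty (Sylow p K))
  have hP := CF.Perm.sylow_isPretransitive cA P
  obtain ⟨x0, x1, x2⟩ := P.isPGroup'.exists_fixed_point_of_prime_dvd_card_of_fixed_point W
    (by rw [cW]; exact dvd_pow_self _ (Nat.mul_ne_zero e.ne_zero (by omega)))
    (a := ⟨0, map_zero f⟩) fun g => Subtype.ext (map_zero g.1.1)
  have x3 : x0.1 ≠ 0 := fun c => x2 (Subtype.ext c.symm)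
  have k1 : ∀ y, I2 F x0.1 y → ∃ g ∈ H, ∃ a : F, g x0.1 = a • x0.1 ∧ g y = v0 := by
    intro y hy
    obtain ⟨_, ⟨g, hg, g1, rfl⟩, z2⟩ : ∃ z ∈ Sub H x0.1 y, z ∉ LinearMap.ker f := by
      by_contra hc
      push Not at hc
      have h1 := Set.ncard_lt_ncard (s := Sub H x0.1 y) (t := LinearMap.ker f)
        ⟨hc, fun c => by
          obtain ⟨g, -, -, g2⟩ := c (Submodule.zero_mem _)
          exact hy.2 (by rw [g.map_eq_zero_iff.1 g2]; exact Submodule.zero_mem _)⟩
      rw [card_sub, hk] at h1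
      exact absurd (hb _ _ hy) (not_le.2 h1)
    obtain ⟨s, hs, s1⟩ := hZ _ (inv_ne_zero z2)
    obtain ⟨k, hk⟩ := hP.1 ⟨s (g y), by
      change f _ = 1; rw [s1, map_smul, smul_eq_mul, inv_mul_cancel₀ z2]⟩ ⟨v0, hf⟩
    refine ⟨k.1.1 * s * g, mul_mem (mul_mem k.1.2.1 hs) hg, (f (g y))⁻¹, ?_,
      congrArg Subtype.val hk⟩
    rw [LinearEquiv.mul_apply, LinearEquiv.mul_apply, g1, s1, map_smul]
    exact congrArg _ (congrArg Subtype.val (x1 k))
  have k2 : ∀ x y, I2 F x y → ∃ g ∈ H, ∃ a : F, g x = a • x0.1 ∧ g y = v0 := by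
    intro x y hxy
    obtain ⟨g, hg, g1⟩ := ht x x0.1 hxy.1 x3
    obtain ⟨k, hk, a, b1, b2⟩ := k1 (g y) ⟨x3, fun c => by
      obtain ⟨b, hb⟩ := Submodule.mem_span_singleton.1 c
      exact hxy.2 (Submodule.mem_span_singleton.2 ⟨b, g.injective (by rw [map_smul, g1, hb])⟩)⟩
    exact ⟨k * g, mul_mem hk hg, a, by simp [g1, b1], b2⟩
  intro x y x' y' h h'
  obtain ⟨g, hg, a, g1, g2⟩ := k2 x y h
  obtain ⟨k, hk, b, b1, b2⟩ := k2 x' y' h'
  have b0 : b ≠ 0 := by rintro rfl; exact h'.1 (by simpa using b1)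
  refine ⟨k⁻¹ * g, mul_mem (inv_mem hk) hg, ⟨a / b, ?_⟩, 1, ?_⟩
  · rw [LinearEquiv.mul_apply, g1, LinearEquiv.coe_inv, LinearEquiv.symm_apply_eq, map_smul, b1,
      smul_smul, div_mul_cancel₀ _ b0]
  · rw [LinearEquiv.mul_apply, g2, ← b2]; simp

end CF.Sing
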