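import Cfsg.Agent.Sing.A3
import Cfsg.Agent.Sing.D

/-! The Singer cycle in prime dimension: arithmetic and field lemmas. -/

set_option autoImplicit false
set_option linter.style.haveILetI false

namespace CF.Sing

open Module CF.Geom

/-- the parameters `q ^ n - 1 = (q - 1) d m` -/
structure Par (q n d m : ℕ) : Prop where
  q2 : 2 ≤ q
  pr : n.Prime
  n13 : 13 ≤ n
  eq : q ^ n = (q - 1) * d * m + 1
  c1 : m.Coprime (q - 1)
  c2 : m.Coprime n
  dv : d ∣ q - 1
  dn : d = 1 ∨ d = n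

theorem exists_par {q n : ℕ} (hq : 2 ≤ q) (hn : n.Prime) (h13 : 13 ≤ n) : ∃ d m, Par q n d m := by
  obtain ⟨r, rfl⟩ : ∃ r, q = r + 1 := ⟨q - 1, by omega⟩
  have h1 : ∀ i, ∃ w, (r + 1) ^ i = 1 + r * i + r ^ 2 * w := fun i => by
    induction i with
    | zero => exact ⟨0, by simp⟩
    | succ i ih => obtain ⟨w, hw⟩ := ih; exact ⟨i + w * (r + 1), by rw [pow_succ, hw]; ring⟩
  have h2 : ∀ k, ∃ w, ∑ i ∈ Finset.range k, (r + 1) ^ i =
      k + r * ∑ i ∈ Finset.range k, i + r ^ 2 * w := fun k => by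
    induction k with
    | zero => exact ⟨0, by simp⟩
    | succ k ih =>
      obtain ⟨w, hw⟩ := ih
      obtain ⟨w', hw'⟩ := h1 k
      exact ⟨w + w', by rw [Finset.sum_range_succ, Finset.sum_range_succ, hw, hw']; ring⟩
  obtain ⟨w, hw⟩ := h2 n
  have h3 := geom_sum_mul_add r n
  set v := ∑ i ∈ Finset.range n, (r + 1) ^ i
  have h4 : ∀ s, s ∣ v → s ∣ r → s ∣ n := fun s a b => by
    rw [hw, add_assoc] at a
    exact (Nat.dvd_add_left (Dvd.dvd.add (b.mul_right _) ((dvd_pow b two_ne_zero).mul_right _))).1 a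
  by_cases h : n ∣ r
  · obtain ⟨k, rfl⟩ := h
    obtain ⟨j, hj⟩ := hn.odd_of_ne_two (by omega)
    have h5 : ∑ i ∈ Finset.range n, i = n * j := by
      have := Finset.sum_range_id_mul_two n
      rw [show n - 1 = j * 2 by omega, ← mul_assoc] at this
      omega
    have h6 : v = n * (1 + n * (k * j + k ^ 2 * w)) := by rw [hw, h5]; ring
    have h7 : (1 + n * (k * j + k ^ 2 * w)).Coprime n := by simp
    refine ⟨n, _, hq, hn, h13, by rw [← h3, h6]; simp only [Nat.add_sub_cancel]; ring, ?_, h7,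
      by simp, Or.inr rfl⟩
    refine Nat.coprime_of_dvd fun s hs a b => ?_
    exact hs.one_lt.ne' (Nat.eq_one_of_dvd_coprimes h7 a (h4 s (h6 ▸ a.mul_left _) b))
  · refine ⟨1, v, hq, hn, h13, by rw [← h3]; simp only [Nat.add_sub_cancel]; ring, ?_, ?_,
      one_dvd _, Or.inl rfl⟩
    · exact Nat.coprime_of_dvd fun s hs a b =>
        h ((Nat.prime_dvd_prime_iff_eq hs hn).1 (h4 s a b) ▸ b)
    · refine (hn.coprime_iff_not_dvd.2 fun c => h ?_).symm
      haveI := Fact.mk hn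
      have e := congrArg (Nat.cast : ℕ → ZMod n) h3
      push_cast at e
      rw [ZMod.pow_card, (ZMod.natCast_eq_zero_iff v n).2 c, zero_mul, add_left_inj] at e
      exact (ZMod.natCast_eq_zero_iff r n).1 e.symm

namespace Par
variable {q n d m : ℕ} (h : Par q n d m)
include h

theorem d_pos : 0 < d := by have := h.n13; rcases h.dn with e | e <;> omega

theorem d_lt : d < q := by
  have := h.q2; have := Nat.le_of_dvd (by omega) h.dv; omega

theorem m_ge : q ^ (n - 2) ≤ m := by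
  have h1 := h.eq
  have := h.q2
  have := h.n13
  have h2 : (q - 1) * d < q ^ 2 := by
    have := h.d_lt
    calc (q - 1) * d ≤ (q - 1) * q := Nat.mul_le_mul_left _ this.le
      _ < q * q := Nat.mul_lt_mul_of_pos_right (by omega) (by omega)
      _ = q ^ 2 := (sq q).symm
  have m0 : 0 < m := Nat.pos_of_ne_zero fun c => by
    rw [c] at h1
    have := Nat.one_lt_pow (n := n) (a := q) (by omega) (by omega)
    omega
  refine Nat.le_of_mul_le_mul_left (c := q ^ 2) ?_ (by positivity)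
  rw [← pow_add, show 2 + (n - 2) = n by omega, h1]
  nlinarith

theorem two_le_m : 2 ≤ m :=
  le_trans (Nat.one_lt_pow (by have := h.n13; omega) h.q2) h.m_ge

theorem M_ge : q ^ (n - 1) + q ^ (n - 2) ≤ (q - 1) * m := by
  have h1 := h.eq
  have := h.q2
  have := h.n13
  obtain ⟨r, rfl⟩ : ∃ r, q = r + 1 := ⟨q - 1, by omega⟩
  obtain ⟨k, rfl⟩ : ∃ k, n = k + 2 := ⟨n - 2, by omega⟩
  have h2 := h.d_lt
  simp only [Nat.add_sub_cancel] at h1 ⊢
  rw [show k + 2 - 1 = k + 1 by omega]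
  refine Nat.le_of_mul_le_mul_left (c := r) ?_ (by omega)
  have h3 : r * d * m ≤ r * (r * m) := by
    rw [mul_assoc]; exact Nat.mul_le_mul_left _ (Nat.mul_le_mul_right _ (by omega))
  have : 1 ≤ (r + 1) ^ k := Nat.one_le_pow _ _ (by omega)
  rw [pow_succ, pow_succ] at h1
  rw [pow_succ]
  nlinarith

theorem big {e f : ℕ} (he : e ≤ n) (hf : (m - 1) * f ≤ e * ((q - 1) * d * m)) : f ^ 2 + 1 < m := by
  have h1 := h.eq
  have q2 := h.q2
  have n13 := h.n13
  have m2 := h.two_le_m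
  set D := (q - 1) * d with hD
  have D0 : 0 < D := Nat.mul_pos (by omega) h.d_pos
  have f1 : f ≤ 2 * n * D := by
    refine Nat.le_of_mul_le_mul_left (c := m - 1) (hf.trans ?_) (by omega)
    obtain ⟨k, rfl⟩ : ∃ k, m = k + 1 := ⟨m - 1, by omega⟩
    have : e * (D * (k + 1)) ≤ n * (D * (2 * k)) :=
      Nat.mul_le_mul he (Nat.mul_le_mul_left _ (by omega))
    simp only [Nat.add_sub_cancel]
    nlinarith
  have f2 : 5 * n ^ 2 * D ^ 3 < q ^ n := by
    rcases h.dn with e | e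
    · have a : ∀ k, 5 * (k + 13) ^ 2 < 2 ^ (k + 10) := fun k => by
        induction k with
        | zero => norm_num
        | succ k ih => 
          rw [show k + 1 + 10 = k + 10 + 1 by ring, pow_succ 2]
          have : (k + 1 + 13) ^ 2 ≤ 2 * (k + 13) ^ 2 := by nlinarith [Nat.zero_le (k * k)]
          omega
      obtain ⟨k, rfl⟩ : ∃ k, n = k + 13 := ⟨n - 13, by omega⟩
      have b : D ^ 3 ≤ q ^ 3 := Nat.pow_le_pow_left (by rw [hD, e]; omega) _
      calc _ < 2 ^ (k + 10) * D ^ 3 := Nat.mul_lt_mul_of_pos_right (a k) (by positivity)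
        _ ≤ q ^ (k + 10) * q ^ 3 := Nat.mul_le_mul (Nat.pow_le_pow_left q2 _) b
        _ = _ := by rw [← pow_add]
    · have a := h.d_lt
      have b : D ≤ q ^ 2 := by rw [sq]; exact Nat.mul_le_mul (by omega) a.le
      calc _ ≤ q * q ^ 2 * (q ^ 2) ^ 3 := Nat.mul_le_mul (Nat.mul_le_mul (by omega)
            (Nat.pow_le_pow_left (by omega) _)) (Nat.pow_le_pow_left b _)
        _ = q ^ 9 := by ring
        _ < _ := Nat.pow_lt_pow_right q2 (by omega)
  refine Nat.lt_of_mul_lt_mul_left (a := D) ?_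
  have f3 : f ^ 2 ≤ (2 * n * D) ^ 2 := Nat.pow_le_pow_left f1 _
  have f4 : 2 * D ≤ n ^ 2 * D ^ 3 := Nat.mul_le_mul (by nlinarith) (Nat.le_self_pow (by omega) _)
  nlinarith

theorem frob {κ : ℕ} (hκ : m + 1 ≤ κ)
    (hf : (q - 1) * m * κ ≤ (q - 1) * d * m + (κ - 1) * (q ^ (n - 1) + q ^ 2)) : False := by
  have h1 := h.eq
  have q2 := h.q2
  have n13 := h.n13
  have m1 := h.m_ge
  have d1 := h.d_lt
  obtain ⟨k, rfl⟩ : ∃ k, κ = k + 1 := ⟨κ - 1, by omega⟩
  obtain ⟨r, rfl⟩ : ∃ r, q = r + 1 := ⟨q - 1, by omega⟩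
  obtain ⟨j, rfl⟩ : ∃ j, n = j + 6 := ⟨n - 6, by omega⟩
  simp only [Nat.add_sub_cancel] at h1 hf
  rw [show j + 6 - 1 = j + 5 by omega] at hf
  rw [show j + 6 - 2 = j + 4 by omega] at m1
  set q := r + 1 with hq
  have a1 : q ^ 3 + q ^ 3 ≤ q ^ (j + 5) := by
    rw [show j + 5 = 3 + (j + 2) by ring, pow_add]
    have := Nat.one_lt_pow (n := j + 2) (a := q) (by omega) (by omega)
    nlinarith [pow_pos (show 0 < q by omega) 3]
  have a2 : q ^ (j + 6) = r * q ^ (j + 5) + q ^ (j + 5) := by rw [pow_succ, hq]; ring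
  have a3 : q ^ 3 = r * q ^ 2 + q ^ 2 := by rw [pow_succ, hq]; ring
  have a4 : d * (q ^ (j + 5) + q ^ 2) + q ^ 3 ≤ r * d * m := by
    have : d * (q ^ (j + 5) + q ^ 2) ≤ r * (q ^ (j + 5) + q ^ 2) := Nat.mul_le_mul_right _ (by omega)
    have : 1 ≤ q ^ 2 := Nat.one_le_pow _ _ (by omega)
    nlinarith
  have a5 : k * q ^ 3 ≤ d * (r * d * m) := by
    have b1 := Nat.mul_le_mul_left k a4
    have b2 := Nat.mul_le_mul_left d hf
    nlinarith [Nat.zero_le (d * (r * m))]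
  have a6 : q ^ (j + 4) * q ^ 3 ≤ k * q ^ 3 := Nat.mul_le_mul_right _ (by omega)
  have a7 : d * (r * d * m) < q * q ^ (j + 6) :=
    Nat.mul_lt_mul_of_lt_of_le d1 (by omega) (by positivity)
  rw [← pow_add] at a6
  rw [← pow_succ'] at a7
  rw [show j + 4 + 3 = j + 6 + 1 by ring] at a6
  omega

theorem orb {k : ℕ} (hk : k < q ^ (n - 1))
    (hf : ((((q - 1) * m : ℕ) : ℝ) - k) ^ 2 * (m - 1) ≤ 2 * (((q - 1) * d : ℕ) : ℝ) ^ 3 * m * k) :
    False := by
  have q2 := h.q2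
  have n13 := h.n13
  have m2 : (2 : ℝ) ≤ m := by exact_mod_cast h.two_le_m
  have a1 : ((q ^ (n - 2) : ℕ) : ℝ) ≤ ((q - 1) * m : ℕ) - k := by
    rw [le_sub_iff_add_le]; exact_mod_cast (by have := h.M_ge; omega)
  have a2 : (((q - 1) * d : ℕ) : ℝ) ≤ (q ^ 2 : ℕ) := by
    exact_mod_cast (by rw [sq]; exact Nat.mul_le_mul (by omega) h.d_lt.le)
  have a3 : (k : ℝ) ≤ (q ^ (n - 1) : ℕ) := by exact_mod_cast hk.le
  have a4 : ((q ^ (n - 2) : ℕ) : ℝ) ^ 2 * (m - 1) ≤ 2 * ((q ^ 2 : ℕ) : ℝ) ^ 3 * (2 * (m - 1)) *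
      (q ^ (n - 1) : ℕ) := by
    refine le_trans (mul_le_mul_of_nonneg_right (pow_le_pow_left₀ (by positivity) a1 2)
      (by linarith)) (hf.trans ?_)
    have : (0 : ℝ) ≤ m - 1 := by linarith
    gcongr
    linarith
  have a5 : ((q ^ (n - 2) : ℕ) : ℝ) ^ 2 ≤ 4 * ((q ^ 2 : ℕ) : ℝ) ^ 3 * (q ^ (n - 1) : ℕ) :=
    le_of_mul_le_mul_right (a := (m : ℝ) - 1) (by linarith) (by linarith)
  have a6 : (q ^ (n - 2)) ^ 2 ≤ 4 * (q ^ 2) ^ 3 * q ^ (n - 1) := by exact_mod_cast a5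
  obtain ⟨j, rfl⟩ : ∃ j, n = j + 13 := ⟨n - 13, by omega⟩
  rw [show j + 13 - 2 = j + 11 by omega, show j + 13 - 1 = j + 12 by omega,
    show (q ^ (j + 11)) ^ 2 = q ^ (j + 4) * ((q ^ 2) ^ 3 * q ^ (j + 12)) by ring, mul_assoc] at a6
  have a7 := Nat.le_of_mul_le_mul_right a6 (by positivity)
  have : 2 ^ 4 ≤ q ^ (j + 4) :=
    (Nat.pow_le_pow_left q2 4).trans (Nat.pow_le_pow_right (by omega) (by omega))
  omega

end Par

variable {F K : Type*} [Field F] [Field K] [Algebra F K]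

variable (F) in
/-- multiplication maps -/
def ml : Kˣ →* (K ≃ₗ[F] K) := DistribMulAction.toModuleAut F K

@[simp] theorem ml_apply (a : Kˣ) (x : K) : ml F a x = a * x := rfl

theorem ml_inj : Function.Injective (ml F : Kˣ → K ≃ₗ[F] K) := fun a b e =>
  Units.ext (by simpa using LinearEquiv.congr_fun e 1)

/-- semilinear over `K` -/
def Mono (g : K ≃ₗ[F] K) : Prop := ∃ σ : K ≃ₐ[F] K, ∀ x, g x = g 1 * σ x

theorem mono_ml (a : Kˣ) : Mono (ml F a) := ⟨1, fun x => by simp⟩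

variable [Finite K]

theorem semi_of_conj (hp : (finrank F K).Prime) {g : K ≃ₗ[F] K} {t t' : K}
    (ht : t ∉ Set.range (algebraMap F K)) (h : ∀ x, g (t * x) = t' * g x) :
    ∃ σ : K ≃ₐ[F] K, σ t = t' ∧ ∀ x, g x = g 1 * σ x := by
  have g1 : g 1 ≠ 0 := by simp
  let S : Subalgebra F K :=
    { carrier := {a | ∀ x, g (a * x) = g a / g 1 * g x}
      mul_mem' := fun {a b} ha hb x => by
        rw [mul_assoc, ha, hb, ha b]; ring
      add_mem' := fun {a b} ha hb x => by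
        rw [add_mul, map_add, ha, hb, map_add]; ring
      algebraMap_mem' := fun c x => by
        rw [← Algebra.smul_def, Algebra.algebraMap_eq_smul_one, map_smul, map_smul, Algebra.smul_def,
          Algebra.smul_def]; field_simp }
  have e : g t / g 1 = t' := by rw [← mul_one t, h]; field_simp
  have hS : S = ⊤ := ((Subalgebra.isSimpleOrder_of_finrank_prime F K hp).eq_bot_or_eq_top S).resolve_left
    fun c => ht (Algebra.mem_bot.1 (c ▸ fun x => by rw [h, e]))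
  have hS' : ∀ a x, g (a * x) = g a / g 1 * g x := fun a => (hS.symm ▸ Algebra.mem_top : a ∈ S)
  let σ : K →ₐ[F] K := AlgHom.ofLinearMap ((g 1)⁻¹ • (g : K →ₗ[F] K)) (by simp [g1])
    fun a b => by simp [hS']; field_simp
  exact ⟨AlgEquiv.ofBijective σ σ.bijective, by rw [← e]; simp [σ]; field_simp,
    fun x => by simp [σ, g1]⟩

theorem eq_ml_of_comm (hp : (finrank F K).Prime) {g : K ≃ₗ[F] K} {t : K}
    (ht : t ∉ Set.range (algebraMap F K)) (h : ∀ x, g (t * x) = t * g x) : ∃ b, g = ml F b := by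
  obtain ⟨σ, h1, h2⟩ := semi_of_conj hp ht h
  have hS := ((Subalgebra.isSimpleOrder_of_finrank_prime F K hp).eq_bot_or_eq_top
    (AlgHom.equalizer (σ : K →ₐ[F] K) (AlgHom.id F K))).resolve_left
    fun c => ht (Algebra.mem_bot.1 (c ▸ h1))
  refine ⟨Units.mk0 (g 1) (by simp), LinearEquiv.ext fun x => ?_⟩
  have : x ∈ AlgHom.equalizer (σ : K →ₐ[F] K) (AlgHom.id F K) := hS.symm ▸ Algebra.mem_top
  rw [h2, show σ x = x from this]; rfl

theorem mem_range_of_pow {a : K} (h : a ^ Nat.card F = a) : a ∈ Set.range (algebraMap F K) := by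
  haveI : Finite F := Finite.of_injective _ (algebraMap F K).injective
  letI := Fintype.ofFinite F
  rw [IsGalois.mem_range_algebraMap_iff_fixed]
  intro f
  obtain ⟨j, rfl⟩ := (FiniteField.bijective_frobeniusAlgEquivOfAlgebraic_pow F K).2 f
  rw [Nat.card_eq_fintype_card] at h
  simp only [AlgEquiv.coe_pow]
  exact Function.iterate_fixed (f := FiniteField.frobeniusAlgEquivOfAlgebraic F K) h _

theorem pow_of_mem_range {a : Kˣ} (h : (a : K) ∈ Set.range (algebraMap F K)) :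
    a ^ (Nat.card F - 1) = 1 := by
  haveI : Finite F := Finite.of_injective _ (algebraMap F K).injective
  letI := Fintype.ofFinite F
  obtain ⟨c, hc⟩ := h
  refine Units.ext ?_
  rw [Units.val_pow_eq_pow_val, ← hc, ← map_pow, Nat.card_eq_fintype_card,
    FiniteField.pow_card_sub_one_eq_one c fun e => a.ne_zero (by simp [← hc, e])]; simp

theorem det_ml (a : Kˣ) : algebraMap F K (LinearMap.det (ml F a : K →ₗ[F] K)) =
    a ^ ((Nat.card K - 1) / (Nat.card F - 1)) := by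
  rw [← FiniteField.algebraMap_norm_eq_pow, Algebra.norm_apply]; rfl

end CF.Sing
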