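import Cfsg.Agent.Sing.C1
import Cfsg.Agent.Perm.Count

/-! The Singer cycle in prime dimension: the Frobenius case and vector transitivity. -/

set_option autoImplicit false
set_option linter.style.haveILetI false

namespace CF.Sing

open Module CF.Geom Subgroup MulAction CF.Perm
open scoped LinearAlgebra.Projectivization

section
variable {F V : Type*} [Field F] [AddCommGroup V] [Module F V] [Finite F] [Finite V]

theorem eig_card (g : V →ₗ[F] V) (hg : ¬ ∃ c : F, ∀ v, g v = c • v) :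
    {w : V | w ≠ 0 ∧ ∃ c : F, g w = c • w}.ncard ≤
      Nat.card F ^ (finrank F V - 1) + Nat.card F ^ 2 := by
  rcases Set.eq_empty_or_nonempty {w : V | w ≠ 0 ∧ ∃ c : F, g w = c • w} with e | ⟨w, w0, c, hc⟩
  · simp [e]
  set E := End.eigenspace g c
  set W := ⨆ (c' : F) (_ : c' ≠ c), End.eigenspace g c'
  have h1 := Submodule.finrank_add_finrank_le_of_disjoint (End.eigenspaces_iSupIndep g c)
  have h2 : finrank F E < finrank F V := Submodule.finrank_lt fun e =>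
    hg ⟨c, fun v => End.mem_eigenspace_iff.1 (e.symm ▸ Submodule.mem_top : v ∈ E)⟩
  have h3 : finrank F E ≠ 0 := fun e => w0 <| (Submodule.mem_bot F).1 <|
    Submodule.finrank_eq_zero.1 e ▸ (End.mem_eigenspace_iff.2 hc : w ∈ E)
  refine le_trans (Set.ncard_le_ncard (t := (E : Set V) ∪ W) fun v ⟨_, c', h⟩ => ?_) ?_
  · by_cases e : c' = c
    · exact Or.inl (End.mem_eigenspace_iff.2 (e ▸ h))
    · exact Or.inr (Submodule.mem_iSup_of_mem c' (Submodule.mem_iSup_of_mem e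
        (End.mem_eigenspace_iff.2 h)))
  refine (Set.ncard_union_le _ _).trans ?_
  rw [card_sub, card_sub]
  change finrank F E + finrank F W ≤ _ at h1
  have q2 := two_le_q (F := F)
  generalize finrank F E = a at *
  generalize finrank F W = b at *
  generalize Nat.card F = q at *
  obtain ⟨a, rfl⟩ : ∃ k, a = k + 1 := ⟨a - 1, by omega⟩
  have q3 : q ≤ q ^ 2 := Nat.le_self_pow two_ne_zero q
  rcases b with _ | b
  · exact add_le_add (Nat.pow_le_pow_right (by omega) (by omega)) (by simpa using by omega)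
  have h4 : q ^ (a + b + 1) ≤ q ^ (finrank F V - 1) := Nat.pow_le_pow_right (by omega) (by omega)
  obtain ⟨x, hx⟩ := Nat.exists_eq_add_of_le (Nat.one_le_pow a q (by omega))
  obtain ⟨y, hy⟩ := Nat.exists_eq_add_of_le (Nat.one_le_pow b q (by omega))
  rw [pow_succ, pow_add, hx, hy] at h4
  rw [pow_succ q a, pow_succ q b, hx, hy]
  nlinarith [Nat.zero_le (x * y * q)]

omit [Finite F] [Finite V] in
theorem smul_eq_iff {G : Subgroup (V ≃ₗ[F] V)} (g : G) (p p' : ℙ F V) :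
    g • p = p' ↔ ∃ c : F, g.1 p.rep = c • p'.rep := by
  conv_lhs => rw [← p.mk_rep, ← p'.mk_rep, Subgroup.smul_def, Projectivization.smul_mk,
    Projectivization.mk_eq_mk_iff']
  exact exists_congr fun _ => eq_comm

theorem fix_le {G : Subgroup (V ≃ₗ[F] V)} (g : G) (hg : ¬ ∃ c : F, ∀ v, g.1 v = c • v) :
    (Nat.card F - 1) * Nat.card (fixedBy (ℙ F V) g) ≤
      Nat.card F ^ (finrank F V - 1) + Nat.card F ^ 2 := by
  refine le_trans ?_ (eig_card (g.1 : V →ₗ[F] V) hg)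
  rw [← Nat.card_units, ← Nat.card_prod, ← Nat.card_coe_set_eq]
  refine Nat.card_le_card_of_injective (fun z => ⟨z.1 • z.2.1.rep,
    (smul_ne_zero_iff_ne _).2 z.2.1.rep_nonzero, ?_⟩) ?_
  · obtain ⟨c, hc⟩ := (smul_eq_iff g _ _).1 z.2.2
    exact ⟨c, by rw [Units.smul_def, map_smul, smul_comm c]; exact congrArg _ hc⟩
  · rintro ⟨c, p⟩ ⟨c', p'⟩ e
    have e : c • p.1.rep = c' • p'.1.rep := congrArg Subtype.val e
    obtain rfl : p = p' := Subtype.ext <| by
      rw [← p.1.mk_rep, ← p'.1.mk_rep, Projectivization.mk_eq_mk_iff]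
      exact ⟨c⁻¹ * c', by rw [mul_smul, ← e, inv_smul_smul]⟩
    rw [Units.ext (smul_left_injective F p.1.rep_nonzero e)]
end

variable {F K : Type*} [Field F] [Field K] [Algebra F K] [Finite K] {d m : ℕ}
  {G : Subgroup (K ≃ₗ[F] K)}

omit [Finite K] in
theorem Mono.semi {g : K ≃ₗ[F] K} (h : Mono g) :
    ∃ σ : K ≃ₐ[F] K, ∀ t x, g (t * x) = σ t * g x :=
  h.imp fun σ e t x => by rw [e, e x, map_mul]; ring

theorem mono_of_conj (hp : (finrank F K).Prime) {g : K ≃ₗ[F] K} {a b : Kˣ}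
    (ha : (a : K) ∉ Set.range (algebraMap F K)) (h : g * ml F a * g⁻¹ = ml F b) : Mono g :=
  (semi_of_conj hp ha (t' := b) fun x => by
    simpa using LinearEquiv.congr_fun h (g x)).imp fun _ e => e.2

theorem Par.card_units (h : Par (Nat.card F) (finrank F K) d m) :
    Nat.card Kˣ = (Nat.card F - 1) * d * m := by
  haveI : Finite F := Finite.of_injective _ (algebraMap F K).injective
  rw [Nat.card_units, card_top (F := F), h.eq, Nat.add_sub_cancel]

theorem Par.card_ker (h : Par (Nat.card F) (finrank F K) d m) {e : ℕ}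
    (he : e ∣ (Nat.card F - 1) * d * m) : Nat.card (powMonoidHom e : Kˣ →* Kˣ).ker = e := by
  rw [IsCyclic.card_powMonoidHom_ker, h.card_units, Nat.gcd_eq_right he]

theorem Par.notMem (h : Par (Nat.card F) (finrank F K) d m) {t : Kˣ} (ht : t ^ m = 1) (h1 : t ≠ 1) :
    (t : K) ∉ Set.range (algebraMap F K) := fun c =>
  h1 (by rw [← pow_one t, ← h.c1, pow_gcd_eq_one]; exact ⟨ht, pow_of_mem_range c⟩)

theorem Par.frob_case (h : Par (Nat.card F) (finrank F K) d m)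
    (tr : ∀ x y : K, x ≠ 0 → y ≠ 0 → ∃ g ∈ G, ∃ c : F, g x = c • y)
    (hP : ∀ t : Kˣ, t ^ m = 1 → ml F t ∈ G) (hM : ∀ g ∈ G, Mono g → g ∈ (ml F).range)
    {g₀ : K ≃ₗ[F] K} (hg : g₀ ∈ G) (hm : ¬ Mono g₀) : False := by
  classical
  haveI : Finite F := Finite.of_injective _ (algebraMap F K).injective
  haveI := Fintype.ofFinite G
  have q2 := h.q2
  let C := (ml F).range.subgroupOf G
  let ι := (ml F).comp (Units.map (algebraMap F K : F →* K))
  let Z := ι.range.subgroupOf G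
  have hZ : ∀ g : G, (∃ c : F, ∀ v, g.1 v = c • v) → g ∈ Z := fun g ⟨c, hc⟩ =>
    ⟨Units.mk0 c fun e => by simpa [e] using hc 1,
      LinearEquiv.ext fun v => ((hc v).trans (Algebra.smul_def c v)).symm⟩
  have u1 : ∀ g ∉ Z, ∀ (k : G) (b : Kˣ), ml F b = (k⁻¹ * g * k).1 →
      (b : K) ∉ Set.range (algebraMap F K) := fun g n k b e ⟨c, hc⟩ => n <| hZ g ⟨c, fun v => by
    have := congrArg k.1 (LinearEquiv.congr_fun e (k.1⁻¹ v))
    rw [ml_apply, ← hc, ← Algebra.smul_def, map_smul] at this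
    simpa using this.symm⟩
  have u0 : ∀ g k : G, g • (k : G ⧸ C) = k → ∃ b, ml F b = (k⁻¹ * g * k).1 := fun g k e => by
    have : ((g * k)⁻¹ * k)⁻¹ ∈ C := inv_mem (QuotientGroup.eq.1 e)
    rw [mul_inv_rev, inv_inv, ← mul_assoc] at this
    exact this
  have u2 : ∀ g ∉ Z, ∀ x y : G ⧸ C, g • x = x → g • y = y → x = y := fun g n x y a b => by
    obtain ⟨x, rfl⟩ := QuotientGroup.mk_surjective x
    obtain ⟨y, rfl⟩ := QuotientGroup.mk_surjective y
    obtain ⟨s, hs⟩ := u0 g x a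
    obtain ⟨t, ht⟩ := u0 g y b
    refine QuotientGroup.eq.2 (hM _ (x⁻¹ * y).2 (mono_of_conj h.pr (u1 g n y t ht) (b := s) ?_))
    rw [hs, ht]; simp only [coe_mul, coe_inv, coe_subtype]; group
  haveI : IsPretransitive G (ℙ F K) := ⟨fun p p' => by
    obtain ⟨g, a, c⟩ := tr _ _ p.rep_nonzero p'.rep_nonzero
    exact ⟨⟨g, a⟩, (smul_eq_iff ..).2 c⟩⟩
  have cP : Nat.card (ℙ F K) = d * m := by
    have := Projectivization.card' F K
    rw [card_top (F := F), h.eq, Nat.add_right_cancel_iff, mul_assoc, mul_comm] at this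
    exact (Nat.eq_of_mul_eq_mul_right (by omega) this).symm
  set B := Nat.card F ^ (finrank F K - 1) + Nat.card F ^ 2
  have k1 : 1 ≤ C.index := Nat.pos_of_ne_zero C.index_ne_zero_of_finite
  have pt : ∀ g : G, (Nat.card F - 1) * Nat.card (fixedBy (ℙ F K) g) +
      B * Nat.card (fixedBy (G ⧸ C) g) ≤ B +
        if g ∈ Z then (Nat.card F - 1) * d * m + (C.index - 1) * B else 0 := fun g => by
    split_ifs with n
    · have a := Nat.mul_le_mul_left (Nat.card F - 1)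
        ((Finite.card_subtype_le (· ∈ fixedBy (ℙ F K) g)).trans cP.le)
      have b := Nat.mul_le_mul_left B (Finite.card_subtype_le (· ∈ fixedBy (G ⧸ C) g))
      obtain ⟨k, hk⟩ := Nat.exists_eq_add_of_le k1
      rw [← index_eq_card, hk] at b
      rw [hk, Nat.add_sub_cancel_left]
      nlinarith
    rcases isEmpty_or_nonempty (fixedBy (G ⧸ C) g) with e | ⟨⟨x, hx⟩⟩
    · simpa using fix_le g fun c => n (hZ g c)
    obtain ⟨x, rfl⟩ := QuotientGroup.mk_surjective x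
    obtain ⟨s, hs⟩ := u0 g x hx
    haveI : IsEmpty (fixedBy (ℙ F K) g) := ⟨fun p => by
      obtain ⟨c, hc⟩ := (smul_eq_iff g _ _).1 p.2
      refine u1 g n x s hs ⟨c, mul_right_cancel₀ (b := x.1⁻¹ p.1.rep) (by simpa using p.1.rep_nonzero) ?_⟩
      rw [← ml_apply (F := F) s, hs, ← Algebra.smul_def, ← map_smul, ← hc]; simp⟩
    have : Nat.card (fixedBy (G ⧸ C) g) ≤ 1 := Finite.card_le_one_iff_subsingleton.2
      ⟨fun a b => Subtype.ext (u2 g n _ _ a.2 b.2)⟩
    simpa using Nat.mul_le_mul_left B this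
  have s1 := Finset.sum_le_sum (s := Finset.univ) fun g _ => pt g
  rw [Finset.sum_add_distrib, Finset.sum_add_distrib, ← Finset.mul_sum, ← Finset.mul_sum,
    sum_card_fixedBy_of_trans, sum_card_fixedBy_of_trans, ← Finset.sum_filter, Finset.sum_const,
    Finset.sum_const, Finset.card_univ, ← Fintype.card_subtype, ← Nat.card_eq_fintype_card,
    ← Nat.card_eq_fintype_card, smul_eq_mul, smul_eq_mul] at s1
  let T := (powMonoidHom m : Kˣ →* Kˣ).ker
  have cT : Nat.card T = m := h.card_ker (Dvd.intro_left _ rfl)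
  let j : T →* G := ((ml F).comp T.subtype).codRestrict G fun t => hP t.1 t.2
  have d1 : m ∣ Nat.card C := cT ▸ card_dvd_of_injective (j.codRestrict C fun t => ⟨t, rfl⟩)
    fun a b e => Subtype.ext (ml_inj (congrArg (fun z => z.1.1) e))
  have d2 : Nat.card Z ∣ Nat.card C := card_dvd_of_le fun g ⟨c, hc⟩ => ⟨_, hc⟩
  have d3 : Nat.card Z ∣ Nat.card F - 1 := by
    rw [← Nat.card_units]
    exact (card_comap_dvd_of_injective _ _ G.subtype_injective).trans (card_range_dvd _)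
  have d4 := Nat.le_of_dvd Nat.card_pos ((h.c1.coprime_dvd_right d3).mul_dvd_of_dvd_of_dvd d1 d2)
  have g0 : (⟨g₀, hg⟩ : G) ∉ C := fun ⟨b, e⟩ => hm (by rw [show g₀ = _ from e.symm]; exact mono_ml b)
  have f1 : ∀ t : T, j t • ((1 : G) : G ⧸ C) = (1 : G) := fun t =>
    QuotientGroup.eq.2 (by have : j t ∈ C := ⟨t, rfl⟩; simpa using this)
  have f2 : (((⟨g₀, hg⟩ : G)) : G ⧸ C) ≠ (1 : G) := fun e => g0 (by simpa using QuotientGroup.eq.1 e)
  have k2 : m + 1 ≤ C.index := by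
    rw [← cT, ← Finite.card_option, index_eq_card]
    refine Nat.card_le_card_of_injective
      (fun o => o.elim ((1 : G) : G ⧸ C) fun t => j t • ((⟨g₀, hg⟩ : G) : G ⧸ C)) ?_
    rintro (_ | s) (_ | t) e
    · rfl
    · exact absurd (smul_left_cancel (j t) (e.symm.trans (f1 t).symm)) f2
    · exact absurd (smul_left_cancel (j s) (e.trans (f1 s).symm)) f2
    by_contra c
    refine f2 (u2 (j (t⁻¹ * s)) (fun ⟨a, ha⟩ => h.notMem (t⁻¹ * s).2 (fun z => c ?_)
      ⟨a, congrArg Units.val (ml_inj ha)⟩) _ _ ?_ (f1 _))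
    · rw [inv_mul_eq_one.1 (Subtype.ext z : t⁻¹ * s = 1)]
    · rw [map_mul, map_inv, mul_smul, inv_smul_eq_iff]; exact e
  refine h.frob k2 (Nat.le_of_mul_le_mul_left (c := Nat.card Z) ?_ Nat.card_pos)
  rw [← C.card_mul_index] at s1
  have := Nat.mul_le_mul_left ((Nat.card F - 1) * C.index) d4
  change _ ≤ _ + Nat.card Z * _ at s1
  change _ ≤ _ * (_ + _ * B)
  generalize (Nat.card F - 1) * d * m + (C.index - 1) * B = y at *
  linarith

/-- scalar multiples -/
def sc (e : ℕ) (G : Subgroup (K ≃ₗ[F] K)) : Subgroup (K ≃ₗ[F] K) where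
  carrier := {g | ∃ c : Fˣ, c ^ e = 1 ∧ ∃ k ∈ G, ∀ v, g v = (c : F) • k v}
  one_mem' := ⟨1, one_pow _, 1, one_mem _, by simp⟩
  mul_mem' := by
    rintro a b ⟨c, hc, k, hk, e⟩ ⟨c', hc', k', hk', e'⟩
    exact ⟨c * c', by rw [mul_pow, hc, hc', one_mul], k * k', mul_mem hk hk', fun v => by
      simp [e, e', mul_smul]⟩
  inv_mem' := by
    rintro a ⟨c, hc, k, hk, e⟩
    exact ⟨c⁻¹, by rw [inv_pow, hc, inv_one], k⁻¹, inv_mem hk, fun v =>
      a.injective (by rw [e (_ • _)]; simp [smul_smul])⟩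

omit [Finite K] in
theorem le_sc (e : ℕ) : G ≤ sc e G := fun g h => ⟨1, one_pow _, g, h, by simp⟩

theorem Par.trans_sc (h : Par (Nat.card F) (finrank F K) d m)
    (hP : ∀ t : Kˣ, t ^ m = 1 → ml F t ∈ G) {g₀ : K ≃ₗ[F] K} (hg : g₀ ∈ G) (hm : ¬ Mono g₀)
    {x y : K} (hx : x ≠ 0) (hy : y ≠ 0) : ∃ g ∈ sc d G, g x = y := by
  refine transA (by have := h.n13; omega) _ (fun a ha => ?_) (le_sc d hg) hm hx hy
  obtain ⟨a, rfl⟩ := Ne.isUnit ha
  set b := a ^ (Nat.card F - 1)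
  have h1 : b ^ ((d : ℤ) * m) = 1 := by
    rw [← Nat.cast_mul, zpow_natCast, ← pow_mul, ← mul_assoc, ← h.card_units, pow_card_eq_one']
  obtain ⟨u, v, e⟩ := Nat.isCoprime_iff_coprime.2 (h.c1.coprime_dvd_right h.dv)
  have h2 : (b ^ (u * m)) ^ d = 1 := by
    rw [← zpow_natCast, ← zpow_mul, show u * m * d = d * m * u by ring, zpow_mul, h1, one_zpow]
  have q1 : Nat.card F = Nat.card F - 1 + 1 := by have := h.q2; omega
  obtain ⟨c, hc⟩ : ((b ^ (u * m) : Kˣ) : K) ∈ Set.range (algebraMap F K) := mem_range_of_pow <| by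
    obtain ⟨k, hk⟩ := h.dv
    rw [← Units.val_pow_eq_pow_val, q1, pow_succ, hk, pow_mul, h2, one_pow, one_mul]
  refine ⟨ml F b, ⟨Units.mk0 c fun z => Units.ne_zero _ (by rw [← hc, z, map_zero]), Units.ext ?_, _,
    hP (b ^ (v * d)) ?_, fun w => ?_⟩, fun w => ?_⟩
  · refine (algebraMap F K).injective ?_
    rw [Units.val_pow_eq_pow_val, map_pow, Units.val_mk0, hc, ← Units.val_pow_eq_pow_val, h2]; simp
  · rw [← zpow_natCast, ← zpow_mul, show v * d * m = d * m * v by ring, zpow_mul, h1, one_zpow]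
  · rw [Units.val_mk0, Algebra.smul_def, hc, ml_apply, ml_apply, ← mul_assoc, ← Units.val_mul,
      ← zpow_add, e, zpow_one]
  · rw [ml_apply, q1, pow_succ, mul_div_cancel_right₀ _ ha]; simp [b]

omit [Finite K] in
theorem semi_pow {g : K ≃ₗ[F] K} {σ : K ≃ₐ[F] K} (hg : ∀ t x, g (t * x) = σ t * g x) (i : ℕ)
    (t x : K) : (g ^ i) (t * x) = (σ ^ i) t * (g ^ i) x := by
  induction i with
  | zero => rfl
  | succ i ih => rw [pow_succ', pow_succ', LinearEquiv.mul_apply, ih, hg]; rfl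

theorem gal_pow (σ : K ≃ₐ[F] K) : σ ^ finrank F K = 1 := by
  rw [← IsGalois.card_aut_eq_finrank, pow_card_eq_one']

omit [Finite K] in
theorem mem_ml {g : K ≃ₗ[F] K} (hg : ∀ t x, g (t * x) = t * g x) : g ∈ (ml F).range :=
  ⟨Units.mk0 (g 1) (by simp), LinearEquiv.ext fun x => by
    rw [← mul_one x, hg, mul_one, mul_comm]; rfl⟩

theorem exists_eig (hp : (finrank F K).Prime) {g : K ≃ₗ[F] K} {σ : K ≃ₐ[F] K}
    (hg : ∀ t x, g (t * x) = σ t * g x) (hσ : σ ≠ 1) (h1 : g ^ finrank F K = 1) {ζ : F}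
    (hζ : ζ ^ finrank F K = 1) : ∃ w ≠ 0, g w = ζ • w := by
  haveI := Fact.mk hp
  have z0 : ζ ≠ 0 := fun e => by simp [e, hp.ne_zero] at hζ
  have o := orderOf_eq_prime (gal_pow σ) hσ
  obtain ⟨v, hv⟩ : ∃ v, ∑ i ∈ Finset.range (finrank F K), ζ⁻¹ ^ i • (g ^ i) v ≠ 0 := by
    by_contra c
    push Not at c
    have := Fintype.linearIndependent_iff.1 ((linearIndependent_monoidHom K K).comp
      (fun i : Fin (finrank F K) => ((σ ^ i.1 : K ≃ₐ[F] K) : K →* K)) fun i j e => Fin.ext <|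
        pow_injOn_Iio_orderOf (x := σ) (i.2.trans_eq o.symm) (j.2.trans_eq o.symm)
          (AlgEquiv.ext fun x => DFunLike.congr_fun e x))
      (fun i => ζ⁻¹ ^ i.1 • (g ^ i.1) 1) (funext fun v => by
        rw [Finset.sum_apply, Pi.zero_apply, ← c v, Finset.sum_range]
        refine Finset.sum_congr rfl fun i _ => ?_
        rw [← mul_one v, semi_pow hg, mul_one, ← mul_smul_comm, mul_comm]; rfl) ⟨0, hp.pos⟩
    simp at this
  refine ⟨_, hv, ?_⟩
  have e := Finset.sum_range_succ' (fun i => ζ⁻¹ ^ i • (g ^ i) v) (finrank F K)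
  rw [Finset.sum_range_succ, h1, inv_pow, hζ, inv_one, pow_zero, pow_zero, add_left_inj] at e
  conv_rhs => rw [e]
  rw [map_sum, Finset.smul_sum]
  refine Finset.sum_congr rfl fun i _ => ?_
  rw [map_smul, smul_smul, pow_succ', pow_succ', mul_inv_cancel_left₀ z0]; rfl

theorem Par.trans_vec (h : Par (Nat.card F) (finrank F K) d m) (hS : G ≤ SLG F K)
    (hP : ∀ t : Kˣ, t ^ m = 1 → ml F t ∈ G) {g₀ : K ≃ₗ[F] K} (hg : g₀ ∈ G) (hm : ¬ Mono g₀)
    {g : K ≃ₗ[F] K} (h1 : g ∈ G) (h2 : Mono g) (h3 : g ∉ (ml F).range)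
    {x y : K} (hx : x ≠ 0) (hy : y ≠ 0) : ∃ g ∈ G, g x = y := by
  obtain ⟨_, ⟨c, hc, k, hk, e⟩, rfl⟩ := h.trans_sc hP hg hm hx hy
  rcases h.dn with rfl | rfl
  · exact ⟨k, hk, by rw [e, ← pow_one c, hc]; simp⟩
  have hc' : (c : F) ^ finrank F K = 1 := by rw [← Units.val_pow_eq_pow_val, hc, Units.val_one]
  obtain ⟨l, hl, w, w0, hw⟩ : ∃ l ∈ G, ∃ w ≠ 0, l w = (c : F) • w := by
    obtain ⟨σ, hσ⟩ := h2.semi
    by_cases a : g ^ finrank F K = 1
    · exact ⟨g, h1, exists_eig h.pr hσ (fun z => h3 (mem_ml (by simpa [z] using hσ))) a hc'⟩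
    obtain ⟨b, hb⟩ := mem_ml (g := g ^ finrank F K) (by simpa [gal_pow] using semi_pow hσ (finrank F K))
    obtain ⟨ν, hν⟩ : (b : K) ∈ Set.range (algebraMap F K) := by_contra fun z => h3 <| by
      obtain ⟨b', e⟩ := eq_ml_of_comm h.pr (g := g) z fun x => by
        rw [← ml_apply (F := F), ← ml_apply (F := F), hb, ← LinearEquiv.mul_apply, ← pow_succ',
          pow_succ]; rfl
      exact ⟨b', e.symm⟩
    have a1 : ((g ^ finrank F K : K ≃ₗ[F] K) : K →ₗ[F] K) = ν • LinearMap.id :=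
      LinearMap.ext fun x => by simp [← hb, ← hν, Algebra.smul_def]
    have a2 := mem_SLG.1 (hS (pow_mem h1 (finrank F K)))
    rw [a1, LinearMap.det_smul, LinearMap.det_id, mul_one] at a2
    haveI := Fact.mk h.pr
    haveI := NeZero.mk h.pr.ne_zero
    have a3 := IsPrimitiveRoot.orderOf ν
    rw [orderOf_eq_prime a2 fun z => a (by
      rw [← hb, show b = 1 from Units.ext (by simp [← hν, z]), map_one])] at a3
    obtain ⟨i, -, hi⟩ := a3.eq_pow_of_pow_eq_one hc'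
    refine ⟨_, pow_mem (pow_mem h1 (finrank F K)) i, 1, one_ne_zero, ?_⟩
    rw [← hb, ← map_pow, ml_apply, ← hi, Algebra.smul_def, map_pow, hν, Units.val_pow_eq_pow_val]
  obtain ⟨_, ⟨c', -, k', hk', e'⟩, rfl⟩ := h.trans_sc hP hg hm (x := k x) (by simpa using hx) w0
  refine ⟨k'⁻¹ * l * k' * k, mul_mem (mul_mem (mul_mem (inv_mem hk') hl) hk') hk, k'.injective ?_⟩
  rw [e', map_smul, smul_comm, smul_right_inj c'.ne_zero] at hw
  simp [e, hw]

end CF.Sing
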