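import Cfsg.Agent.Sing.C2
import Cfsg.Agent.Sing.B2

/-! Overgroups of the Singer cycle in prime dimension are 2-transitive on points. -/

set_option autoImplicit false
set_option linter.style.haveILetI false

namespace CF.Sing

open Module CF.Geom Subgroup MulAction CF.BG CF.Char CF.Char.Sg Cfsg

variable {F K : Type*} [Field F] [Field K] [Algebra F K] [Finite K] {d m : ℕ}
  {G : Subgroup (K ≃ₗ[F] K)}

/-- the cyclic TI subgroup -/
def PP (m : ℕ) (G : Subgroup (K ≃ₗ[F] K)) : Subgroup G :=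
  ((powMonoidHom m : Kˣ →* Kˣ).ker.map (ml F)).subgroupOf G

omit [Finite K] in
theorem mem_PP {g : G} : g ∈ PP m G ↔ ∃ t : Kˣ, t ^ m = 1 ∧ ml F t = g.1 := Iff.rfl

/-- nonzero vectors -/
def NZ (G : Subgroup (K ≃ₗ[F] K)) : SubMulAction G K where
  carrier := {x | x ≠ 0}
  smul_mem' g _ hx := (smul_ne_zero_iff_ne g).2 hx

theorem mem_N_of_mono {g : G} (hg : Mono g.1) : g ∈ 𝐍 (PP m G) := by
  obtain ⟨σ, hσ⟩ := hg.semi
  refine mem_normalizer_fintype ?_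
  rintro x ⟨t, ht, e⟩
  refine ⟨Units.map (σ : K →* K) t, by
    rw [SetLike.mem_coe, MonoidHom.mem_ker, powMonoidHom_apply, ← map_pow, show t ^ m = 1 from ht,
      map_one], LinearEquiv.ext fun v => ?_⟩
  change _ = g.1 (x.1 (g.1⁻¹ v))
  rw [show x.1 = _ from e.symm, ml_apply, ml_apply, hσ]; simp

omit [Finite K] in
theorem mem_C_of_ml {g : G} (hg : g.1 ∈ (ml F).range) : g ∈ 𝐂 (PP m G) := by
  obtain ⟨b, hb⟩ := hg
  refine mem_cent.2 ?_
  rintro x ⟨t, -, e⟩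
  refine Subtype.ext ?_
  rw [coe_mul, coe_mul, ← hb, show x.1 = _ from e.symm, ← map_mul, ← map_mul, mul_comm]

theorem sub_le (ht : ∀ x y : K, x ≠ 0 → y ≠ 0 → ∃ g ∈ G, g x = y) {x y u w : K} (hx : x ≠ 0)
    (hu : u ≠ 0) (h1 : u ∈ (F ∙ x) ⊔ F ∙ y) (h2 : w ∈ (F ∙ x) ⊔ F ∙ y) :
    (Sub G u w).ncard ≤ (Sub G x y).ncard := by
  haveI : Finite F := Finite.of_injective _ (algebraMap F K).injective
  have key : ∀ x y : K, x ≠ 0 → Nat.card (fixSub G ⊥) = Nat.card {v : K | v ≠ 0} *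
      ((Sub G x y).ncard * Nat.card (fixSub G (⊥ ⊔ (F ∙ x) ⊔ F ∙ y))) := fun x y hx => by
    rw [card_fixSub_eq_mul G ⊥ x {v | v ≠ 0} (fun g _ => by simpa using hx)
      (fun v hv => by simpa only [fixSub_bot] using ht x v hx hv),
      card_fixSub_eq_mul G _ y (Sub G x y) (fun g a => ⟨g, a.1, (mem_fixSub_sup_singleton.1 a).2, rfl⟩)
      fun v ⟨g, a, b, c⟩ => ⟨g, mem_fixSub_sup_singleton.2 ⟨by rwa [fixSub_bot], b⟩, c⟩]; rfl
  have a := (key x y hx).symm.trans (key u w hu)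
  haveI : Nonempty {v : K | v ≠ 0} := ⟨⟨x, hx⟩⟩
  replace a := Nat.eq_of_mul_eq_mul_left Nat.card_pos a
  have b : fixSub G (⊥ ⊔ (F ∙ x) ⊔ F ∙ y) ≤ fixSub G (⊥ ⊔ (F ∙ u) ⊔ F ∙ w) := fun g c => by
    rw [bot_sup_eq] at c
    exact mem_fixSub_sup_singleton.2 ⟨mem_fixSub_sup_singleton.2 ⟨by rw [fixSub_bot]; exact c.1,
      c.2 u h1⟩, c.2 w h2⟩
  refine Nat.le_of_mul_le_mul_right (c := Nat.card (fixSub G (⊥ ⊔ (F ∙ x) ⊔ F ∙ y))) ?_ Nat.card_pos
  rw [a]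
  exact Nat.mul_le_mul_left _ (card_le_of_le b)

namespace Par
variable (h : Par (Nat.card F) (finrank F K) d m)
include h

theorem exists_t : ∃ t : Kˣ, t ^ m = 1 ∧ t ≠ 1 := by
  have := (Finite.one_lt_card_iff_nontrivial.1
    (h.two_le_m.trans_eq (h.card_ker (Dvd.intro_left _ rfl)).symm))
  obtain ⟨t, ht⟩ := exists_ne (1 : (powMonoidHom m : Kˣ →* Kˣ).ker)
  exact ⟨t, t.2, fun e => ht (Subtype.ext e)⟩

theorem cent1 {x g : G} (hx : x ∈ PP m G) (h1 : x ≠ 1) (c : g * x = x * g) :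
    g.1 ∈ (ml F).range := by
  obtain ⟨t, ht, e⟩ := mem_PP.1 hx
  obtain ⟨b, hb⟩ := eq_ml_of_comm h.pr (g := g.1) (h.notMem ht fun z => h1 (Subtype.ext (by
    rw [← e, z, map_one]; rfl))) fun v => by
      have := LinearEquiv.congr_fun (congrArg Subtype.val c) v
      rw [coe_mul, coe_mul, ← e] at this
      exact this
  exact ⟨b, hb.symm⟩

theorem mono {x g : G} (hx : x ∈ PP m G) (h1 : x ≠ 1) (c : g * x * g⁻¹ ∈ PP m G) : Mono g.1 := by
  obtain ⟨t, ht, e⟩ := mem_PP.1 hx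
  obtain ⟨s, -, e'⟩ := mem_PP.1 c
  exact mono_of_conj h.pr (h.notMem ht fun z => h1 (Subtype.ext (by rw [← e, z, map_one]; rfl)))
    (b := s) (by rw [e, e']; rfl)

variable (hP : ∀ t : Kˣ, t ^ m = 1 → ml F t ∈ G)
include hP

theorem card_PP : ♯(PP m G) = m := by
  rw [PP, Nat.card_congr (subgroupOfEquivOfLe (by rintro _ ⟨t, ht, rfl⟩; exact hP t ht)).toEquiv,
    card_map_of_injective ml_inj, h.card_ker (Dvd.intro_left _ rfl)]

theorem exists_x : ∃ x ∈ PP m G, x ≠ 1 := by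
  obtain ⟨t, ht, e⟩ := h.exists_t
  exact ⟨⟨_, hP t ht⟩, ⟨t, ht, rfl⟩, fun z => e (ml_inj ((congrArg Subtype.val z).trans
    (map_one _).symm))⟩

theorem mem_C {g : G} : g ∈ 𝐂 (PP m G) ↔ g.1 ∈ (ml F).range := by
  obtain ⟨x, hx, e⟩ := h.exists_x hP
  exact ⟨fun c => h.cent1 hx e (mem_cent.1 c x hx).symm, mem_C_of_ml⟩

theorem mem_N {g : G} : g ∈ 𝐍 (PP m G) ↔ Mono g.1 := by
  obtain ⟨x, hx, e⟩ := h.exists_x hP
  exact ⟨fun c => h.mono hx e ((mem_norm.1 c x).1 hx), mem_N_of_mono⟩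

theorem ht (hS : G ≤ SLG F K) : HT (PP m G) := by
  have ab : Abel (PP m G) := fun x ⟨t, _, e⟩ => mem_C_of_ml ⟨t, e⟩
  refine ⟨ab, fun x hx e => le_antisymm (fun g c => mem_C_of_ml (h.cent1 hx e (mem_cent1.1 c)))
    fun g c => mem_cent1.2 (mem_cent.1 c x hx).symm, fun hx e c => mem_N_of_mono (h.mono hx e c), ?_⟩
  have a : (𝐂 (PP m G)).map G.subtype ≤ (powMonoidHom (d * m) : Kˣ →* Kˣ).ker.map (ml F) := by
    rintro _ ⟨g, hg, rfl⟩
    obtain ⟨b, hb⟩ := (h.mem_C hP).1 hg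
    refine ⟨b, Units.ext ?_, hb⟩
    have := det_ml (F := F) b
    rw [hb, mem_SLG.1 (hS g.2), map_one, ← Nat.card_units, h.card_units, mul_assoc,
      Nat.mul_div_cancel_left _ (by have := h.q2; omega)] at this
    simpa using this.symm
  have b := card_dvd_of_le a
  rw [card_map_of_injective ml_inj, card_map_of_injective G.subtype_injective,
    h.card_ker (by rw [mul_assoc]; exact Dvd.intro_left _ rfl), ← card_mul_index ((PP m G).subgroupOf _),
    Nat.card_congr (subgroupOfEquivOfLe ab).toEquiv, h.card_PP hP, mul_comm d] at b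
  rw [h.card_PP hP]
  exact (h.c1.coprime_dvd_right h.dv).coprime_dvd_right
    (Nat.dvd_of_mul_dvd_mul_left (by have := h.two_le_m; omega) b)

theorem relIndex_le : (𝐂 (PP m G)).relIndex (𝐍 (PP m G)) ≤ finrank F K := by
  choose σ hσ using fun g : 𝐍 (PP m G) => ((h.mem_N hP).1 g.2).semi
  rw [← IsGalois.card_aut_eq_finrank, relIndex, index_eq_card]
  refine Nat.card_le_card_of_injective (fun q => σ q.out) fun a b e => ?_
  rw [← a.out_eq', ← b.out_eq']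
  refine QuotientGroup.eq.2 (mem_C_of_ml (mem_ml fun t x => a.out.1.1.injective ?_))
  change a.out.1.1 (a.out.1.1⁻¹ (b.out.1.1 _)) = a.out.1.1 (t * a.out.1.1⁻¹ (b.out.1.1 _))
  rw [hσ a.out, show σ a.out = σ b.out from e]; simp [hσ]

theorem sub_ge (hS : G ≤ SLG F K) (min : ∀ L : Subgroup G, L.Normal → PP m G ≤ L → L = ⊤)
    {g₀ : K ≃ₗ[F] K} (hg : g₀ ∈ G) (hm : ¬ Mono g₀) {t : Kˣ} (ht : t ^ m = 1) (t1 : t ≠ 1) {u : K}
    (hu : u ≠ 0) :
    Nat.card F ^ (finrank F K - 1) ≤ (Sub (sc (Nat.card F - 1) G) u (t * u)).ncard := by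
  classical
  haveI : Finite F := Finite.of_injective _ (algebraMap F K).injective
  haveI := Fintype.ofFinite G
  haveI := Fintype.ofFinite (PP m G)
  haveI := Fintype.ofFinite (NZ G)
  obtain ⟨g, h1, h2, h3⟩ : ∃ g ∈ G, Mono g ∧ g ∉ (ml F).range := by
    by_contra c
    push Not at c
    refine h.frob_case (fun x y a b => ?_) hP c hg hm
    obtain ⟨_, ⟨c, -, k, hk, e⟩, rfl⟩ := h.trans_sc hP hg hm a b
    exact ⟨k, hk, (c⁻¹ : Fˣ), by simp [e]⟩
  haveI : IsPretransitive G (NZ G) := ⟨fun x y => by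
    obtain ⟨k, hk, e⟩ := h.trans_vec hS hP hg hm h1 h2 h3 x.2 y.2
    exact ⟨⟨k, hk⟩, Subtype.ext e⟩⟩
  haveI : Nonempty (NZ G) := ⟨⟨u, hu⟩⟩
  have cΩ : Nat.card (NZ G) = (Nat.card F - 1) * d * m := by
    rw [← h.card_units]; exact Nat.card_congr (unitsEquivNeZero (G₀ := K)).symm
  have fr : ∀ c : G, c.1 ∈ (ml F).range → c ≠ 1 → ∀ x : NZ G, c • x ≠ x := fun c ⟨b, hb⟩ n x e => by
    have : ml F b x.1 = 1 * x.1 := by rw [hb, one_mul]; exact congrArg Subtype.val e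
    exact n (Subtype.ext (by
      rw [← hb, show b = 1 from Units.ext (mul_right_cancel₀ x.2 this), map_one]; rfl))
  set H := sc (Nat.card F - 1) G
  let τ : G := ⟨_, hP t ht⟩
  have τ1 : τ ≠ 1 := fun z => t1 (ml_inj ((congrArg Subtype.val z).trans (map_one _).symm))
  by_contra lt
  have lt := not_le.1 lt
  refine h.orb lt (trace_bound (t := τ) h.two_le_m cΩ (fr τ ⟨t, rfl⟩ τ1) (fun χ hχ n i => ?_)
    (fun a b => ∃ g ∈ H, g u = a.1 ∧ g (t * u) = b.1) ?_ (fun x => ?_) ?_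
    (lt.le.trans (le_trans (Nat.le_add_right _ _) h.M_ge)))
  · obtain ⟨a, c, c0, e1, e2⟩ := exists_uc (h.ht hP hS).abel (irr_isCharacter hχ) (fun k =>
      n (irr_eq_one_of_charKer_eq_top hχ (min _ (charKer_normal (irr_isClassFunction hχ)) k)))
      fun μ ν hμ hν => (h.ht hP hS).const min
        (fun z => h3 ((h.mem_C hP).1 (z (mem_N_of_mono (g := ⟨g, h1⟩) h2)))) (char_fixedBy (NZ G))
        (fun c hc k _ z => by
          rw [show fixedBy (NZ G) c = ∅ from Set.eq_empty_of_forall_notMem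
            (fr c ((h.mem_C hP).1 hc) fun w => z (by rw [w, one_pow]))]; simp)
        (by rw [fixedBy_one_eq_univ, Nat.card_univ, cΩ])
        (fun f hf => by rw [h.card_PP hP] at hf ⊢; exact h.big (h.relIndex_le hP) hf) hχ n i hμ hν
    exact ⟨a, c, c0, by rw [e1, h.card_PP hP], e2 τ ⟨t, ht, rfl⟩ τ1⟩
  · rintro k x y ⟨l, hl, a, b⟩
    exact ⟨k.1 * l, mul_mem (le_sc _ k.2) hl, congrArg k.1 a, congrArg k.1 b⟩
  · rcases Set.eq_empty_or_nonempty {y : NZ G | ∃ g ∈ H, g u = x.1 ∧ g (t * u) = y.1} with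
      e | ⟨_, l, hl, a, -⟩
    · simp [e]
    refine Set.ncard_le_ncard_of_injOn (fun y => l⁻¹ y.1) ?_
      fun y _ z _ e => Subtype.ext ((l⁻¹).injective e)
    rintro y ⟨k, hk, b, c⟩
    exact ⟨l⁻¹ * k, mul_mem (inv_mem hl) hk, by simp [b, ← a], by simp [c]⟩
  · rw [← h.card_ker (e := m) (Dvd.intro_left _ rfl), ← Nat.card_units, ← Nat.card_prod,
      ← Nat.card_coe_set_eq]
    refine Nat.card_le_card_of_injective (fun z => ⟨⟨(z.1 : F) • (z.2.1 * u),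
      smul_ne_zero z.1.ne_zero (mul_ne_zero z.2.1.ne_zero hu)⟩, ml F (Units.map (algebraMap F K : F →* K) z.1 * z.2),
      ⟨z.1, by rw [← Nat.card_units, pow_card_eq_one'], _, hP _ z.2.2, fun v => by
        simp [Algebra.smul_def, mul_assoc]⟩, by simp [Algebra.smul_def, mul_assoc], ?_⟩) ?_
    · change _ = (t : K) * (_ • _)
      simp [Algebra.smul_def]; ring
    rintro ⟨c, s⟩ ⟨c', s'⟩ e
    have e : (c : F) • ((s.1 : K) * u) = (c' : F) • (s'.1 * u) := congrArg (fun z => z.1.1) e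
    obtain rfl : s = s' := by_contra fun n => h.notMem (s / s').2
      (fun z => n (div_eq_one.1 (Subtype.ext z))) ⟨c' / c, by
        rw [Algebra.smul_def, Algebra.smul_def, ← mul_assoc, ← mul_assoc, mul_left_inj' hu] at e
        simp only [map_div₀, coe_div, Units.val_div_eq_div_val]
        rw [div_eq_div_iff (by simp) (by simp), ← e, mul_comm]⟩
    rw [Units.ext (smul_left_injective F (mul_ne_zero s.1.ne_zero hu) e)]

omit hP in
theorem exists_pair {x y : K} (hxy : I2 F x y) : ∃ (t : Kˣ) (u : K), t ^ m = 1 ∧ t ≠ 1 ∧ u ≠ 0 ∧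
    u ∈ (F ∙ x) ⊔ F ∙ y ∧ t * u ∈ (F ∙ x) ⊔ F ∙ y := by
  classical
  haveI : Finite F := Finite.of_injective _ (algebraMap F K).injective
  haveI := Fintype.ofFinite F
  have q2 := h.q2
  have m0 : m ≠ 0 := by have := h.two_le_m; omega
  have D0 : 0 < (Nat.card F - 1) * d := Nat.mul_pos (by omega) h.d_pos
  obtain ⟨a, -, b, -, n, e⟩ := Finset.exists_ne_map_eq_of_card_lt_of_maps_to
    (s := (Finset.univ : Finset (F × F)))
    (t := insert 0 (Polynomial.nthRoots ((Nat.card F - 1) * d) (1 : K)).toFinset)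
    (f := fun z => (z.1 • y + z.2 • x) ^ m) (by
      refine lt_of_le_of_lt ((Finset.card_insert_le _ _).trans (Nat.succ_le_succ
        ((Multiset.toFinset_card_le _).trans (Polynomial.card_nthRoots _ _)))) ?_
      rw [Finset.card_univ, Fintype.card_prod, ← Nat.card_eq_fintype_card]
      have := h.d_lt
      obtain ⟨r, hr⟩ : ∃ r, Nat.card F = r + 1 := ⟨Nat.card F - 1, by omega⟩
      rw [hr] at this q2 ⊢
      rw [Nat.add_sub_cancel]
      nlinarith) fun z _ => by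
      by_cases c : z.1 • y + z.2 • x = 0
      · simp [c, m0]
      obtain ⟨v, hv⟩ := Ne.isUnit c
      rw [Finset.coe_insert, Set.mem_insert_iff, Finset.mem_coe, Multiset.mem_toFinset,
        Polynomial.mem_nthRoots D0, ← pow_mul, mul_comm, ← h.card_units]
      exact Or.inr (by rw [← hv, ← Units.val_pow_eq_pow_val, pow_card_eq_one']; rfl)
  have n' : a.1 • y + a.2 • x ≠ b.1 • y + b.2 • x := fun c => n (Prod.ext (hxy.coef c).1 (hxy.coef c).2)
  have a0 : a.1 • y + a.2 • x ≠ 0 := fun c => n' (by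
    rw [c, zero_pow m0] at e; rw [c, pow_eq_zero_iff m0 |>.1 e.symm])
  have b0 : b.1 • y + b.2 • x ≠ 0 := fun c => n' (by
    rw [c, zero_pow m0] at e; rw [c, pow_eq_zero_iff m0 |>.1 e])
  refine ⟨Units.mk0 _ (div_ne_zero b0 a0), _, Units.ext ?_, fun c => n' ?_, a0,
    mem_span2.2 ⟨_, _, add_comm _ _⟩, mem_span2.2 ⟨b.2, b.1, ?_⟩⟩
  · rw [Units.val_pow_eq_pow_val, Units.val_mk0, div_pow, ← e, div_self (pow_ne_zero _ a0)]; rfl
  · exact ((div_eq_one_iff_eq a0).1 (congrArg Units.val c)).symm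
  · rw [Units.val_mk0, div_mul_cancel₀ _ a0, add_comm]

theorem tr2 (hS : G ≤ SLG F K) {g₀ : K ≃ₗ[F] K} (hg : g₀ ∈ G) (hm : ¬ Mono g₀) : Tr2 G := by
  haveI : Finite F := Finite.of_injective _ (algebraMap F K).injective
  obtain ⟨X, hle, ⟨hP, g, hg, hm⟩, hmin⟩ := exists_minimal_le_of_wellFoundedLT
    (fun X : Subgroup (K ≃ₗ[F] K) => (∀ t : Kˣ, t ^ m = 1 → ml F t ∈ X) ∧ ∃ g ∈ X, ¬ Mono g) G
    ⟨hP, g₀, hg, hm⟩
  have min : ∀ L : Subgroup X, L.Normal → PP m X ≤ L → L = ⊤ := fun L hL l => by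
    by_cases c : ∀ k ∈ L, Mono k.1
    · refine absurd ((h.mem_N hP (g := ⟨g, hg⟩)).1 (mem_normalizer_fintype fun x hx => ?_)) hm
      obtain ⟨σ, hσ⟩ := (c _ (hL.conj_mem x (l hx) ⟨g, hg⟩)).semi
      have a : (⟨g, hg⟩ * x * ⟨g, hg⟩⁻¹ : X).1 ^ m = 1 := by
        obtain ⟨t, ht, e⟩ := mem_PP.1 hx
        rw [coe_mul, coe_mul, coe_inv, conj_pow, ← e, ← map_pow, ht, map_one]; simp
      have b : σ = 1 := by
        rw [← pow_one σ, ← h.c2, pow_gcd_eq_one]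
        exact ⟨AlgEquiv.ext fun t => by
          have := (semi_pow hσ m t 1).symm; rw [a] at this; simpa using this, gal_pow σ⟩
      obtain ⟨s, hs⟩ := mem_ml (by simpa only [b, AlgEquiv.one_apply] using hσ)
      exact ⟨s, ml_inj ((map_pow _ s m).trans (by rw [hs, a, map_one])), hs⟩
    push Not at c
    obtain ⟨k, hk, n⟩ := c
    refine eq_top_iff.2 fun x _ => ?_
    obtain ⟨y, hy, e⟩ := hmin (y := L.map X.subtype) ⟨fun t ht => ⟨⟨_, hP t ht⟩, l ⟨t, ht, rfl⟩, rfl⟩,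
      k, ⟨k, hk, rfl⟩, n⟩ (map_subtype_le _) x.2
    exact Subtype.ext e ▸ hy
  have tr : ∀ x y : K, x ≠ 0 → y ≠ 0 → ∃ g ∈ sc (Nat.card F - 1) X, g x = y := fun x y a b => by
    obtain ⟨l, ⟨c, -, e⟩, z⟩ := h.trans_sc hP hg hm a b
    exact ⟨l, ⟨c, by rw [← Nat.card_units, pow_card_eq_one'], e⟩, z⟩
  have := tr2_of_big (H := sc (Nat.card F - 1) X) (fun c c0 => ⟨LinearEquiv.smulOfNeZero F K c c0,
    ⟨Units.mk0 c c0, by rw [← Nat.card_units, pow_card_eq_one'], 1, one_mem _, fun _ => rfl⟩,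
    fun _ => rfl⟩) (by have := h.n13; omega) tr fun x y a => by
      obtain ⟨t, u, t1, t2, u0, u1, u2⟩ := h.exists_pair a
      exact (h.sub_ge hP (hle.trans hS) min hg hm t1 t2 u0).trans (sub_le tr a.1 u0 u1 u2)
  intro x y x' y' a b
  obtain ⟨_, ⟨c, -, k, hk, e⟩, ⟨r, hr⟩, s, hs⟩ := this x y x' y' a b
  exact ⟨k, hle hk, ⟨(c : F)⁻¹ * r, by rw [mul_smul, ← hr, e, inv_smul_smul₀ c.ne_zero]⟩,
    (c : F)⁻¹ * s, by rw [mul_smul, ← hs, e, inv_smul_smul₀ c.ne_zero]⟩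

end Par

end CF.Sing
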