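import Cfsg.Agent.Geom.TvGen
import Cfsg.Agent.Geom.Stab

/-! Linear groups 2-transitive on points: definitions and invariant flags of Sylow subgroups. -/

set_option autoImplicit false
set_option linter.style.haveILetI false

namespace CF.Sing

open Module CF.Geom

variable {F V : Type*} [Field F] [AddCommGroup V] [Module F V]

/-- independent pair -/
def I2 (F : Type*) [Field F] [Module F V] (x y : V) : Prop := x ≠ 0 ∧ y ∉ F ∙ x

/-- independent triple -/
def I3 (F : Type*) [Field F] [Module F V] (x y z : V) : Prop := I2 F x y ∧ z ∉ (F ∙ x) ⊔ (F ∙ y)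

/-- 2-transitivity on points -/
def Tr2 (G : Subgroup (V ≃ₗ[F] V)) : Prop :=
  ∀ x y x' y' : V, I2 F x y → I2 F x' y' →
    ∃ g ∈ G, (∃ a : F, g x = a • x') ∧ ∃ b : F, g y = b • y'

/-- contains the scalars -/
def HasZ (G : Subgroup (V ≃ₗ[F] V)) : Prop := ∀ c : F, c ≠ 0 → ∃ g ∈ G, ∀ v, g v = c • v

/-- contragredient -/
def dl : (V ≃ₗ[F] V) →* (Dual F V ≃ₗ[F] Dual F V) where
  toFun g := g.symm.dualMap
  map_one' := by ext; rfl
  map_mul' _ _ := by ext; rfl

@[simp] theorem dl_apply (g : V ≃ₗ[F] V) (f : Dual F V) (v : V) : dl g f v = f (g.symm v) := rfl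

def stabQuot (G : Subgroup (V ≃ₗ[F] V)) (U : Submodule F V) :
    stabSet G U →* ((V ⧸ U) ≃ₗ[F] (V ⧸ U)) where
  toFun g := Submodule.Quotient.equiv U U g.1.1 (mem_stabSet_iff_map_eq.1 g.2)
  map_one' := by ext x; induction x using Submodule.Quotient.induction_on; rfl
  map_mul' _ _ := by ext x; induction x using Submodule.Quotient.induction_on; rfl

@[simp] theorem stabQuot_apply (G : Subgroup (V ≃ₗ[F] V)) (U : Submodule F V) (g : stabSet G U)
    (v : V) : stabQuot G U g (Submodule.Quotient.mk v) = Submodule.Quotient.mk (g.1.1 v) := rfl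

theorem mem_sup1 {U : Submodule F V} {x y : V} : y ∈ U ⊔ F ∙ x ↔ ∃ c : F, y - c • x ∈ U := by
  rw [Submodule.mem_sup]
  constructor
  · rintro ⟨u, hu, w, hw, rfl⟩
    obtain ⟨c, rfl⟩ := Submodule.mem_span_singleton.1 hw
    exact ⟨c, by simpa using hu⟩
  · rintro ⟨c, h⟩
    exact ⟨_, h, c • x, Submodule.smul_mem _ _ (Submodule.mem_span_singleton_self x), by simp⟩

theorem mem_span2 {x y z : V} : z ∈ (F ∙ x) ⊔ (F ∙ y) ↔ ∃ a b : F, z = a • x + b • y := by
  rw [Submodule.mem_sup]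
  constructor
  · rintro ⟨u, hu, w, hw, rfl⟩
    obtain ⟨a, rfl⟩ := Submodule.mem_span_singleton.1 hu
    obtain ⟨b, rfl⟩ := Submodule.mem_span_singleton.1 hw
    exact ⟨a, b, rfl⟩
  · rintro ⟨a, b, rfl⟩
    exact ⟨_, Submodule.smul_mem _ _ (Submodule.mem_span_singleton_self x), _,
      Submodule.smul_mem _ _ (Submodule.mem_span_singleton_self y), rfl⟩

/-- An invariant flag whose layers are orbits (up to scalars). -/
structure Flag (S : Subgroup (V ≃ₗ[F] V)) where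
  v : ℕ → V
  U : ℕ → Submodule F V
  U0 : U 0 = ⊥
  succ : ∀ k, U (k + 1) = U k ⊔ F ∙ v k
  nm' : ∀ k, U k ≠ ⊤ → v k ∉ U k
  inv : ∀ k, ∀ s ∈ S, ∀ u ∈ U k, s u ∈ U k
  mov : ∀ k, ∀ s ∈ S, s (v k) - v k ∈ U k
  lay : ∀ k, U k ≠ ⊤ → ∀ u ∈ U k, ∃ s ∈ S, s (v k) = v k + u

variable [Finite F] [Finite V]

instance finiteGL : Finite (V ≃ₗ[F] V) :=
  Finite.of_injective (fun g : V ≃ₗ[F] V => (g : V → V)) DFunLike.coe_injective

instance finiteDual : Finite (Dual F V) :=
  Finite.of_injective (fun g : Dual F V => (g : V → F)) DFunLike.coe_injective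

instance finiteQuot (U : Submodule F V) : Finite (V ⧸ U) :=
  Finite.of_surjective _ (Submodule.mkQ_surjective U)

omit [Finite V] in
theorem two_le_q : 2 ≤ Nat.card F := Finite.one_lt_card

theorem card_sub (U : Submodule F V) : (U : Set V).ncard = Nat.card F ^ finrank F U := by
  rw [← Nat.card_coe_set_eq]; exact Module.natCard_eq_pow_finrank (K := F) (V := U)

theorem card_top : Nat.card V = Nat.card F ^ finrank F V := Module.natCard_eq_pow_finrank

omit [Finite F] in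
theorem exists_notMem {U : Submodule F V} (h : finrank F U < finrank F V) : ∃ y, y ∉ U := by
  by_contra hc
  push Not at hc
  rw [Submodule.eq_top_iff'.2 hc, finrank_top] at h
  omega

omit [Finite F] in
theorem exists_mem_notMem {L K : Submodule F V} (h : finrank F K < finrank F L) :
    ∃ p ∈ L, p ∉ K := by
  by_contra hc
  push Not at hc
  have := Submodule.finrank_mono (show L ≤ K from hc)
  omega

theorem ncard_diff_sub {L K : Submodule F V} (h : K ≤ L) :
    ((L : Set V) \ K).ncard + Nat.card F ^ finrank F K = Nat.card F ^ finrank F L := by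
  rw [← card_sub, ← card_sub]
  exact Set.ncard_diff_add_ncard_of_subset (SetLike.coe_subset_coe.2 h)

namespace Flag
variable {S : Subgroup (V ≃ₗ[F] V)} (Φ : Flag S)

omit [Finite F] in
theorem finrank_U {k : ℕ} (hk : k ≤ finrank F V) : finrank F (Φ.U k) = k := by
  induction k with
  | zero => rw [Φ.U0, finrank_bot]
  | succ k ih =>
    have h := ih (by omega)
    rw [Φ.succ, Submodule.finrank_sup_span_singleton, h]
    exact Φ.nm' k fun e => by rw [e, finrank_top] at h; omega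

omit [Finite F] in
theorem ne_top {k : ℕ} (hk : k < finrank F V) : Φ.U k ≠ ⊤ := fun e => by
  have := Φ.finrank_U hk.le; rw [e, finrank_top] at this; omega

omit [Finite F] in
theorem nm {k : ℕ} (hk : k < finrank F V) : Φ.v k ∉ Φ.U k := Φ.nm' k (Φ.ne_top hk)

omit [Finite F] [Finite V] in
theorem mono : Monotone Φ.U := monotone_nat_of_le_succ fun k => by rw [Φ.succ]; exact le_sup_left

omit [Finite F] [Finite V] in
theorem v_mem {k l : ℕ} (h : k < l) : Φ.v k ∈ Φ.U l :=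
  Φ.mono h (by rw [Φ.succ]; exact mem_sup1.2 ⟨1, by simp⟩)

omit [Finite F] in
theorem v_mem_iff {k l : ℕ} (hk : k < finrank F V) : Φ.v k ∈ Φ.U l ↔ k < l :=
  ⟨fun h => by by_contra hc; exact Φ.nm hk (Φ.mono (by omega) h), Φ.v_mem⟩

omit [Finite F] in
theorem U_top : Φ.U (finrank F V) = ⊤ := Submodule.eq_top_of_finrank_eq (Φ.finrank_U le_rfl)

omit [Finite F] [Finite V] in
theorem U1 : Φ.U 1 = F ∙ Φ.v 0 := by rw [Φ.succ, Φ.U0, bot_sup_eq]

omit [Finite F] [Finite V] in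
theorem U2 : Φ.U 2 = (F ∙ Φ.v 0) ⊔ F ∙ Φ.v 1 := by rw [Φ.succ, Φ.U1]

omit [Finite F] [Finite V] in
theorem s0 {s : V ≃ₗ[F] V} (hs : s ∈ S) : s (Φ.v 0) = Φ.v 0 := by
  have := Φ.mov 0 s hs
  rwa [Φ.U0, Submodule.mem_bot, sub_eq_zero] at this

omit [Finite F] [Finite V] in
/-- `S` is unipotent on the flag -/
theorem mov' {k : ℕ} {s : V ≃ₗ[F] V} (hs : s ∈ S) {u : V} (hu : u ∈ Φ.U (k + 1)) :
    s u - u ∈ Φ.U k := by
  rw [Φ.succ, mem_sup1] at hu
  obtain ⟨c, h⟩ := hu
  have := (Φ.U k).add_mem ((Φ.U k).sub_mem (Φ.inv k s hs _ h) h)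
    ((Φ.U k).smul_mem c (Φ.mov k s hs))
  convert this using 1
  rw [map_sub, map_smul, smul_sub]; abel

omit [Finite F] in
theorem exists_layer {z : V} (hz : z ≠ 0) :
    ∃ k < finrank F V, z ∉ Φ.U k ∧ z ∈ Φ.U (k + 1) := by
  classical
  have hex : ∃ k, z ∈ Φ.U k := ⟨_, by rw [Φ.U_top]; trivial⟩
  have h0 : Nat.find hex ≠ 0 := fun e => by
    have := Nat.find_spec hex
    rw [e, Φ.U0] at this
    exact hz (by simpa using this)
  obtain ⟨k, hk⟩ := Nat.exists_eq_succ_of_ne_zero h0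
  have h1 : Nat.find hex ≤ finrank F V := Nat.find_min' hex (by rw [Φ.U_top]; trivial)
  exact ⟨k, by omega, Nat.find_min hex (by omega), by have := Nat.find_spec hex; rwa [hk] at this⟩

omit [Finite F] [Finite V] in
theorem to_layer {k : ℕ} {z : V} (h1 : z ∉ Φ.U k) (h2 : z ∈ Φ.U (k + 1)) :
    ∃ c : F, c ≠ 0 ∧ ∃ s ∈ S, c • s (Φ.v k) = z := by
  rw [Φ.succ, mem_sup1] at h2
  obtain ⟨c, h3⟩ := h2
  have hc : c ≠ 0 := fun e => h1 (by simpa [e] using h3)
  obtain ⟨s, hs, e⟩ := Φ.lay k (fun e => h1 (by simp [e])) _ ((Φ.U k).smul_mem c⁻¹ h3)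
  exact ⟨c, hc, s, hs, by rw [e, smul_add, smul_smul, mul_inv_cancel₀ hc]; simp⟩

omit [Finite F] in
theorem move {k : ℕ} {z u : V} (h1 : z ∉ Φ.U k) (hu : u ∈ Φ.U k) : ∃ s ∈ S, s z = z + u := by
  obtain ⟨l, -, a, b⟩ := Φ.exists_layer (z := z) fun e => h1 (by simp [e])
  have hkl : k ≤ l := by
    by_contra hc
    exact h1 (Φ.mono (by omega) b)
  have hu' := Φ.mono hkl hu
  obtain ⟨c, hc, s, hs, e⟩ := Φ.to_layer a b
  have hw : s (Φ.v l) - Φ.v l + c⁻¹ • u ∈ Φ.U l :=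
    (Φ.U l).add_mem (Φ.mov l s hs) ((Φ.U l).smul_mem _ hu')
  obtain ⟨t, ht, e'⟩ := Φ.lay l (fun e => a (by simp [e])) _ hw
  refine ⟨t * s⁻¹, mul_mem ht (inv_mem hs), ?_⟩
  rw [← e, LinearEquiv.mul_apply, map_smul, map_smul]
  have : s⁻¹ (s (Φ.v l)) = Φ.v l := by simp
  rw [this, e', ← add_assoc, add_sub_cancel, smul_add, smul_smul, mul_inv_cancel₀ hc, one_smul]

omit [Finite F] [Finite V] in
theorem layer_iff {X : Set V} (hX : ∀ s ∈ S, ∀ x ∈ X, s x ∈ X)
    (hZ : ∀ c : F, c ≠ 0 → ∀ x ∈ X, c • x ∈ X) {m : ℕ} {z : V} (a : z ∉ Φ.U m)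
    (b : z ∈ Φ.U (m + 1)) : z ∈ X ↔ Φ.v m ∈ X := by
  obtain ⟨c, hc, s, hs, e⟩ := Φ.to_layer a b
  refine ⟨fun h => ?_, fun h => e ▸ hZ c hc _ (hX s hs _ h)⟩
  have := hX _ (inv_mem hs) _ (hZ _ (inv_ne_zero hc) _ h)
  rw [← e, smul_smul, inv_mul_cancel₀ hc, one_smul] at this
  simpa using this

theorem ncard_eq {X : Set V} [DecidablePred (· ∈ X)] (hX : ∀ s ∈ S, ∀ x ∈ X, s x ∈ X)
    (hZ : ∀ c : F, c ≠ 0 → ∀ x ∈ X, c • x ∈ X) (h0 : (0 : V) ∉ X) :
    X.ncard = (Nat.card F - 1) *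
      ∑ k ∈ (Finset.range (finrank F V)).filter (fun k => Φ.v k ∈ X), Nat.card F ^ k := by
  have key : ∀ m ≤ finrank F V, (X ∩ Φ.U m).ncard = (Nat.card F - 1) *
      ∑ k ∈ (Finset.range m).filter (fun k => Φ.v k ∈ X), Nat.card F ^ k := by
    intro m hm
    induction m with
    | zero =>
      rw [Φ.U0]
      simp only [Finset.range_zero, Finset.filter_empty, Finset.sum_empty, mul_zero]
      rw [Set.ncard_eq_zero]
      ext x; simp only [Set.mem_inter_iff, Submodule.bot_coe, Set.mem_singleton_iff,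
        Set.mem_empty_iff_false, iff_false, not_and]
      rintro h rfl; exact h0 h
    | succ m ih =>
      rw [Finset.range_add_one, Finset.filter_insert]
      have hl : ∀ z, z ∉ Φ.U m → z ∈ Φ.U (m + 1) → (z ∈ X ↔ Φ.v m ∈ X) :=
        fun z a b => Φ.layer_iff hX hZ a b
      split_ifs with hv
      · rw [Finset.sum_insert (by simp), mul_add, ← ih (by omega)]
        have : X ∩ Φ.U (m + 1) = ((Φ.U (m + 1) : Set V) \ Φ.U m) ∪ (X ∩ Φ.U m) := by
          ext z
          constructor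
          · rintro ⟨a, b⟩
            by_cases c : z ∈ Φ.U m
            · exact Or.inr ⟨a, c⟩
            · exact Or.inl ⟨b, c⟩
          · rintro (⟨a, b⟩ | ⟨a, b⟩)
            · exact ⟨(hl z b a).2 hv, a⟩
            · exact ⟨a, Φ.mono (Nat.le_succ m) b⟩
        have h1 := ncard_diff_sub (Φ.mono (Nat.le_succ m))
        rw [Φ.finrank_U hm, Φ.finrank_U (by omega), pow_succ] at h1
        rw [this, Set.ncard_union_eq (Set.disjoint_left.2 fun z a b => a.2 b.2), Nat.sub_mul,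
          mul_comm (Nat.card F)]
        simp only [Nat.succ_eq_add_one] at h1
        omega
      · rw [← ih (by omega)]
        congr 1
        ext z
        constructor
        · rintro ⟨a, b⟩
          refine ⟨a, by_contra fun c => hv ((hl z c b).1 a)⟩
        · rintro ⟨a, b⟩
          exact ⟨a, Φ.mono (Nat.le_succ m) b⟩
  have := key _ le_rfl
  rwa [Φ.U_top, Submodule.top_coe, Set.inter_univ] at this

/-- an invariant set avoiding `U a` has size divisible by `q ^ a` -/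
theorem pow_dvd {X : Set V} (hX : ∀ s ∈ S, ∀ x ∈ X, s x ∈ X)
    (hZ : ∀ c : F, c ≠ 0 → ∀ x ∈ X, c • x ∈ X) {a : ℕ} (ha : ∀ x ∈ X, x ∉ Φ.U a) :
    Nat.card F ^ a ∣ X.ncard := by
  classical
  rw [Φ.ncard_eq hX hZ fun h => ha _ h (Submodule.zero_mem _)]
  refine Dvd.dvd.mul_left (Finset.dvd_sum fun k hk => pow_dvd_pow _ ?_) _
  by_contra hc
  exact ha _ (Finset.mem_filter.1 hk).2 (Φ.v_mem (by omega))

theorem eq_diff {X : Set V} (hX : ∀ s ∈ S, ∀ x ∈ X, s x ∈ X)
    (hZ : ∀ c : F, c ≠ 0 → ∀ x ∈ X, c • x ∈ X) (h0 : (0 : V) ∉ X) {a b : ℕ}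
    (hab : a ≤ b) (hc : X.ncard + Nat.card F ^ a = Nat.card F ^ b) :
    (a < b → b ≤ finrank F V) ∧ X = (Φ.U b : Set V) \ Φ.U a := by
  classical
  have hq := two_le_q (F := F)
  have h1 : X.ncard = (Nat.card F - 1) * ∑ k ∈ Finset.Ico a b, Nat.card F ^ k := by
    have e := Finset.sum_range_add_sum_Ico (fun k => Nat.card F ^ k) hab
    have g : ∀ n, (Nat.card F - 1) * ∑ k ∈ Finset.range n, Nat.card F ^ k + 1 = Nat.card F ^ n := by
      intro n
      have := Nat.geomSum_eq hq n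
      have h2 := geom_sum_mul_add (Nat.card F - 1) n
      rw [show Nat.card F - 1 + 1 = Nat.card F by omega] at h2
      rw [mul_comm]; exact h2
    have ga := g a
    have gb := g b
    rw [← e, mul_add] at gb
    omega
  have h2 := Finset.geomSum_injective hq (Nat.eq_of_mul_eq_mul_left (by omega)
    ((Φ.ncard_eq hX hZ h0).symm.trans h1))
  have h3 : ∀ k, (k < finrank F V ∧ Φ.v k ∈ X) ↔ a ≤ k ∧ k < b := by
    intro k
    have := Finset.ext_iff.1 h2 k
    simpa using this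
  refine ⟨fun h => by have := (h3 (b - 1)).2 (by omega); omega, ?_⟩
  ext z
  by_cases hz : z = 0
  · subst hz; simp [h0]
  obtain ⟨k, hk, c, d⟩ := Φ.exists_layer hz
  rw [Φ.layer_iff hX hZ c d, Set.mem_diff, SetLike.mem_coe, SetLike.mem_coe]
  have h4 : ∀ l, z ∈ Φ.U l ↔ k < l := fun l =>
    ⟨fun h => by by_contra hc; exact c (Φ.mono (by omega) h), fun h => Φ.mono h d⟩
  rw [h4, h4]
  have := h3 k
  simp only [hk, true_and] at this
  rw [this]; omega

theorem eq_U {W : Submodule F V} (hW : ∀ s ∈ S, ∀ x ∈ W, s x ∈ W) : W = Φ.U (finrank F W) := by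
  have := (Φ.eq_diff (X := (W : Set V) \ {0}) (a := 0) (b := finrank F W)
    (fun s hs x hx => ⟨hW s hs x hx.1, by simpa using hx.2⟩)
    (fun c hc x hx => ⟨W.smul_mem c hx.1, by simpa [hc] using hx.2⟩) (by simp) (Nat.zero_le _)
    (by rw [← card_sub, pow_zero, Set.ncard_sdiff_singleton_add_one W.zero_mem])).2
  ext z
  by_cases hz : z = 0
  · simp [hz]
  have := Set.ext_iff.1 this z
  simpa [hz, Φ.U0] using this

end Flag

end CF.Sing
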