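import Cfsg.Agent.Sing.K0

/-! Linear groups 2-transitive on points: duality, antiflags, Sylow flags, one transvection. -/

set_option autoImplicit false
set_option linter.style.haveILetI false
set_option linter.unusedSectionVars false

namespace CF.Sing

open Module CF.Geom

variable {F V : Type*} [Field F] [AddCommGroup V] [Module F V] [Finite F] [Finite V] {G S : Subgroup (V ≃ₗ[F] V)}

/-- Orbits on a space and on its dual are equinumerous. -/
theorem orb_dual (H : Subgroup (V ≃ₗ[F] V)) {α : Type} [Finite α] (c : V → α)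
    (hc : ∀ v w, c v = c w → ∃ h ∈ H, h v = w) (d : Dual F V → α) (hd : Function.Surjective d)
    (hinv : ∀ h ∈ H, ∀ f, d (dl h f) = d f) {f f' : Dual F V} (hf : d f = d f') :
    ∃ h ∈ H, dl h f = f' := by
  classical
  letI : MulAction H (Dual F V) := MulAction.compHom _ (dl.comp H.subtype)
  have hsm : ∀ (h : H) (f : Dual F V), h • f = dl h.1 f := fun _ _ => rfl
  letI := Fintype.ofFinite H
  letI : ∀ g : H, Fintype (MulAction.fixedBy V g) := fun _ => Fintype.ofFinite _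
  letI : ∀ g : H, Fintype (MulAction.fixedBy (Dual F V) g) := fun _ => Fintype.ofFinite _
  letI := Fintype.ofFinite (Quotient (MulAction.orbitRel H V))
  letI := Fintype.ofFinite (Quotient (MulAction.orbitRel H (Dual F V)))
  have b1 := MulAction.sum_card_fixedBy_eq_card_orbits_mul_card_group H V
  have b2 := MulAction.sum_card_fixedBy_eq_card_orbits_mul_card_group H (Dual F V)
  have hfix : ∀ g : H, Fintype.card (MulAction.fixedBy V g) = Fintype.card (MulAction.fixedBy (Dual F V) g) := by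
    intro g
    let e : V →ₗ[F] V := (g.1.symm : V →ₗ[F] V) - LinearMap.id
    have h1 : MulAction.fixedBy V g = (LinearMap.ker e : Set V) := by
      ext v
      simp only [MulAction.mem_fixedBy, SetLike.mem_coe, LinearMap.mem_ker, e, LinearMap.sub_apply,
        LinearMap.id_apply, sub_eq_zero, LinearEquiv.coe_coe, LinearEquiv.symm_apply_eq]
      exact eq_comm
    have h2 : MulAction.fixedBy (Dual F V) g = ((LinearMap.range e).dualAnnihilator : Set (Dual F V)) := by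
      ext f
      simp only [MulAction.mem_fixedBy, SetLike.mem_coe, Submodule.mem_dualAnnihilator, hsm,
        LinearMap.mem_range, forall_exists_index, forall_apply_eq_imp_iff, e, LinearMap.sub_apply,
        LinearMap.id_apply, map_sub, sub_eq_zero, LinearEquiv.coe_coe, LinearMap.ext_iff, dl_apply]
    rw [← Nat.card_eq_fintype_card, ← Nat.card_eq_fintype_card, Nat.card_coe_set_eq, Nat.card_coe_set_eq, h1, h2, card_sub, card_sub]
    have := Subspace.finrank_add_finrank_dualAnnihilator_eq (LinearMap.range e)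
    have := e.finrank_range_add_finrank_ker
    congr 1; omega
  have hq : Fintype.card (Quotient (MulAction.orbitRel H V)) = Fintype.card (Quotient (MulAction.orbitRel H (Dual F V))) := by
    simp only [hfix] at b1
    exact Nat.eq_of_mul_eq_mul_right Fintype.card_pos (b1.symm.trans b2)
  have h1 : Nat.card (Quotient (MulAction.orbitRel H V)) ≤ Nat.card α := by
    refine Nat.card_le_card_of_injective (fun q => c q.out) fun q q' h => ?_
    obtain ⟨g, hg, e⟩ := hc _ _ h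
    rw [← q.out_eq, ← q'.out_eq]
    exact Quotient.sound' (MulAction.orbitRel_apply.2 ⟨⟨g, hg⟩⁻¹, by
      show (⟨g, hg⟩ : H)⁻¹ • q'.out = q.out
      rw [inv_smul_eq_iff]; exact e.symm⟩)
  let D : Quotient (MulAction.orbitRel H (Dual F V)) → α := Quotient.lift d (by
    rintro a b ⟨g, rfl⟩
    exact hinv g.1 g.2 b)
  have hD : Function.Surjective D := fun a => by
    obtain ⟨f, rfl⟩ := hd a
    exact ⟨Quotient.mk _ f, rfl⟩
  have hb : Function.Bijective D := by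
    rw [Nat.card_eq_fintype_card, hq, ← Nat.card_eq_fintype_card] at h1
    exact (Nat.bijective_iff_surjective_and_card D).2 ⟨hD, le_antisymm h1 (Nat.card_le_card_of_surjective D hD)⟩
  have : (Quotient.mk _ f' : Quotient (MulAction.orbitRel H (Dual F V))) = Quotient.mk _ f := hb.1 hf.symm
  obtain ⟨g, hg⟩ := MulAction.orbitRel_apply.1 (Quotient.exact this)
  exact ⟨g.1, g.2, hg⟩

namespace KB

theorem m1 (x : V) : x ∈ F ∙ x := Submodule.mem_span_singleton_self x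

theorem exists_I2 (hn : 2 ≤ finrank F V) {x : V} (hx : x ≠ 0) : ∃ y, I2 F x y :=
  let ⟨y, hy⟩ := exists_notMem (U := F ∙ x) (by rw [finrank_span_singleton hx]; omega); ⟨y, hx, hy⟩

theorem dual1 {y : V} (hy : y ≠ 0) : ∃ f : Dual F V, f y = 1 :=
  let ⟨f, h, _⟩ := exists_dual_one (F := F) (W := ⊥) hy; ⟨f, h⟩

theorem ne0 {f : Dual F V} {y : V} (h : f y = 1) : f ≠ 0 := fun e => by simp [e] at h

theorem sc_ne {g : V ≃ₗ[F] V} {y y' : V} {a : F} (hy : y ≠ 0) (e : g y = a • y') : a ≠ 0 := fun f => by simp_all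

theorem hz_stab (hZ : HasZ G) (U : Submodule F V) {c : F} (hc : c ≠ 0) : ∃ g ∈ G ⊓ subStab U, ∀ v, g v = c • v :=
  let ⟨g, m, e⟩ := hZ c hc; ⟨g, ⟨m, mem_subStab_iff_le.2 fun w hw => e w ▸ U.smul_mem c hw⟩, e⟩

theorem af0 (h : Tr2 G) (hZ : HasZ G) (hn : 2 ≤ finrank F V) {y : V} (hy : y ≠ 0) {f f' : Dual F V} (hf : f ≠ 0) (hf' : f' ≠ 0)
    (e : f y = 0 ↔ f' y = 0) : ∃ g ∈ G, (∃ a : F, g y = a • y) ∧ dl g f = f' := by
  classical
  have key : ∀ g ∈ G ⊓ subStab (F ∙ y), ∃ a : F, g y = a • y := fun g hg =>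
    let ⟨a, e⟩ := Submodule.mem_span_singleton.1 (mem_subStab_iff_le.1 hg.2 y (m1 y)); ⟨a, e.symm⟩
  have := orb_dual (G ⊓ subStab (F ∙ y)) (fun v => if v = 0 then (0 : Fin 3) else if v ∈ F ∙ y then 1 else 2) ?_
    (fun f => if f = 0 then (0 : Fin 3) else if f y = 0 then 2 else 1) ?_ ?_ (f := f) (f' := f') (by simp [hf, hf', e])
  · obtain ⟨g, hg, h1⟩ := this
    exact ⟨g, hg.1, key g hg, h1⟩
  · intro v w hvw
    by_cases e0 : v = w
    · exact ⟨1, one_mem _, e0⟩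
    have : v ≠ 0 ∧ w ≠ 0 ∧ (v ∈ F ∙ y ↔ w ∈ F ∙ y) := by split_ifs at hvw <;> simp_all
    by_cases m : v ∈ F ∙ y
    · obtain ⟨a, rfl⟩ := Submodule.mem_span_singleton.1 m
      obtain ⟨b, rfl⟩ := Submodule.mem_span_singleton.1 (this.2.2.1 m)
      have a0 := left_ne_zero_of_smul this.1
      obtain ⟨g, hg, e⟩ := hz_stab hZ (F ∙ y) (div_ne_zero (left_ne_zero_of_smul this.2.1) a0)
      exact ⟨g, hg, by rw [e, smul_smul, div_mul_cancel₀ _ a0]⟩
    obtain ⟨g, hg, ⟨a, e1⟩, b, e2⟩ := h y v y w ⟨hy, m⟩ ⟨hy, mt this.2.2.2 m⟩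
    have b0 := sc_ne this.1 e2
    obtain ⟨k, hk, e⟩ := hz_stab hZ (F ∙ y) (inv_ne_zero b0)
    refine ⟨k * g, mul_mem hk ⟨hg, mem_subStab_iff_le.2 fun u hu => ?_⟩, by rw [LinearEquiv.mul_apply, e2, e, smul_smul, inv_mul_cancel₀ b0, one_smul]⟩
    obtain ⟨c, rfl⟩ := Submodule.mem_span_singleton.1 hu
    rw [map_smul, e1]
    exact Submodule.smul_mem _ _ (Submodule.smul_mem _ _ (m1 y))
  · intro a
    obtain ⟨f1, h1⟩ := dual1 (F := F) hy
    obtain ⟨z, hz⟩ := exists_I2 hn hy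
    obtain ⟨f2, h2, h3⟩ := exists_dual_one hz.2
    fin_cases a
    · exact ⟨0, by simp⟩
    · exact ⟨f1, by simp [h1, ne0 h1]⟩
    · exact ⟨f2, by simp [h3 y (m1 y), ne0 h2]⟩
  · intro g hg f
    obtain ⟨a, e⟩ := key _ (inv_mem hg)
    simp [show g.symm y = a • y from e, sc_ne hy e]

end KB

open KB

theorem Tr2.af (h : Tr2 G) (hZ : HasZ G) (hn : 2 ≤ finrank F V) {y y' : V} (hy : y ≠ 0)
    (hy' : y' ≠ 0) {f f' : Dual F V} (hf : f ≠ 0) (hf' : f' ≠ 0) (e : f y = 0 ↔ f' y' = 0) :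
    ∃ g ∈ G, (∃ a : F, g y = a • y') ∧ dl g f = f' := by
  obtain ⟨z, hz⟩ := exists_I2 hn hy
  obtain ⟨z', hz'⟩ := exists_I2 hn hy'
  obtain ⟨g1, hg1, ⟨a, e1⟩, -⟩ := h _ _ _ _ hz hz'
  have a0 := sc_ne hy e1
  obtain ⟨g2, hg2, ⟨b, e2⟩, e3⟩ := af0 h hZ hn hy' (f := dl g1 f) (by simpa using hf) hf' (by
    have : f y = a * dl g1 f y' := by rw [← smul_eq_mul, ← map_smul, ← e1]; simp
    rw [← e, this, mul_eq_zero, or_iff_right a0])
  exact ⟨g2 * g1, mul_mem hg2 hg1, ⟨a * b, by simp [e1, e2, mul_smul]⟩, by rw [map_mul]; simpa using e3⟩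

namespace KB

theorem card_aff {U : Submodule F V} {y : V} (hy : y ∉ U) :
    {f : Dual F V | f y = 1 ∧ ∀ u ∈ U, f u = 0}.ncard = Nat.card F ^ (finrank F V - finrank F U - 1) := by
  obtain ⟨f0, h1, h2⟩ := exists_dual_one hy
  have : {f : Dual F V | f y = 1 ∧ ∀ u ∈ U, f u = 0} = (fun f => f + f0) '' ((U ⊔ F ∙ y).dualAnnihilator : Set (Dual F V)) := by
    ext f
    simp only [Set.mem_setOf_eq, Set.mem_image, SetLike.mem_coe, Submodule.mem_dualAnnihilator]
    constructor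
    · rintro ⟨a, b⟩
      refine ⟨f - f0, fun w hw => ?_, sub_add_cancel _ _⟩
      obtain ⟨c, hw⟩ := mem_sup1.1 hw
      have e1 := b _ hw
      have e2 := h2 _ hw
      simp only [map_sub, map_smul, a, h1, sub_eq_zero] at e1 e2
      simp [e1, e2]
    · rintro ⟨φ, hφ, rfl⟩
      exact ⟨by simp [hφ y (Submodule.mem_sup_right (m1 y)), h1], fun u hu => by simp [hφ u (Submodule.mem_sup_left hu), h2 u hu]⟩
  rw [this, Set.ncard_image_of_injective _ (add_left_injective f0), card_sub]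
  have := Subspace.finrank_add_finrank_dualAnnihilator_eq (U ⊔ F ∙ y)
  rw [Submodule.finrank_sup_span_singleton hy] at this
  congr 1; omega

theorem dvd_index (h : Tr2 G) (hZ : HasZ G) (hn : 2 ≤ finrank F V) {y : V} {f : Dual F V} (hf : f y = 1) (H : Subgroup G)
    (hH : ∀ g ∈ H, g.1 y = y ∧ dl g.1 f = f) : Nat.card F ^ (finrank F V - 1) ∣ H.relIndex (MulAction.stabilizer G y) := by
  have hy : y ≠ 0 := fun e => by simp [e] at hf
  letI : MulAction G (Dual F V) := MulAction.compHom _ (dl.comp G.subtype)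
  let Y := MulAction.stabilizer G y
  have h1 : (MulAction.stabilizer Y f).index = Nat.card F ^ (finrank F V - 1) := by
    rw [MulAction.index_stabilizer]
    have := card_aff (F := F) (U := ⊥) (y := y) (by simpa using hy)
    simp only [finrank_bot, Nat.sub_zero] at this
    rw [← this]
    congr 1
    ext φ
    constructor
    · rintro ⟨g, rfl⟩
      have e : g.1.1.symm y = y := by rw [LinearEquiv.symm_apply_eq]; exact g.2.symm
      exact ⟨by show f (g.1.1.symm y) = 1; rw [e, hf], by simp⟩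
    · rintro ⟨a, -⟩
      obtain ⟨g, hg, ⟨c, b⟩, d⟩ := h.af hZ hn hy hy (ne0 hf) (ne0 a) (by simp [hf, a])
      have : φ (g y) = 1 := by rw [← d]; simpa
      rw [b, map_smul, a, smul_eq_mul, mul_one] at this
      exact ⟨⟨⟨g, hg⟩, show g y = y by rw [b, this, one_smul]⟩, d⟩
  rw [← h1]
  exact Subgroup.index_dvd_of_le fun g hg => (hH _ hg).2

theorem card_pow (p : ℕ) [CharP F p] : ∃ m, 0 < m ∧ Nat.card F = p ^ m := by
  letI := Fintype.ofFinite F
  obtain ⟨m, -, e⟩ := FiniteField.card F p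
  exact ⟨m, m.2, Nat.card_eq_fintype_card.trans e⟩

theorem lay (h : Tr2 G) (hZ : HasZ G) (hn : 2 ≤ finrank F V) (p : ℕ) [Fact p.Prime] [CharP F p] (S : Sylow p G) (U : Submodule F V) (y : V)
    (hU : ∀ s ∈ (S : Subgroup G).map G.subtype, ∀ u ∈ U, s u ∈ U) (hy : y ∉ U) (hm : ∀ s ∈ (S : Subgroup G).map G.subtype, s y - y ∈ U) :
    ∀ u ∈ U, ∃ s ∈ (S : Subgroup G).map G.subtype, s y = y + u := by
  letI : MulAction G (Dual F V) := MulAction.compHom _ (dl.comp G.subtype)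
  obtain ⟨f0, h1, h2⟩ := exists_dual_one hy
  let T : Subgroup G := (S : Subgroup G) ⊓ MulAction.stabilizer G y
  let H : Subgroup G := T ⊓ MulAction.stabilizer G f0
  have d1 : Nat.card F ^ (finrank F V - 1) ∣ H.index :=
    (dvd_index h hZ hn h1 H fun g hg => ⟨hg.1.2, hg.2⟩).trans (Subgroup.relIndex_dvd_index_of_le fun g hg => hg.1.2)
  rw [← Subgroup.relIndex_mul_index (inf_le_left : H ≤ T), ← Subgroup.relIndex_mul_index (inf_le_left : T ≤ S), ← mul_assoc] at d1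
  obtain ⟨m, -, hq⟩ := card_pow (F := F) p
  have d2 : Nat.card F ^ (finrank F V - 1) ∣ H.relIndex T * T.relIndex S :=
    (Nat.Coprime.pow_left _ (hq ▸ Nat.Coprime.pow_left _ ((Nat.Prime.coprime_iff_not_dvd Fact.out).2 S.not_dvd_index))).dvd_of_dvd_mul_right d1
  have e1 : H.relIndex T = (MulAction.orbit T f0).ncard := by
    rw [← MulAction.index_stabilizer, Subgroup.relIndex]
    congr 1
    ext g; simp [H, Subgroup.mem_subgroupOf]; rfl
  have e2 : T.relIndex S = (MulAction.orbit (S : Subgroup G) y).ncard := by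
    rw [← MulAction.index_stabilizer, Subgroup.relIndex]
    congr 1
    ext g; simp [T, Subgroup.mem_subgroupOf]; rfl
  have l1 : (MulAction.orbit T f0).ncard ≤ Nat.card F ^ (finrank F V - finrank F U - 1) := by
    rw [← card_aff hy]
    refine Set.ncard_le_ncard ?_ (Set.toFinite _)
    rintro _ ⟨g, rfl⟩
    have e : g.1.1.symm y = y := by rw [LinearEquiv.symm_apply_eq]; exact g.2.2.symm
    refine ⟨by show f0 (g.1.1.symm y) = 1; rw [e, h1], fun u hu => ?_⟩
    exact h2 _ (hU _ ⟨g.1⁻¹, inv_mem g.2.1, rfl⟩ u hu)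
  have hsub : MulAction.orbit (S : Subgroup G) y ⊆ (fun u => y + u) '' U := by
    rintro _ ⟨g, rfl⟩
    exact ⟨g.1.1 y - y, hm _ ⟨g.1, g.2, rfl⟩, add_sub_cancel ..⟩
  have hlt : finrank F U < finrank F V := Submodule.finrank_lt fun e => hy (by simp [e])
  have l2 : ((fun u => y + u) '' (U : Set V)).ncard ≤ (MulAction.orbit (S : Subgroup G) y).ncard := by
    rw [Set.ncard_image_of_injective _ (add_right_injective y), card_sub]
    have hpos : 0 < H.relIndex T * T.relIndex S :=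
      Nat.pos_of_ne_zero (mul_ne_zero Subgroup.index_ne_zero_of_finite Subgroup.index_ne_zero_of_finite)
    have := (Nat.le_of_dvd hpos d2).trans (Nat.mul_le_mul_right _ (e1 ▸ l1))
    rw [e2, show finrank F V - 1 = (finrank F V - finrank F U - 1) + finrank F U by omega, pow_add] at this
    exact Nat.le_of_mul_le_mul_left this (pow_pos Nat.card_pos _)
  have := Set.eq_of_subset_of_ncard_le hsub l2 (Set.toFinite _)
  intro u hu
  have hmem : y + u ∈ MulAction.orbit (S : Subgroup G) y := this ▸ ⟨u, hu, rfl⟩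
  obtain ⟨g, hg⟩ := hmem
  exact ⟨g.1.1, ⟨g.1, g.2, rfl⟩, hg⟩

theorem exists_fixed_quot (p : ℕ) [Fact p.Prime] [CharP F p] (hS : IsPGroup p S) {U : Submodule F V}
    (hU : ∀ s ∈ S, ∀ u ∈ U, s u ∈ U) (hne : U ≠ ⊤) : ∃ y, y ∉ U ∧ ∀ s ∈ S, s y - y ∈ U := by
  letI : MulAction (stabSet S U) (V ⧸ U) := MulAction.compHom _ (stabQuot S U)
  have hd : p ∣ Nat.card (V ⧸ U) := by
    obtain ⟨m, m0, hq⟩ := card_pow (F := F) p
    have := Submodule.finrank_quotient_add_finrank U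
    have := Submodule.finrank_lt hne
    rw [card_top (F := F), hq]
    exact (dvd_pow_self p m0.ne').trans (dvd_pow_self _ (by omega))
  obtain ⟨b, hb, hb0⟩ := (hS.to_subgroup (stabSet S U)).exists_fixed_point_of_prime_dvd_card_of_fixed_point
    (V ⧸ U) hd (a := 0) (fun g => map_zero (stabQuot S U g))
  induction b using Submodule.Quotient.induction_on with | H y =>
  exact ⟨y, fun h => hb0 ((Submodule.Quotient.mk_eq_zero U).2 h).symm, fun s hs =>
    (Submodule.Quotient.eq U).1 (hb ⟨⟨s, hs⟩, mem_stabSet_iff_le.2 (hU s hs)⟩)⟩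

end KB

theorem Tr2.exists_flag (h : Tr2 G) (hZ : HasZ G) (hn : 2 ≤ finrank F V) (p : ℕ) [Fact p.Prime]
    [CharP F p] (P : Sylow p G) : Nonempty (Flag ((P : Subgroup G).map G.subtype)) := by
  have hL := lay h hZ hn p P
  have hS := P.isPGroup'.map G.subtype
  generalize (P : Subgroup G).map G.subtype = S at hL hS
  have key : ∀ U : {U : Submodule F V // ∀ s ∈ S, ∀ u ∈ U, s u ∈ U}, ∃ y, (U.1 ≠ ⊤ → y ∉ U.1) ∧ ∀ s ∈ S, s y - y ∈ U.1 := by
    intro U
    by_cases h : U.1 = ⊤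
    · exact ⟨0, fun e => absurd h e, by simp⟩
    · obtain ⟨y, a, b⟩ := exists_fixed_quot p hS U.2 h
      exact ⟨y, fun _ => a, b⟩
  choose nx h1 h2 using key
  let st : {U : Submodule F V // ∀ s ∈ S, ∀ u ∈ U, s u ∈ U} → {U : Submodule F V // ∀ s ∈ S, ∀ u ∈ U, s u ∈ U} := fun U =>
    ⟨U.1 ⊔ F ∙ nx U, fun s hs u hu => by
      obtain ⟨c, hu⟩ := mem_sup1.1 hu
      refine mem_sup1.2 ⟨c, ?_⟩
      convert U.1.add_mem (U.2 s hs _ hu) (U.1.smul_mem c (h2 U s hs)) using 1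
      rw [map_sub, map_smul, smul_sub]; abel⟩
  let W : ℕ → {U : Submodule F V // ∀ s ∈ S, ∀ u ∈ U, s u ∈ U} := fun k => st^[k] ⟨⊥, by simp⟩
  exact ⟨⟨fun k => nx (W k), fun k => (W k).1, rfl, fun k => by simp only [W, Function.iterate_succ_apply', st], fun k => h1 _,
    fun k => (W k).2, fun k => h2 _, fun k e => hL _ _ (W k).2 (h1 _ e) (h2 _)⟩⟩

theorem KB.flag (h : Tr2 G) (hZ : HasZ G) (hn : 2 ≤ finrank F V) : ∃ S ≤ G, Nonempty (Flag S) := by
  obtain ⟨p, _⟩ := CharP.exists F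
  haveI := Fact.mk (CharP.char_is_prime F p)
  obtain ⟨P⟩ := (inferInstance : Nonempty (Sylow p G))
  exact ⟨_, Subgroup.map_subtype_le _, h.exists_flag hZ hn p P⟩

theorem Tr2.sl_of_tv (h : Tr2 G) (hZ : HasZ G) (hn : 3 ≤ finrank F V) {g : V ≃ₗ[F] V} (hg : g ∈ G)
    {φ : Dual F V} {y : V} (h0 : φ ≠ 0) (hy : y ≠ 0) (h1 : φ y = 0)
    (e : ∀ v, g v = v + φ v • y) : SLG F V ≤ G := by
  obtain ⟨S, le, ⟨Φ⟩⟩ := flag h hZ (by omega)
  obtain ⟨m, hm⟩ : ∃ m, finrank F V = m + 1 := ⟨_, (Nat.sub_add_cancel (by omega)).symm⟩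
  obtain ⟨ψ, p1, p2⟩ := exists_dual_one (Φ.nm (k := m) (by omega))
  have n1 := Φ.nm (k := 1) (by omega)
  have l : Φ.U 2 ≤ Φ.U m := Φ.mono (by omega)
  have v0 : Φ.v 0 ≠ 0 := fun e => Φ.nm (k := 0) (by omega) (e ▸ zero_mem _)
  have q1 := p2 _ (l (Φ.v_mem one_lt_two))
  obtain ⟨k, hk, ⟨a, e1⟩, e2⟩ := h.af hZ (by omega) hy (y' := Φ.v 1) (fun e => n1 (e ▸ zero_mem _)) h0 (ne0 p1) (by simp [h1, q1])
  have q2 : ψ (a • Φ.v 1) = 0 := by simp [q1]
  have t1 : tvE q2 ∈ G := tvE_map_mem (h := h1) ((LinearEquiv.ext e : g = tvE h1) ▸ hg) hk (fun x => by simp [← e2]) e1 _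
  have t2 : ∀ u ∈ Φ.U 1, ∀ q : ψ u = 0, tvE q ∈ G := fun u hu q => by
    obtain ⟨s, hs, e3⟩ := Φ.move (z := a • Φ.v 1) (by rwa [Submodule.smul_mem_iff _ (sc_ne hy e1)]) hu
    exact tvE_sub_mem (tvE_map_mem t1 (le hs) (fun x => by
      simpa [sub_eq_zero] using p2 _ (Φ.mov' hs (u := x) (by rw [← hm, Φ.U_top]; trivial))) e3 (by simp [q1, q])) t1 (by abel) q
  refine SLG_le_of_tvE fun f w hw => ?_
  by_cases z : f = 0 ∨ w = 0
  · rw [tvE_eq_one hw fun x => by rcases z with rfl | rfl <;> simp]; exact one_mem _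
  rw [not_or] at z
  have q0 := p2 _ (l (Φ.v_mem two_pos))
  obtain ⟨k, hk, ⟨b, e1⟩, e2⟩ := h.af hZ (by omega) v0 z.2 (ne0 p1) z.1 (by simp [hw, q0])
  exact tvE_map_mem (t2 (b⁻¹ • Φ.v 0) (Submodule.smul_mem _ _ (Φ.v_mem one_pos)) (by simp [q0])) hk (fun x => by simp [← e2])
    (by rw [map_smul, e1, smul_smul, inv_mul_cancel₀ (sc_ne v0 e1), one_smul]) hw

theorem KB.sl_of_cen (h : Tr2 G) (hZ : HasZ G) (hn : 3 ≤ finrank F V) {g : V ≃ₗ[F] V} (hg : g ∈ G) {x : V} (hx : x ≠ 0) (e : g x = x)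
    (hv : ∀ v, g v - v ∈ F ∙ x) (g1 : g ≠ 1) : SLG F V ≤ G := by
  obtain ⟨θ, hθ⟩ := dual1 (F := F) hx
  have k : ∀ v, g v = v + (θ ∘ₗ ((g : V →ₗ[F] V) - LinearMap.id)) v • x := fun v => by
    obtain ⟨c, f⟩ := Submodule.mem_span_singleton.1 (hv v)
    show _ = v + θ (g v - v) • x
    rw [← f, map_smul, hθ, smul_eq_mul, mul_one, f, add_sub_cancel]
  exact h.sl_of_tv hZ hn hg (fun f => g1 (LinearEquiv.ext fun v => by simpa [f] using k v)) hx (by simp [e]) k

theorem Tr2.ck3 (h : Tr2 G) (hZ : HasZ G) (hn : finrank F V = 3) : SLG F V ≤ G := by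
  obtain ⟨S, le, ⟨Φ⟩⟩ := flag h hZ (by omega)
  have v0 : Φ.v 0 ≠ 0 := fun e => Φ.nm (k := 0) (by omega) (e ▸ zero_mem _)
  obtain ⟨s, hs, e⟩ := Φ.lay 2 (Φ.ne_top (by omega)) _ (Φ.v_mem two_pos)
  refine sl_of_cen h hZ hn.ge (le hs) v0 (Φ.s0 hs) (fun v => ?_) fun f => v0 (by simpa [f] using e)
  obtain ⟨c, m⟩ := mem_sup1.1 (show v ∈ Φ.U 2 ⊔ F ∙ Φ.v 2 by rw [← Φ.succ, show 2 + 1 = finrank F V from hn.symm, Φ.U_top]; trivial)
  convert add_mem (Φ.U1 ▸ Φ.mov' hs m) (Submodule.smul_mem _ c (m1 (Φ.v 0))) using 1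
  rw [map_sub, map_smul, e, smul_add]; abel

end CF.Sing
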