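import Cfsg.Agent.Sing.KB1

/-! Linear groups 2-transitive on points: planes and the lifting lemma. -/

set_option autoImplicit false
set_option linter.style.haveILetI false
set_option linter.unusedSectionVars false

namespace CF.Sing

open Module CF.Geom KB

variable {F V : Type*} [Field F] [AddCommGroup V] [Module F V] [Finite F] [Finite V] {G S : Subgroup (V ≃ₗ[F] V)}

namespace KB

theorem avoid2 {P Q : Submodule F V} (hP : finrank F P < finrank F V) (hQ : finrank F Q < finrank F V) : ∃ w, w ∉ P ∧ w ∉ Q := by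
  obtain ⟨a, ha⟩ := exists_notMem hP
  obtain ⟨b, hb⟩ := exists_notMem hQ
  by_cases h1 : a ∈ Q
  · by_cases h2 : b ∈ P
    · exact ⟨a + b, by rwa [P.add_mem_iff_left h2], by rwa [Q.add_mem_iff_right h1]⟩
    · exact ⟨b, h2, hb⟩
  · exact ⟨a, ha, h1⟩

theorem fr2 {x y : V} (h : I2 F x y) : finrank F ↥((F ∙ x) ⊔ F ∙ y) = 2 := by
  rw [Submodule.finrank_sup_span_singleton h.2, finrank_span_singleton h.1]

theorem fr3 {x y z : V} (h : I3 F x y z) : finrank F ↥((F ∙ x) ⊔ (F ∙ y) ⊔ F ∙ z) = 3 := by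
  rw [Submodule.finrank_sup_span_singleton h.2, fr2 h.1]

theorem i2_symm {x y : V} (h : I2 F x y) : I2 F y x :=
  ⟨fun e => h.2 (e ▸ zero_mem _), by simpa using notMem_sup_singleton_comm (W := ⊥) h.1 (by simpa using h.2)⟩

theorem tr2_of (hn : finrank F V = 3) (mv : ∀ x y z u, I3 F x y z → u ∈ (F ∙ x) ⊔ (F ∙ y) → ∃ g ∈ G, g x = x ∧ g z = z + u) : Tr2 G := by
  have A : ∀ {x a b}, I2 F x a → I2 F x b → ∃ g ∈ G, g x = x ∧ ∃ c : F, g a = c • b := fun {x a b} ha hb => by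
    obtain ⟨w, w1, w2⟩ := avoid2 (P := (F ∙ x) ⊔ F ∙ a) (Q := (F ∙ x) ⊔ F ∙ b) (by rw [fr2 ha]; omega) (by rw [fr2 hb]; omega)
    have i : I2 F x w := ⟨ha.1, fun m => w1 (Submodule.mem_sup_left m)⟩
    have ia : I3 F x w a := ⟨i, notMem_sup_singleton_comm ha.2 w1⟩
    obtain ⟨c, m⟩ := mem_sup1.1 (show b ∈ (F ∙ x) ⊔ (F ∙ w) ⊔ F ∙ a by rw [Submodule.eq_top_of_finrank_eq ((fr3 ia).trans hn.symm)]; trivial)
    have c0 : c ≠ 0 := fun e => notMem_sup_singleton_comm hb.2 w2 (by simpa [e] using m)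
    obtain ⟨g, hg, e1, e2⟩ := mv x w (c • a) _ ⟨i, by rw [Submodule.smul_mem_iff _ c0]; exact ia.2⟩ m
    exact ⟨g, hg, e1, c⁻¹, by rw [eq_inv_smul_iff₀ c0, ← map_smul, e2, add_sub_cancel]⟩
  intro x y x' y' h h'
  obtain ⟨w, w1, w2⟩ := avoid2 (P := F ∙ x) (Q := F ∙ x') (by rw [finrank_span_singleton h.1]; omega) (by rw [finrank_span_singleton h'.1]; omega)
  obtain ⟨g, hg, -, c, e⟩ := A (i2_symm ⟨h.1, w1⟩) (i2_symm ⟨h'.1, w2⟩)
  obtain ⟨k, hk, e1, d, e2⟩ := A (x := x') (a := g y) ⟨h'.1, fun m => h.2 (by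
    obtain ⟨t, f⟩ := Submodule.mem_span_singleton.1 m
    exact Submodule.mem_span_singleton.2 ⟨t / c, g.injective (by rw [map_smul, e, smul_smul, div_mul_cancel₀ _ (sc_ne h.1 e), f])⟩)⟩ h'
  exact ⟨k * g, mul_mem hk hg, ⟨c, by simp [e, e1]⟩, d, e2⟩

theorem li3 {x y z : V} (h : I3 F x y z) : LinearIndependent F ![z, y, x] := by
  refine linearIndependent_fin_cons.2 ⟨linearIndependent_fin_cons.2 ⟨linearIndependent_unique_iff.2 h.1.1, by simpa using h.1.2⟩, ?_⟩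
  rw [Matrix.range_cons, Submodule.span_union, sup_comm]
  simpa using h.2

theorem sl_tri (hn : finrank F V = 3) {x y z x' y' z' : V} (h : I3 F x y z) (h' : I3 F x' y' z') :
    ∃ g ∈ SLG F V, g x = x' ∧ g y = y' ∧ ∃ c : F, g z = c • z' := by
  let b := basisOfLinearIndependentOfCardEqFinrank' _ (li3 h) (by simp [hn])
  let b' := basisOfLinearIndependentOfCardEqFinrank' _ (li3 h') (by simp [hn])
  let e := b.equiv b' (.refl _)
  have he : ∀ i, e (![z, y, x] i) = ![z', y', x'] i := fun i => by simpa [b, b'] using b.equiv_apply i b' (.refl _)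
  obtain ⟨θ, t1, t2⟩ := exists_dual_one h'.2
  have d0 : LinearMap.det (e : V →ₗ[F] V) ≠ 0 := e.isUnit_det'.ne_zero
  have u : 1 + θ (((LinearMap.det (e : V →ₗ[F] V))⁻¹ - 1) • z') = (LinearMap.det (e : V →ₗ[F] V))⁻¹ := by simp [t1]
  let δ := LinearEquiv.dilatransvection (u ▸ (inv_ne_zero d0).isUnit :)
  have hδ : ∀ v, δ v = v + θ v • (((LinearMap.det (e : V →ₗ[F] V))⁻¹ - 1) • z') := fun _ => rfl
  refine ⟨δ * e, mem_SLG.2 ?_, ?_, ?_, (LinearMap.det (e : V →ₗ[F] V))⁻¹, ?_⟩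
  · rw [show ((δ * e : V ≃ₗ[F] V) : V →ₗ[F] V) = LinearMap.transvection θ _ ∘ₗ e from rfl, LinearMap.det_comp, LinearMap.transvection.det, u,
      inv_mul_cancel₀ d0]
  · rw [LinearEquiv.mul_apply, show e x = x' from he 2, hδ, t2 _ (Submodule.mem_sup_left (m1 _))]; simp
  · rw [LinearEquiv.mul_apply, show e y = y' from he 1, hδ, t2 _ (Submodule.mem_sup_right (m1 _))]; simp
  · rw [LinearEquiv.mul_apply, show e z = z' from he 0, hδ, t1]; module

theorem i3_sub {P : Submodule F V} {x y z : P} : I3 F x y z ↔ I3 F x.1 y.1 z.1 := by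
  simp only [I3, I2, mem_span2, Submodule.mem_span_singleton, ne_eq, Subtype.ext_iff, Submodule.coe_add, Submodule.coe_smul, Submodule.coe_zero]

theorem mv (h : Tr2 G) (hZ : HasZ G) {x y z u : V} (i : I3 F x y z) (hu : u ∈ (F ∙ x) ⊔ (F ∙ y)) :
    ∃ g ∈ G, g x = x ∧ g z = z + u ∧ ∀ w ∈ (F ∙ x) ⊔ (F ∙ y), g w ∈ (F ∙ x) ⊔ (F ∙ y) := by
  have hn : 3 ≤ finrank F V := fr3 i ▸ Submodule.finrank_le _
  obtain ⟨S, le, ⟨Φ⟩⟩ := flag h hZ (by omega)
  obtain ⟨k, hk, ⟨a, e1⟩, b, e2⟩ := h _ _ _ _ i.1 (show I2 F (Φ.v 0) (Φ.v 1) from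
    ⟨fun e => Φ.nm (k := 0) (by omega) (e ▸ zero_mem _), Φ.U1 ▸ Φ.nm (by omega)⟩)
  have e := map_eq_of_le (U := (F ∙ x) ⊔ F ∙ y) (W := Φ.U 2) k (fun w m => by
    obtain ⟨c, d, rfl⟩ := mem_span2.1 m
    rw [map_add, map_smul, map_smul, e1, e2, smul_smul, smul_smul, Φ.U2]
    exact mem_span2.2 ⟨_, _, rfl⟩) (by rw [fr2 i.1, Φ.finrank_U (by omega)])
  have m : ∀ {w}, k w ∈ Φ.U 2 ↔ w ∈ (F ∙ x) ⊔ F ∙ y := by
    rw [← e]; exact ⟨fun ⟨_, a, b⟩ => k.injective b ▸ a, fun a => ⟨_, a, rfl⟩⟩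
  obtain ⟨s, hs, e3⟩ := Φ.move (mt m.1 i.2) (m.2 hu)
  exact ⟨k⁻¹ * s * k, mul_mem (mul_mem (inv_mem hk) (le hs)) hk, k.injective (by simp [e1, Φ.s0 hs]), k.injective (by simp [e3]),
    fun w hw => m.1 (by simpa using Φ.inv 2 s hs _ (m.2 hw))⟩

end KB

theorem Tr2.plane (h : Tr2 G) (hZ : HasZ G) {x y z x' y' z' : V} (h3 : I3 F x y z)
    (h3' : I3 F x' y' z') (hx : x' ∈ (F ∙ x) ⊔ (F ∙ y) ⊔ F ∙ z) (hy : y' ∈ (F ∙ x) ⊔ (F ∙ y) ⊔ F ∙ z)
    (hz : z' ∈ (F ∙ x) ⊔ (F ∙ y) ⊔ F ∙ z) :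
    ∃ g ∈ G, g x = x' ∧ g y = y' ∧ ∃ c : F, g z = c • z' := by
  have hn := fr3 h3
  have m1' : x ∈ (F ∙ x) ⊔ (F ∙ y) ⊔ F ∙ z := Submodule.mem_sup_left (Submodule.mem_sup_left (m1 x))
  have m2 : y ∈ (F ∙ x) ⊔ (F ∙ y) ⊔ F ∙ z := Submodule.mem_sup_left (Submodule.mem_sup_right (m1 y))
  have m3 : z ∈ (F ∙ x) ⊔ (F ∙ y) ⊔ F ∙ z := Submodule.mem_sup_right (m1 z)
  generalize (F ∙ x) ⊔ (F ∙ y) ⊔ (F ∙ z) = P at *
  have l := Tr2.ck3 (G := (stabRestrict G P).range) (tr2_of hn fun a b d u i m => by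
    have i' := i3_sub.1 i
    obtain ⟨r, t, rfl⟩ := mem_span2.1 m
    have m' : (r • a + t • b : V) ∈ (F ∙ a.1) ⊔ F ∙ b.1 := mem_span2.2 ⟨r, t, rfl⟩
    obtain ⟨g, hg, e1, e2, e3⟩ := mv h hZ i' m'
    have l : (F ∙ a.1) ⊔ (F ∙ b.1) ≤ P := sup_le (by simp) (by simp)
    have e := Submodule.eq_of_le_of_finrank_eq (sup_le l (by simp) : (F ∙ a.1) ⊔ (F ∙ b.1) ⊔ (F ∙ d.1) ≤ P) ((fr3 i').trans hn.symm)
    refine ⟨_, ⟨⟨⟨g, hg⟩, mem_stabSet_iff_le.2 fun w hw => ?_⟩, rfl⟩, Subtype.ext e1, Subtype.ext e2⟩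
    obtain ⟨c, f⟩ := mem_sup1.1 (e.ge hw)
    have := add_mem (l (e3 _ f)) (P.smul_mem c (add_mem d.2 (l m')))
    rwa [← e2, map_sub, map_smul, sub_add_cancel] at this)
    (fun c hc => let ⟨g, hg, e⟩ := hZ c hc
      ⟨_, ⟨⟨⟨g, hg⟩, mem_stabSet_iff_le.2 fun w hw => e w ▸ P.smul_mem c hw⟩, rfl⟩, fun v => Subtype.ext (e v)⟩) hn
  obtain ⟨g, hg, e1, e2, c, e3⟩ := sl_tri hn (x := ⟨x, m1'⟩) (y := ⟨y, m2⟩) (z := ⟨z, m3⟩) (x' := ⟨x', hx⟩) (y' := ⟨y', hy⟩) (z' := ⟨z', hz⟩)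
    (i3_sub.2 h3) (i3_sub.2 h3')
  obtain ⟨k, rfl⟩ := l hg
  exact ⟨k.1.1, k.1.2, congrArg Subtype.val e1, congrArg Subtype.val e2, c, congrArg Subtype.val e3⟩

theorem KB.lift_ex {x : V} (hx : x ≠ 0) (hK : SLG F (V ⧸ F ∙ x) ≤ (stabQuot G (F ∙ x)).range) {φ : Dual F V} {a : V} (h1 : φ x = 0) (h2 : φ a = 0) :
    ∃ ψ : Dual F V, ψ x = 0 ∧ ∃ g ∈ G, ∀ v, g v = v + φ v • a + ψ v • x := by
  letI := Fintype.ofFinite F
  let χ : Dual F (V ⧸ F ∙ x) := (F ∙ x).liftQ φ ((Submodule.span_singleton_le_iff_mem _ _).2 h1)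
  have c' : χ (Submodule.Quotient.mk (-a)) = 0 := show φ (-a) = 0 by simp [h2]
  obtain ⟨g, hg⟩ := hK (tvE_mem_SLG c')
  obtain ⟨c, e⟩ := Submodule.mem_span_singleton.1 (mem_stabSet_iff_le.1 g.2 x (m1 x))
  have e1 : ∀ v, g.1.1 v - (v - φ v • a) ∈ F ∙ x := fun v => (Submodule.Quotient.eq _).1 (by
    rw [sub_eq_add_neg, ← smul_neg]; exact LinearEquiv.congr_fun hg (Submodule.Quotient.mk v))
  have e2 : ∀ n : ℕ, (g.1.1 ^ n) x = c ^ n • x ∧ ∀ v, (g.1.1 ^ n) v - (v - (n * φ v) • a) ∈ F ∙ x := fun n => by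
    induction n with
    | zero => simp
    | succ n i =>
      refine ⟨by rw [pow_succ', LinearEquiv.mul_apply, i.1, map_smul, ← e, smul_smul, pow_succ], fun v => ?_⟩
      convert add_mem (mem_stabSet_iff_le.1 g.2 _ (i.2 v)) (e1 (v - (n * φ v) • a)) using 1
      simp [pow_succ', h2]; module
  obtain ⟨e3, e4⟩ := e2 (Fintype.card F - 1)
  rw [FiniteField.pow_card_sub_one_eq_one c (sc_ne hx e.symm), one_smul] at e3
  rw [Nat.cast_sub Fintype.card_pos, FiniteField.cast_card_eq_zero] at e4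
  obtain ⟨θ, hθ⟩ := dual1 (F := F) hx
  refine ⟨θ ∘ₗ ((g.1.1 ^ (Fintype.card F - 1) : V ≃ₗ[F] V) - LinearMap.transvection φ a), by simp [e3, LinearMap.transvection.apply, h1],
    _, pow_mem g.1.2 (Fintype.card F - 1), fun v => ?_⟩
  obtain ⟨d, f⟩ := Submodule.mem_span_singleton.1 (e4 v)
  replace f : d • x = (g.1.1 ^ (Fintype.card F - 1)) v - (v + φ v • a) := by rw [f]; module
  show _ = _ + θ (_ - (v + φ v • a)) • x
  rw [LinearEquiv.coe_coe, ← f, map_smul, hθ, smul_eq_mul, mul_one, f, add_sub_cancel]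

theorem Tr2.lift (hq : 3 ≤ Nat.card F) (h : Tr2 G) (hZ : HasZ G) (hn : 4 ≤ finrank F V) {x : V}
    (hx : x ≠ 0) (hK : SLG F (V ⧸ F ∙ x) ≤ (stabQuot G (F ∙ x)).range) : SLG F V ≤ G := by
  by_contra hG
  obtain ⟨a, ha⟩ := exists_I2 (F := F) (by omega) hx
  obtain ⟨b, hb⟩ := exists_notMem (U := (F ∙ x) ⊔ F ∙ a) (by rw [fr2 ha]; omega)
  obtain ⟨d, hd⟩ := exists_notMem (U := (F ∙ x) ⊔ (F ∙ a) ⊔ F ∙ b) (by rw [fr3 ⟨ha, hb⟩]; omega)
  obtain ⟨f, f1, f2⟩ := exists_dual_one (notMem_sup_singleton_comm hb hd)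
  obtain ⟨φ, p1, p2⟩ := exists_dual_one hd
  have fx := f2 x (Submodule.mem_sup_left (Submodule.mem_sup_left (m1 x)))
  have fa := f2 a (Submodule.mem_sup_left (Submodule.mem_sup_right (m1 a)))
  have fd := f2 d (Submodule.mem_sup_right (m1 d))
  have px := p2 x (Submodule.mem_sup_left (Submodule.mem_sup_left (m1 x)))
  have pa := p2 a (Submodule.mem_sup_left (Submodule.mem_sup_right (m1 a)))
  have pb := p2 b (Submodule.mem_sup_right (m1 b))
  choose α αx g hg eg using fun t : F => lift_ex hx hK fx (a := t • a) (by simp [fa])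
  choose β βx k hk ek using fun t : F => lift_ex hx hK px (a := t • b) (by simp [pb])
  choose γ γx l hl el using fun t : F => lift_ex hx hK px (a := t • a) (by simp [pa])
  have R : ∀ t s v, s * φ v * α t b = t * f v * β s a + γ (t * s) v + s * φ v * γ (t * s) b + t * f v * γ (t * s) a := fun t s v => by
    have e : ∀ v, (g t * k s) v = (l (t * s) * k s * g t) v +
        (s * φ v * α t b - (t * f v * β s a + γ (t * s) v + s * φ v * γ (t * s) b + t * f v * γ (t * s) a)) • x := fun v => by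
      simp only [LinearEquiv.mul_apply, eg, ek, el, map_add, map_smul, fx, fa, f1, px, pa, pb, αx, βx, γx, smul_eq_mul]
      module
    have ex : (l (t * s) * k s * g t)⁻¹ x = x := (l (t * s) * k s * g t).injective (by
      rw [apply_inv_apply]; simp [eg, ek, el, fx, px, αx, βx, γx])
    have e1 : ∀ v, ((l (t * s) * k s * g t)⁻¹ * (g t * k s)) v = v +
        (s * φ v * α t b - (t * f v * β s a + γ (t * s) v + s * φ v * γ (t * s) b + t * f v * γ (t * s) a)) • x := fun v => by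
      rw [LinearEquiv.mul_apply, e, map_add, map_smul, ex, inv_apply_apply]
    by_contra n
    exact hG (sl_of_cen h hZ (by omega) (mul_mem (inv_mem (mul_mem (mul_mem (hl (t * s)) (hk s)) (hg t))) (mul_mem (hg t) (hk s))) hx
      (by rw [e1]; simp [fx, px, γx]) (fun v => by rw [e1, add_sub_cancel_left]; exact Submodule.smul_mem _ _ (m1 x)) fun e => n (by
        have := e1 v
        rw [e] at this
        simpa [hx, sub_eq_zero] using this))
  obtain ⟨r, r0, r1⟩ : ∃ l : F, l ≠ 0 ∧ l ≠ 1 := by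
    by_contra! f
    have := Nat.card_le_card_of_surjective (fun b : Bool => if b then (0 : F) else 1) fun l =>
      (em (l = 0)).elim (fun e => ⟨true, e.symm⟩) fun e => ⟨false, (f l e).symm⟩
    simp at this; omega
  have Ra : ∀ t, γ t a = 0 := fun t => by simpa [pa, fa] using (R t 1 a).symm
  have Rb : ∀ t, γ t b = -(t * β 1 a) := fun t => by
    have := R t 1 b
    simp only [pb, f1, Ra, mul_one] at this
    linear_combination -this
  have k0 : β 1 a = 0 := by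
    have e1 := R r r d
    have e2 := R 1 r d
    have e3 := R r 1 d
    have e4 := R 1 (r * r) d
    simp only [p1, fd, Rb, Ra, mul_one, one_mul] at e1 e2 e3 e4
    exact mul_left_cancel₀ (mul_ne_zero (pow_ne_zero 2 r0) (pow_ne_zero 2 (sub_ne_zero.2 r1))) (by linear_combination e4 - e1 + r * e3 - r * e2)
  refine hG (h.sl_of_tv hZ (by omega) (hl 1) (ne0 p1) (y := a + γ 1 d • x) (fun e => ha.2 ?_) (by simp [pa, px]) fun v => ?_)
  · rw [eq_neg_of_add_eq_zero_left e]; exact neg_mem (Submodule.smul_mem _ _ (m1 x))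
  have := R 1 1 (v - φ v • d)
  simp only [map_sub, map_smul, p1, Rb, Ra, k0, mul_one, smul_eq_mul] at this
  rw [el, show γ 1 v = φ v * γ 1 d by linear_combination -this]; module

end CF.Sing
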