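import Cfsg.Agent.Sing.KS1

/-! Quotient flags, the pentagon graph and a Frattini argument. -/

set_option autoImplicit false
set_option linter.unusedSectionVars false

namespace CF.Sing

open Module CF.Geom Submodule KN

variable {F V : Type*} [Field F] [AddCommGroup V] [Module F V] [Finite F] [Finite V] {G S : Subgroup (V ≃ₗ[F] V)}

/-- the flag induced on `V ⧸ ⟨v 0⟩` -/
theorem Flag.quot (Φ : Flag S) : ∃ (S' : Subgroup ((V ⧸ F ∙ Φ.v 0) ≃ₗ[F] (V ⧸ F ∙ Φ.v 0)))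
    (Ψ : Flag S'), (∀ s' ∈ S', ∃ s ∈ S, ∀ v, s' (Submodule.Quotient.mk v) =
      Submodule.Quotient.mk (s v)) ∧ (∀ k, Ψ.v k = Submodule.Quotient.mk (Φ.v (k + 1))) ∧
      ∀ k, Ψ.U k = (Φ.U (k + 1)).map (F ∙ Φ.v 0).mkQ := by
  have t : ∀ {k}, (Φ.U k).map (F ∙ Φ.v 0).mkQ ≠ ⊤ → Φ.U k ≠ ⊤ := fun h e => h (by rw [e, Submodule.map_top, range_mkQ])
  refine ⟨(stabQuot S (F ∙ Φ.v 0)).range, ⟨fun k => Submodule.Quotient.mk (Φ.v (k + 1)), fun k => (Φ.U (k + 1)).map (F ∙ Φ.v 0).mkQ,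
    by rw [zero_add, Φ.U1, mkQ_map_self], fun k => by rw [Φ.succ, Submodule.map_sup]; simp [map_span],
    fun k h => by rw [mem_mk (Φ.v_mem k.succ_pos)]; exact Φ.nm' _ (t h), ?_, ?_, ?_⟩, ?_, fun _ => rfl, fun _ => rfl⟩
  · rintro k _ ⟨s, rfl⟩ _ ⟨u, m, rfl⟩; exact ⟨_, Φ.inv _ _ s.1.2 u m, rfl⟩
  · rintro k _ ⟨s, rfl⟩; exact ⟨_, Φ.mov _ _ s.1.2, rfl⟩
  · rintro k h _ ⟨u, m, rfl⟩
    obtain ⟨s, a, b⟩ := Φ.lay _ (t h) u m
    exact ⟨_, ⟨⟨_, mem_stab a (by rw [Φ.s0 a]; exact ms _)⟩, rfl⟩, by simp [b]⟩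
  · rintro _ ⟨s, rfl⟩; exact ⟨_, s.1.2, fun _ => rfl⟩

theorem no_pent {α : Type*} [Finite α] {q : ℕ} (hq : 3 ≤ q) (A : Set α) (hA : A.ncard + 1 = q ^ 5)
    (c e : α → α → Prop) (cs : ∀ a b, c a b → c b a) (es : ∀ a b, e a b → e b a)
    (er : ∀ a ∈ A, e a a) (ec : ∀ a ∈ A, ∀ b ∈ A, e a b → c a b)
    (h1 : ∀ a ∈ A, {b | b ∈ A ∧ e a b}.ncard + 1 = q)
    (h2 : ∀ a ∈ A, ∀ b ∈ A, ∀ d ∈ A, e a b → (c a d ↔ c b d) ∧ (e a d ↔ e b d))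
    (h3 : ∀ a ∈ A, ∀ b ∈ A, e a b → {d | d ∈ A ∧ c a d ∧ c b d}.ncard + 1 = q ^ 3)
    (h4 : ∀ a ∈ A, ∀ b ∈ A, ¬ e a b → c a b → {d | d ∈ A ∧ c a d ∧ c b d}.ncard + 1 = q ^ 2)
    (h5 : ∀ a ∈ A, ∀ b ∈ A, ¬ c a b → {d | d ∈ A ∧ c a d ∧ c b d}.ncard + 1 = q) : False := by
  classical
  have := Fintype.ofFinite A
  obtain ⟨M, hM⟩ : ∃ M : (α → α → Prop) → Matrix A A ℝ, ∀ r a b, M r a b = if r a b then 1 else 0 :=
    ⟨fun r => .of fun a b => if r a b then 1 else 0, fun _ _ _ => rfl⟩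
  have mul : ∀ r s : α → α → Prop, (∀ a b, s a b → s b a) → ∀ a b : A,
      (M r * M s) a b = {d | d ∈ A ∧ r a d ∧ s b d}.ncard := fun r s h a b => by
    rw [show {d | d ∈ A ∧ r a d ∧ s b d} = Subtype.val '' ((Finset.univ.filter fun d : A => s d b ∧ r a d : Finset A) : Set A) from
      Set.ext fun d => ⟨fun k => ⟨⟨d, k.1⟩, by simp [k.2.1, h _ _ k.2.2], rfl⟩, fun ⟨d, k, o⟩ =>
        o ▸ ⟨d.2, (Finset.mem_filter.1 k).2.2, h _ _ (Finset.mem_filter.1 k).2.1⟩⟩,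
      Set.ncard_image_of_injective _ Subtype.val_injective, Set.ncard_coe_finset, Matrix.mul_apply]
    simp [hM, ← ite_and]
  have cast : ∀ {m n : ℕ}, m + 1 = n → (m : ℝ) = n - 1 := fun h => by rw [← h]; simp
  let j : α → α → Prop := fun _ _ => True
  have CC : M c * M c = (q - 1 : ℝ) • M j + (q ^ 2 - q : ℝ) • M c + (q ^ 3 - q ^ 2 : ℝ) • M e := by
    ext a b
    rw [mul c c cs]
    by_cases x : e a b
    · rw [cast (h3 _ a.2 _ b.2 x)]; simp [hM, j, x, ec _ a.2 _ b.2 x]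
    by_cases y : c a b
    · rw [cast (h4 _ a.2 _ b.2 x y)]; simp [hM, j, x, y]
    · rw [cast (h5 _ a.2 _ b.2 y)]; simp [hM, j, x, y]
  have XE : ∀ r : α → α → Prop, (∀ a ∈ A, ∀ b ∈ A, ∀ d ∈ A, e b d → (r a d ↔ r a b)) → M r * M e = (q - 1 : ℝ) • M r := fun r h => by
    ext a b
    rw [mul r e es]
    by_cases x : r a b
    · rw [show {d | d ∈ A ∧ r a d ∧ e b d} = {d | d ∈ A ∧ e b d} from Set.ext fun d =>
        ⟨fun k => ⟨k.1, k.2.2⟩, fun k => ⟨k.1, (h _ a.2 _ b.2 _ k.1 k.2).2 x, k.2⟩⟩, cast (h1 _ b.2)]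
      simp [hM, x]
    · rw [show {d | d ∈ A ∧ r a d ∧ e b d} = ∅ from Set.eq_empty_of_forall_notMem fun d k =>
        x ((h _ a.2 _ b.2 _ k.1 k.2.2).1 k.2.1)]
      simp [hM, x]
  have sy : ∀ {r : α → α → Prop}, (∀ a b, r a b → r b a) → ∀ {a b}, r a b ↔ r b a := fun h => ⟨h _ _, h _ _⟩
  have CE := XE c fun a ha b hb d hd k => by rw [sy cs, sy cs (a := a), (h2 _ hb _ hd _ ha k).1]
  have EE := XE e fun a ha b hb d hd k => by rw [sy es, sy es (a := a), (h2 _ hb _ hd _ ha k).2]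
  have JE := XE j fun _ _ _ _ _ _ _ => .rfl
  have JC : M j * M c = (q ^ 3 - 1 : ℝ) • M j := by
    ext a b
    rw [mul j c cs]
    simpa [hM, j] using cast (h3 _ b.2 _ b.2 (er _ b.2))
  have JJ : M j * M j = (q ^ 5 - 1 : ℝ) • M j := by
    ext a b
    rw [mul j j fun _ _ => id]
    simpa [hM, j] using cast hA
  have tr : ∀ {r : α → α → Prop}, (∀ a b, r a b → r b a) → (M r).transpose = M r := fun h => by
    ext a b; simp only [hM, Matrix.transpose_apply, sy h (a := b.1)]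
  have EC := congrArg Matrix.transpose CE
  have EJ := congrArg Matrix.transpose JE
  have CJ := congrArg Matrix.transpose JC
  simp only [Matrix.transpose_mul, Matrix.transpose_smul, tr cs, tr es, tr (r := j) fun _ _ => id] at EC EJ CJ
  have tc : ∀ r : α → α → Prop, (∀ a ∈ A, r a a) → (M r).trace = q ^ 5 - 1 := fun r h => by
    rw [Matrix.trace, Finset.sum_congr rfl fun a _ => ((M r).diag_apply a).trans ((hM r a a).trans (if_pos (h a a.2)))]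
    simpa [← Nat.card_eq_fintype_card] using cast hA
  have i5 := Nat.prime_five.irrational_sqrt
  have s5 : √(5 : ℕ) ^ 2 = 5 := by simp
  generalize √(5 : ℕ) = s at i5 s5
  have s0 := i5.ne_zero
  have q3 : (3 : ℝ) ≤ q := by exact_mod_cast hq
  have q1 : (q : ℝ) - 1 ≠ 0 := by linarith
  have q5 : (q : ℝ) ^ 1 < q ^ 5 := pow_lt_pow_right₀ (by linarith) (by omega)
  have q6 : (q : ℝ) ^ 5 - 1 ≠ 0 := by linarith
  have q0 : (q : ℝ) ≠ 0 := by linarith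
  have hP : IsIdempotentElem (Matrix.toLin' ((2 * q * (q - 1) * s * (q ^ 5 - 1))⁻¹ • ((2 * (q ^ 5 - 1) : ℝ) • M c +
      (q * (q ^ 5 - 1) * (s - 1)) • M e - ((q - 1) * (2 * q ^ 2 + q + 2 + q * s)) • M j))) := by
    rw [IsIdempotentElem, Module.End.mul_eq_comp, ← Matrix.toLin'_mul]
    congr 1
    simp only [add_mul (R := Matrix A A ℝ), mul_add (R := Matrix A A ℝ), sub_mul (α := Matrix A A ℝ), mul_sub (α := Matrix A A ℝ),
      smul_mul_assoc, mul_smul_comm, CC, CE, EE, JE, JC, JJ, EC, EJ, CJ]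
    match_scalars <;> field_simp <;> grind
  obtain ⟨r, this⟩ : ∃ r : ℕ, _ = (r : ℝ) := ⟨_, (LinearMap.IsIdempotentElem.isProj_range _ hP).trace⟩
  rw [Matrix.trace_toLin'_eq, Matrix.trace_smul, Matrix.trace_sub, Matrix.trace_add, Matrix.trace_smul, Matrix.trace_smul,
    Matrix.trace_smul, tc c fun a h => ec a h a h (er a h), tc e er, tc j fun _ _ => trivial] at this
  simp only [smul_eq_mul] at this
  field_simp at this
  have k : s * (q * (q ^ 5 - 1) - q * (q - 1) - 2 * q * (q - 1) * r : ℤ) = ((q - 2) * (q ^ 5 - 1) + (q - 1) * (2 * q ^ 2 + q + 2) : ℤ) := by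
    push_cast; linear_combination this
  refine (i5.mul_intCast fun o => ?_).ne_int _ k
  rw [o] at k
  push_cast at k
  nlinarith [mul_pos (show 0 < (q : ℝ) - 2 by linarith) (show 0 < (q : ℝ) ^ 5 - 1 by linarith),
    mul_pos (show 0 < (q : ℝ) - 1 by linarith) (show 0 < 2 * (q : ℝ) ^ 2 + q + 2 by positivity)]

/-- Frattini: a `p'`-element normalising `S`, homology on `U D / U 1` with centre `U 2 / U 1` -/
theorem exists_homology (p : ℕ) [Fact p.Prime] [CharP F p] (P : Sylow p G)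
    (Φ : Flag ((P : Subgroup G).map G.subtype)) {D : ℕ} {g : V ≃ₗ[F] V} (hg : g ∈ G)
    (g1 : ∀ u ∈ Φ.U 1, g u ∈ Φ.U 1) (g2 : ∀ u ∈ Φ.U D, g u - u ∈ Φ.U 2) (hD : 2 ≤ D)
    (g3 : g (Φ.v 1) - Φ.v 1 ∉ Φ.U 1) :
    ∃ h ∈ G, (∀ k, ∀ u ∈ Φ.U k, h u ∈ Φ.U k) ∧ (∀ u ∈ Φ.U D, h u - u ∈ Φ.U 2) ∧
      h (Φ.v 1) - Φ.v 1 ∉ Φ.U 1 ∧ (orderOf h).Coprime (Nat.card F) := by
  have hS : ∀ s : P, s.1.1 ∈ (P : Subgroup G).map G.subtype := fun s => ⟨s, s.2, rfl⟩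
  let R (k : G) (s : P) := ∀ b ∈ Φ.U D, k.1 b - s.1.1 b ∈ Φ.U 2
  have mul : ∀ {k k' : G} {s s'}, (∀ u ∈ Φ.U 2, k.1 u ∈ Φ.U 2) → R k s → R k' s' → R (k * k') (s * s') :=
    fun {k k' s s'} a b c u m => by simpa using add_mem (a _ (c u m)) (b _ (Φ.inv D _ (hS s') u m))
  let M : Submonoid G :=
    { carrier := {k | (∀ u ∈ Φ.U 1, k.1 u ∈ Φ.U 1) ∧ (∀ u ∈ Φ.U 2, k.1 u ∈ Φ.U 2) ∧ ∃ s, R k s}
      one_mem' := ⟨fun _ => id, fun _ => id, 1, fun _ _ => by simp⟩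
      mul_mem' := fun ⟨a, b, _, c⟩ ⟨d, e, _, f⟩ => ⟨fun u m => a _ (d u m), fun u m => b _ (e u m), _, mul b c f⟩ }
  let H : Subgroup G := ⟨M, fun {k} m => by
    rw [← zpow_neg_one, ← zpow_mod_orderOf, ← Int.toNat_of_nonneg (Int.emod_nonneg _ (by simpa using (orderOf_pos k).ne')),
      zpow_natCast]
    exact pow_mem (S := M) m _⟩
  have v2 := Φ.v_mem one_lt_two
  obtain ⟨ξ, x1, x0⟩ := exists_dual_one (W := Φ.U 1) (v := Φ.v 1) fun m => g3 (sub_mem (g1 _ m) m)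
  have cx : ∀ u ∈ Φ.U 2, u - ξ u • Φ.v 1 ∈ Φ.U 1 := fun u m => by
    obtain ⟨c, e⟩ := mem_sup1.1 ((Φ.succ 1).le m)
    have := x0 _ e
    rw [map_sub, map_smul, x1, smul_eq_mul, mul_one, sub_eq_zero] at this
    rwa [this]
  let χ : H →* F := ⟨⟨fun k => ξ (k.1.1 (Φ.v 1)), x1⟩, fun k l => by
    simpa [sub_eq_zero, mul_comm] using x0 _ (k.2.1 _ (cx _ (l.2.2.1 _ v2)))⟩
  have iff : ∀ k : H, χ k = 1 ↔ k.1.1 (Φ.v 1) - Φ.v 1 ∈ Φ.U 1 := fun k =>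
    ⟨fun e => by simpa [show ξ _ = 1 from e] using cx _ (k.2.2.1 _ v2), fun m => show ξ _ = 1 by simpa [x1, sub_eq_zero] using x0 _ m⟩
  have le : (P : Subgroup G) ≤ H := fun s m => ⟨Φ.inv _ _ (hS ⟨s, m⟩), Φ.inv _ _ (hS ⟨s, m⟩), ⟨s, m⟩, fun _ _ => by simp⟩
  have fr := (P.subtype le).normalizer_sup_eq_top' (N := χ.ker) fun s m => (iff s).2 (Φ.mov 1 _ (hS ⟨s, m⟩))
  obtain ⟨n, n1, n2⟩ : ∃ n ∈ Subgroup.normalizer (P.subtype le : Set H), n ∉ χ.ker := by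
    by_contra! o
    exact g3 ((iff ⟨⟨g, hg⟩, g1, fun u m => by simpa using add_mem (g2 u (Φ.mono hD m)) m, 1, g2⟩).1
      ((fr.ge.trans (sup_le o le_rfl)) trivial))
  have hn : ∀ k, ∀ u ∈ Φ.U k, n.1.1 u ∈ Φ.U k := fun k u m => by
    have := Φ.eq_U (W := (Φ.U k).map (n.1.1 : V →ₗ[F] V)) (by
      rintro _ ⟨s, a, rfl⟩ _ ⟨u, b, rfl⟩
      have := (Subgroup.mem_normalizer_iff''.1 n1 ⟨s, le a⟩).1 a
      exact ⟨_, Φ.inv k _ (hS ⟨_, this⟩) u b, by simp⟩)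
    rw [LinearEquiv.finrank_map_eq, ← Φ.eq_U (Φ.inv k)] at this
    exact this.le ⟨u, m, rfl⟩
  obtain ⟨a, m, m1, m2⟩ := Nat.exists_eq_pow_mul_and_not_dvd (orderOf_pos n).ne' p (Fact.out : p.Prime).ne_one
  obtain ⟨b, hb⟩ := P.isPGroup'.exists_card_eq
  obtain ⟨s, hs⟩ := n.2.2.2
  have pw : ∀ i : ℕ, (∀ k, ∀ u ∈ Φ.U k, (n ^ i).1.1 u ∈ Φ.U k) ∧ R (n ^ i).1 (s ^ i) := fun i => by
    induction i with
    | zero => exact ⟨fun _ _ => id, fun _ _ => by simp⟩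
    | succ i ih => rw [pow_succ', pow_succ']; exact ⟨fun k u m => hn k _ (ih.1 k u m), mul n.2.2.1 hs ih.2⟩
  refine ⟨(n ^ p ^ (a + b)).1.1, (n ^ _).1.2, (pw _).1, ?_, fun o => n2 ?_, ?_⟩
  · have := (pw (p ^ (a + b))).2
    rwa [show s ^ p ^ (a + b) = 1 by
      rw [pow_add, mul_comm, pow_mul s, ← hb, pow_card_eq_one' (G := (P : Subgroup G)), one_pow]] at this
  · have := (iff _).2 o
    rw [map_pow, ← sub_eq_zero, ← one_pow (p ^ (a + b)), ← sub_pow_char_pow] at this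
    exact sub_eq_zero.1 (pow_eq_zero_iff (by simp [(Fact.out : p.Prime).ne_zero]) |>.1 this)
  · have := Fintype.ofFinite F
    obtain ⟨f, -, e⟩ := FiniteField.card F p
    rw [Subgroup.orderOf_coe, Subgroup.orderOf_coe, Nat.card_eq_fintype_card, e]
    refine .pow_right _ (.coprime_dvd_left (orderOf_dvd_of_pow_eq_one ?_) (((Fact.out : p.Prime).coprime_iff_not_dvd.2 m1).symm))
    rw [← pow_mul, pow_add, mul_right_comm, ← m2, pow_mul, pow_orderOf_eq_one, one_pow]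

end CF.Sing
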