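import Cfsg.Agent.Sing.KB2
import Cfsg.Agent.Sing.KS2

/-! Special planes of a linear group 2-transitive on points. -/

set_option autoImplicit false
set_option linter.unusedSectionVars false

namespace CF.Sing.KN

open Module CF.Geom Submodule

variable {F V : Type*} [Field F] [AddCommGroup V] [Module F V] [Finite F] [Finite V] {x y z w u t x' y' z' : V}
  {L K : Submodule F V} {k : ℕ} {g s : V ≃ₗ[F] V}

local notation "𝐪" => Nat.card F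
local notation "𝐋" x:max y:max => (F ∙ x) ⊔ (F ∙ y)
local notation "𝐏" x:max y:max z:max => (F ∙ x) ⊔ (F ∙ y) ⊔ (F ∙ z)

structure Ctx (G : Subgroup (V ≃ₗ[F] V)) where
  S : Subgroup (V ≃ₗ[F] V)
  le : S ≤ G
  Φ : Flag S
  tr : Tr2 G
  hZ : HasZ G
  hn : 3 ≤ finrank F V
  hq : 3 ≤ 𝐪
  hom : ∀ {D : ℕ} {g}, g ∈ G → (∀ u ∈ Φ.U 1, g u ∈ Φ.U 1) → (∀ u ∈ Φ.U D, g u - u ∈ Φ.U 2) → 2 ≤ D →
    g (Φ.v 1) - Φ.v 1 ∉ Φ.U 1 → ∃ h ∈ G, (∀ k, ∀ u ∈ Φ.U k, h u ∈ Φ.U k) ∧ (∀ u ∈ Φ.U D, h u - u ∈ Φ.U 2) ∧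
      h (Φ.v 1) - Φ.v 1 ∉ Φ.U 1 ∧ (orderOf h).Coprime 𝐪

theorem exists_ctx {G : Subgroup (V ≃ₗ[F] V)} (h : Tr2 G) (hZ : HasZ G) (hn : 3 ≤ finrank F V) (hq : 3 ≤ 𝐪) :
    Nonempty (Ctx G) := by
  obtain ⟨p, _⟩ := CharP.exists F
  have := Fact.mk (CharP.char_is_prime F p)
  obtain ⟨P⟩ := (inferInstance : Nonempty (Sylow p G))
  obtain ⟨Φ⟩ := h.exists_flag hZ (by omega) p P
  exact ⟨⟨_, Subgroup.map_subtype_le _, Φ, h, hZ, hn, hq, fun a b c d e => exists_homology p P Φ a b c d e⟩⟩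

namespace Ctx
variable {G : Subgroup (V ≃ₗ[F] V)} (C : Ctx G)

abbrev v (k : ℕ) : V := C.Φ.v k
abbrev U (k : ℕ) : Submodule F V := C.Φ.U k

theorem U2 : 𝐋 (C.v 0) (C.v 1) = C.U 2 := C.Φ.U2.symm
theorem U3 : 𝐏 (C.v 0) (C.v 1) (C.v 2) = C.U 3 := by rw [C.U2, U, U, C.Φ.succ 2]
theorem fU (hk : k ≤ 3) : finrank F (C.U k) = k := C.Φ.finrank_U (hk.trans C.hn)
theorem i2 : I2 F (C.v 0) (C.v 1) := i2_iff.2 (C.U2 ▸ C.fU (by omega))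
theorem U_map (hs : s ∈ C.S) (k : ℕ) : (C.U k).map (s : V →ₗ[F] V) = C.U k :=
  eq_of_le_of_finrank_eq (map_le_iff_le_comap.2 (C.Φ.inv k s hs)) (LinearEquiv.finrank_map_eq ..)

/-- colour classes of planes -/
def Cl (k : ℕ) (L : Submodule F V) : Prop :=
  finrank F L = 3 ∧ ∃ g ∈ G, L = (𝐏 (C.v 0) (C.v 1) (C.v k)).map (g : V →ₗ[F] V)

def Col (k : ℕ) (x y z : V) : Prop := C.Cl k (𝐏 x y z)

variable {C}

theorem Col.i3 (h : C.Col k x y z) : I3 F x y z := i3_iff.2 h.1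
theorem Col.cg (h : C.Col k x y z) (e : 𝐏 x y z = 𝐏 x' y' z') : C.Col k x' y' z' := by rwa [Col, ← e]
theorem Col.p12 (h : C.Col k x y z) : C.Col k y x z := h.cg (KN.p12 ..)
theorem Col.p23 (h : C.Col k x y z) : C.Col k x z y := h.cg (KN.p23 ..)
theorem Col.of (h : C.Col k x y z) (m : w ∈ 𝐏 x y z) (n : w ∉ 𝐋 x y) : C.Col k x y w := h.cg (exch m n).symm

theorem Col.map (h : C.Col k x y z) (hg : g ∈ G) : C.Col k (g x) (g y) (g z) :=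
  let ⟨_, a, b, e⟩ := h; ⟨i3_iff.1 (i3_map.2 h.i3), g * a, mul_mem hg b, by rw [mp3, e, ← map_comp]; rfl⟩

theorem col_map (hg : g ∈ G) : C.Col k (g x) (g y) (g z) ↔ C.Col k x y z :=
  ⟨fun h => by simpa using h.map (inv_mem hg), fun h => h.map hg⟩

theorem col_base (h2 : 2 ≤ k) (hk : k < finrank F V) : C.Col k (C.v 0) (C.v 1) (C.v k) :=
  ⟨i3_iff.1 ⟨C.i2, by rw [C.U2, C.Φ.v_mem_iff hk]; omega⟩, 1, one_mem _, (map_id _).symm⟩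

theorem col2 : C.Col 2 (C.v 0) (C.v 1) (C.v 2) := col_base le_rfl C.hn

theorem Col.norm (h : C.Col k x y z) : ∃ g ∈ G, g (C.v 0) = x ∧ g (C.v 1) = y ∧ ∃ c : F, c ≠ 0 ∧ g (c • C.v k) = z := by
  obtain ⟨f, a, b, e⟩ := h
  rw [← mp3] at e
  have i := i3_iff.2 (e ▸ f)
  obtain ⟨g, m, e1, e2, c, e3⟩ := C.tr.plane C.hZ i (i3_iff.2 f) (e.le (mem_sup_left l1)) (e.le (mem_sup_left l2))
    (e.le (mem_sup_right (ms z)))
  have c0 : c ≠ 0 := fun o => i.2 (by rw [g.map_eq_zero_iff.1 (e3.trans (by rw [o, zero_smul]))]; exact zero_mem _)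
  exact ⟨g * a, mul_mem m b, e1, e2, c⁻¹, inv_ne_zero c0, by simp [e3, c0]⟩

theorem Col.smap (h : C.Col k (C.v 0) (C.v 1) z) (hs : s ∈ C.S) : C.Col k (C.v 0) (C.v 1) (s z) :=
  (h.map (C.le hs)).cg (by rw [mp2, C.U2, C.U_map hs])

theorem Col.smul (h : C.Col k x y z) {c : F} (hc : c ≠ 0) : C.Col k x y (c • z) :=
  h.cg (by rw [span_singleton_smul_eq (IsUnit.mk0 c hc)])

variable (C) in
theorem tr' (h : I2 F x y) : ∃ g ∈ G, g (C.v 0) = x ∧ g (C.v 1) = y := by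
  obtain ⟨g, m, ⟨a, e⟩, b, f⟩ := C.tr _ _ _ _ C.i2 h
  have i := (col2 (C := C)).map m
  have a0 : a ≠ 0 := fun o => i.i3.1.1 (by simp [e, o])
  have b0 : b ≠ 0 := fun o => i.i3.1.2 (by simp [f, o])
  obtain ⟨k, n, e1, e2, -⟩ := (i.cg (x' := x) (y' := y) (z' := g (C.v 2)) (by
    rw [e, f, span_singleton_smul_eq (IsUnit.mk0 a a0), span_singleton_smul_eq (IsUnit.mk0 b b0)])).norm
  exact ⟨k, n, e1, e2⟩

variable (C) in
/-- union of the special planes on a line -/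
def N (x y : V) : Submodule F V where
  carrier := {z | finrank F ↥(𝐏 x y z) = 3 → C.Col 2 x y z}
  zero_mem' h := absurd (zero_mem _) (i3_iff.2 h).2
  smul_mem' a z h i := (h (i3_iff.1 ⟨(i3_iff.2 i).1, fun m => (i3_iff.2 i).2 (smul_mem _ a m)⟩)).smul fun e =>
    (i3_iff.2 i).2 (by simp [e])
  add_mem' {z w} h h' i := by
    have i := i3_iff.2 i
    by_cases a : z ∈ 𝐋 x y
    · exact (h' (i3_iff.1 ⟨i.1, fun m => i.2 (add_mem a m)⟩)).of (add_mem (mem_sup_left a) (mem_sup_right (ms w))) i.2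
    have h := h (i3_iff.1 ⟨i.1, a⟩)
    by_cases b : w ∈ 𝐏 x y z
    · exact h.of (add_mem (mem_sup_right (ms z)) b) i.2
    have h' := h' (i3_iff.1 ⟨i.1, fun m => b (mem_sup_left m)⟩)
    obtain ⟨g, hg, rfl, rfl, c, c0, rfl⟩ := h.norm
    obtain ⟨w, rfl⟩ := g.surjective w
    rw [mp3, mem_mp, span_singleton_smul_eq (IsUnit.mk0 c c0), C.U3] at b
    obtain ⟨s, hs, e⟩ := C.Φ.move b (smul_mem _ c (C.Φ.v_mem (show 2 < 3 by omega)))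
    rw [← map_add, col_map hg, add_comm, ← e]
    exact ((col_map hg).1 h').smap hs

theorem mem_N : z ∈ C.N x y ↔ (I3 F x y z → C.Col 2 x y z) := i3_iff.symm.imp .rfl
theorem Col.mem (h : C.Col 2 x y z) : z ∈ C.N x y := fun _ => h
theorem N_cg (e : 𝐋 x y = 𝐋 x' y') : C.N x y = C.N x' y' := Submodule.ext fun z => by
  change (_ → C.Cl 2 _) ↔ (_ → C.Cl 2 _); rw [e]
theorem N_comm (x y : V) : C.N x y = C.N y x := N_cg (sup_comm ..)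
theorem mem_comm : z ∈ C.N x y ↔ y ∈ C.N x z := by change (_ → C.Cl 2 _) ↔ (_ → C.Cl 2 _); rw [p23]
theorem l_le : 𝐋 x y ≤ C.N x y := fun _ m => mem_N.2 fun i => absurd m i.2
theorem lm : x ∈ C.N x y := l_le l1
theorem rm : y ∈ C.N x y := l_le l2
theorem Col.le (h : C.Col 2 x y z) : 𝐏 x y z ≤ C.N x y := sup_le l_le (by simpa using h.mem)
theorem map_N (hg : g ∈ G) : g z ∈ C.N (g x) (g y) ↔ z ∈ C.N x y := by rw [mem_N, mem_N, i3_map, col_map hg]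
theorem N_map (hg : g ∈ G) (x y : V) : C.N (g x) (g y) = (C.N x y).map (g : V →ₗ[F] V) := Submodule.ext fun z => by
  obtain ⟨z, rfl⟩ := g.surjective z
  rw [map_N hg, mem_mp]
theorem inf3 : w ∈ C.N x y ⊓ C.N x z ↔ 𝐏 x y z ≤ C.N x w := by rw [ple, mem_inf, mem_comm, mem_comm (y := z)]; simp [lm]

variable (C)

noncomputable def D : ℕ := finrank F (C.N (C.v 0) (C.v 1))
noncomputable def μ (k : ℕ) : ℕ := finrank F ↥(C.N (C.v 0) (C.v 1) ⊓ C.N (C.v 0) (C.v k))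

theorem fN (h : I2 F x y) : finrank F (C.N x y) = C.D := by
  obtain ⟨g, hg, rfl, rfl⟩ := C.tr' h
  rw [N_map hg, LinearEquiv.finrank_map_eq]; rfl

theorem smem (hs : s ∈ C.S) (h : z ∈ C.N (C.v 0) y) : s z ∈ C.N (C.v 0) (s y) := by
  simpa only [C.Φ.s0 hs] using (map_N (C.le hs)).2 h

theorem N_base : C.N (C.v 0) (C.v 1) = C.U C.D := C.Φ.eq_U fun s hs _ hx => by
  rw [N_cg (x' := s (C.v 0)) (y' := s (C.v 1)) (by rw [mp2, C.U2, C.U_map hs])]; exact (map_N (C.le hs)).2 hx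

theorem D_le : C.D ≤ finrank F V := finrank_le _

theorem fI (h : C.Col k x y z) : finrank F ↥(C.N x y ⊓ C.N x z) = C.μ k := by
  obtain ⟨g, hg, rfl, rfl, c, c0, rfl⟩ := h.norm
  rw [N_map hg, N_map hg, ← Submodule.map_inf _ g.injective, LinearEquiv.finrank_map_eq,
    N_cg (y := c • C.v k) (x' := C.v 0) (y' := C.v k) (by rw [span_singleton_smul_eq (IsUnit.mk0 c c0)])]; rfl

theorem p_le (h : C.Col 2 x y z) : 𝐏 x y z ≤ C.N x y ⊓ C.N x z := le_inf h.le ((p23 x y z).le.trans h.p23.le)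

theorem three_le : 3 ≤ C.μ 2 := by have := finrank_mono (C.p_le col2); rwa [col2.1] at this

theorem μ_le (k : ℕ) : C.μ k ≤ C.D := finrank_mono inf_le_left

theorem colU (a : u ∈ C.U 3) (b : u ∉ C.U 2) : C.Col 2 (C.v 0) (C.v 1) u := col2.of (C.U3 ▸ a) (C.U2 ▸ b)

/-- the primitive case -/
structure Prim : Prop where
  e : C.D = C.μ 2 + 1
  lt : C.D < finrank F V
  un : ∀ w, w ∉ C.U C.D → (w ∈ C.U (C.D + 1) ↔ ∃ u ∈ C.U 3, u ∉ C.U 2 ∧ w ∈ C.N (C.v 0) u)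

theorem iota : C.D = C.μ 2 ∨ C.Prim := by
  let X := {w | w ∉ C.U C.D ∧ ∃ u ∈ C.U 3, u ∉ C.U 2 ∧ w ∈ C.N (C.v 0) u}
  have hX : ∀ s ∈ C.S, ∀ w ∈ X, s w ∈ X := fun s hs w ⟨a, u, b, c, d⟩ =>
    ⟨by rwa [← C.U_map hs, mem_mp], s u, C.Φ.inv _ s hs _ b, by rwa [← C.U_map hs, mem_mp], C.smem hs d⟩
  have hZ : ∀ c : F, c ≠ 0 → ∀ w ∈ X, c • w ∈ X := fun c c0 w ⟨a, u, b, d, e⟩ =>
    ⟨by rwa [smul_mem_iff _ c0], u, b, d, smul_mem _ c e⟩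
  have hc := dcount ((C.U 3 : Set V) \ C.U 2) X (fun u w => w ∈ C.N (C.v 0) u) (𝐪 ^ C.D - 𝐪 ^ C.μ 2) (𝐪 ^ 2 - 𝐪 ^ 1)
    (fun u ⟨a, b⟩ => by
      rw [← ncd inf_le_right (C.fN (C.colU a b).p23.i3.1) (C.fI (C.colU a b)), N_base]
      congr 1; ext w
      exact ⟨fun h => ⟨h.2, fun i => h.1.1 i.1⟩, fun h => ⟨⟨fun i => h.2 ⟨i, h.1⟩, u, a, b, h.1⟩, h.1⟩⟩)
    fun w ⟨a, u, b, c, d⟩ => by
      have i := (C.colU b c).p23.i3
      rw [← ncd (le_sup_left : _ ≤ 𝐋 (C.v 0) u) (i2_iff.1 i.1) (finrank_span_singleton i.1.1)]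
      congr 1; ext t
      have l : 𝐋 (C.v 0) u ≤ C.U 3 := lle.2 ⟨C.Φ.v_mem (by omega), b⟩
      refine ⟨fun h => ⟨by_contra fun n => a (C.N_base ▸ mem_comm.1 ?_), fun m => h.1.2 (C.U2 ▸ mem_sup_left m)⟩, fun h =>
        ⟨⟨l h.1, fun m => c ?_⟩, mem_comm.1 ((lle.2 ⟨lm, mem_comm.1 d⟩) h.1)⟩⟩
      · refine inf3.1 ⟨d, h.2⟩ ((p_eq (x' := C.v 0) (y' := C.v 1) (z' := C.v 2) ⟨i.1, n⟩ ?_).ge (mem_sup_left l2))
        exact C.U3 ▸ sup_le l (by simpa using h.1.1)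
      · have j : I2 F (C.v 0) t := ⟨i.1.1, h.2⟩
        exact C.U2 ▸ ((l_eq j l1 h.1).symm.trans (l_eq j l1 (C.U2 ▸ m))).le l2
  have q := two_le_q (F := F)
  rw [ncd (C.Φ.mono (by omega)) (C.fU le_rfl) (C.fU (by omega)), show 𝐪 ^ 3 - 𝐪 ^ 2 = (𝐪 ^ 2 - 𝐪 ^ 1) * 𝐪 by
    rw [Nat.sub_mul]; rfl, mul_assoc, mul_comm] at hc
  have hc := Nat.eq_of_mul_eq_mul_right (Nat.sub_pos_of_lt (Nat.pow_lt_pow_right q (by omega))) hc
  rw [Nat.mul_sub, ← pow_succ', ← pow_succ'] at hc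
  have le := C.μ_le 2
  have d := C.Φ.pow_dvd hX hZ fun _ h => h.1
  rw [← hc, Nat.dvd_sub_iff_right (Nat.pow_le_pow_right (by omega) (by omega)) (pow_dvd_pow _ (by omega)),
    Nat.pow_dvd_pow_iff_le_right q] at d
  refine or_iff_not_imp_left.2 fun n => ?_
  have e : C.D = C.μ 2 + 1 := by omega
  obtain ⟨a, b⟩ := C.Φ.eq_diff hX hZ (fun h => h.1 (zero_mem _)) (a := C.D) (b := C.D + 1) (by omega)
    (by rw [← hc, ← e]; exact Nat.sub_add_cancel (Nat.pow_le_pow_right (by omega) (by omega)))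
  exact ⟨e, a (by omega), fun w m => ⟨fun i => (b.ge ⟨i, m⟩).2, fun i => (b.le ⟨m, i⟩).1⟩⟩

end Ctx

end CF.Sing.KN
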