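import Cfsg.Agent.Sing.KN1

/-! The primitive case. -/

set_option autoImplicit false
set_option linter.unusedSectionVars false

namespace CF.Sing.KN

open Module CF.Geom Submodule

variable {F V : Type*} [Field F] [AddCommGroup V] [Module F V] [Finite F] [Finite V] {x y z w u t x' y' z' : V}
  {L K : Submodule F V} {k : ℕ} {g s : V ≃ₗ[F] V}

local notation "𝐪" => Nat.card F
local notation "𝐋" x:max y:max => (F ∙ x) ⊔ (F ∙ y)
local notation "𝐏" x:max y:max z:max => (F ∙ x) ⊔ (F ∙ y) ⊔ (F ∙ z)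

theorem ar1 {q m B : ℕ} (hq : 2 ≤ q) (h : (q ^ (m + 4) - q ^ 2) * (q ^ (m + 4) - q ^ (m + 3)) = B * (q ^ (m + 3) - q ^ 1)) :
    B + q ^ (m + 4) = q ^ (m + 5) := by
  have p : ∀ {a b}, a ≤ b → q ^ a ≤ q ^ b := Nat.pow_le_pow_right (by omega)
  have l := Nat.pow_lt_pow_right hq (show 1 < m + 3 by omega)
  zify [p (show 2 ≤ m + 4 by omega), p (show m + 3 ≤ m + 4 by omega), l.le] at h l ⊢
  exact mul_right_cancel₀ (sub_pos.2 l).ne' (by linear_combination -h)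

theorem ar2 {q m B : ℕ} (hq : 2 ≤ q) (h : (q ^ (m + 4) - q ^ 2) * (q ^ (m + 4) - q ^ (m + 3)) = B * (q ^ (m + 2) - q ^ 1)) :
    m = 0 ∧ B + q ^ 4 = q ^ 6 := by
  have p : ∀ {a b}, a ≤ b → q ^ a ≤ q ^ b := Nat.pow_le_pow_right (by omega)
  zify [p (show 2 ≤ m + 4 by omega), p (show m + 3 ≤ m + 4 by omega), p (show 1 ≤ m + 2 by omega)] at h hq ⊢
  generalize (q : ℤ) = q at *
  have e : B * (q ^ (m + 1) - 1) = q ^ (m + 4) * ((q ^ (m + 2) - 1) * (q - 1)) :=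
    mul_left_cancel₀ (show q ≠ 0 by omega) (by linear_combination -h)
  have c : IsCoprime (q ^ (m + 1) - 1) (q ^ (m + 4)) := IsCoprime.pow_right ⟨-1, q ^ m, by ring⟩
  obtain ⟨k, hk⟩ := c.dvd_of_dvd_mul_left ⟨B, by rw [← e, mul_comm]⟩
  have d := Int.le_of_dvd (show 0 < (q - 1) ^ 2 by have : q - 1 ≠ 0 := by omega
                                                   positivity)
    (show q ^ (m + 1) - 1 ∣ _ from ⟨k - q * (q - 1), by linear_combination hk⟩)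
  obtain rfl : m = 0 := by
    by_contra n
    have := pow_le_pow_right₀ (show 1 ≤ q by omega) (show 2 ≤ m + 1 by omega)
    nlinarith
  exact ⟨rfl, mul_right_cancel₀ (show q - 1 ≠ 0 by omega) (by linear_combination e)⟩

theorem ar3 {q m : ℕ} (hq : 2 ≤ q) : (q ^ (m + 5) - q ^ 1) * (q ^ (m + 4) - q ^ (m + 3)) ≠
    (q ^ (m + 5) - q ^ (m + 4)) * (q ^ (m + 4) - q ^ 1) := fun h => by
  have p : ∀ {a b}, a ≤ b → q ^ a ≤ q ^ b := Nat.pow_le_pow_right (by omega)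
  zify [p (show 1 ≤ m + 5 by omega), p (show m + 3 ≤ m + 4 by omega), p (show m + 4 ≤ m + 5 by omega),
    p (show 1 ≤ m + 4 by omega)] at h hq
  have : (q : ℤ) ^ (m + 4) * (q - 1) ^ 2 = 0 := by linear_combination h
  simp at this; omega

namespace Ctx
variable {G : Subgroup (V ≃ₗ[F] V)} {C : Ctx G}

variable (C) in
def M (x y : V) : Submodule F V := C.N x y ⊔ span F {w | C.Col C.D x y w}

theorem M_cg (e : 𝐋 x y = 𝐋 x' y') : C.M x y = C.M x' y' := by simp only [M, N_cg e, Col, e]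

theorem M_map (hg : g ∈ G) (x y : V) : C.M (g x) (g y) = (C.M x y).map (g : V →ₗ[F] V) := by
  rw [M, M, N_map hg, Submodule.map_sup, map_span]
  congr 2
  ext z
  obtain ⟨z, rfl⟩ := g.surjective z
  simp [col_map hg]

theorem col_of (hz : C.Col 2 x y z) (h1 : w ∈ C.N x z) (h2 : w ∉ C.N x y) : C.Col 2 x z w :=
  mem_N.1 h1 ⟨hz.p23.i3.1, fun m => h2 (lle.2 ⟨lm, hz.mem⟩ m)⟩

theorem M_eq {E : ℕ} (hE : E ≤ finrank F V) (hDE : C.D ≤ E)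
    (hc : {w | C.Col C.D (C.v 0) (C.v 1) w} = (C.U E : Set V) \ C.U C.D) :
    C.M (C.v 0) (C.v 1) = C.U E ∧ ∀ x y, I2 F x y →
      finrank F (C.M x y) = E ∧ ∀ w ∈ C.M x y, w ∈ C.N x y ∨ C.Col C.D x y w := by
  have e : C.M (C.v 0) (C.v 1) = C.U E := le_antisymm
    (sup_le (C.N_base ▸ C.Φ.mono hDE) (span_le.2 (hc ▸ Set.sdiff_subset))) fun w hw => (em (w ∈ C.U C.D)).elim
      (fun a => mem_sup_left (C.N_base ▸ a)) fun a => mem_sup_right (subset_span (hc.ge ⟨hw, a⟩))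
  refine ⟨e, fun x y hxy => ?_⟩
  obtain ⟨g, hg, rfl, rfl⟩ := C.tr' hxy
  rw [M_map hg, LinearEquiv.finrank_map_eq, e]
  refine ⟨C.Φ.finrank_U hE, ?_⟩
  rintro _ ⟨w, hw, rfl⟩
  rw [LinearEquiv.coe_coe, map_N hg, col_map hg, N_base]
  exact or_iff_not_imp_left.2 fun a => hc.ge ⟨hw, a⟩

namespace Prim
variable (h : C.Prim)
include h

theorem cD : C.Col C.D (C.v 0) (C.v 1) (C.v C.D) := col_base (by have := C.three_le; have := h.e; omega) h.lt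

theorem un' (hz : C.Col 2 x y z) : ∃ g ∈ G, g (C.v 0) = x ∧ g (C.v 1) = y ∧ ∀ w, g w ∉ C.N x y →
    (w ∉ C.U C.D ∧ (w ∈ C.U (C.D + 1) ↔ ∃ u ∈ 𝐏 x y z, u ∉ 𝐋 x y ∧ g w ∈ C.N x u)) := by
  obtain ⟨g, hg, rfl, rfl, c, c0, rfl⟩ := hz.norm
  refine ⟨g, hg, rfl, rfl, fun w m => ?_⟩
  rw [map_N hg, N_base] at m
  refine ⟨m, (h.un w m).trans (.symm (g.surjective.exists.trans ?_))⟩
  rw [mp3, mp2, span_singleton_smul_eq (IsUnit.mk0 c c0), C.U3, C.U2]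
  simp only [mem_mp, map_N hg]

theorem colD (hz : C.Col 2 x y z) (h1 : w ∈ C.N x z) (h2 : w ∉ C.N x y) : C.Col C.D x y w := by
  obtain ⟨g, hg, rfl, rfl, k⟩ := h.un' hz
  obtain ⟨w, rfl⟩ := g.surjective w
  obtain ⟨c, c0, s, hs, rfl⟩ := C.Φ.to_layer (k w h2).1 ((k w h2).2.2 ⟨z, mem_sup_right (ms z), hz.i3.2, h1⟩)
  exact ((h.cD.smap hs).smul c0).map hg

theorem of_colD (hw : C.Col C.D x y w) : w ∉ C.N x y ∧ ∃ z, C.Col 2 x y z ∧ w ∈ C.N x z := by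
  obtain ⟨g, hg, rfl, rfl, c, c0, rfl⟩ := hw.norm
  have n := C.Φ.nm h.lt
  obtain ⟨u, a, b, d⟩ := (h.un _ n).1 (C.Φ.v_mem (Nat.lt_succ_self _))
  exact ⟨by rwa [map_N hg, smul_mem_iff _ c0, N_base], _, (C.colU a b).map hg, (map_N hg).2 (smul_mem _ c d)⟩

theorem sup_mem (hz : C.Col 2 x y z) (hw : w ∈ C.N x y ⊔ C.N x z) : ∃ u ∈ 𝐏 x y z, u ∉ F ∙ x ∧ w ∈ C.N x u := by
  by_cases a : w ∈ C.N x y
  · exact ⟨y, mem_sup_left l2, hz.i3.1.2, a⟩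
  obtain ⟨g, hg, rfl, rfl, k⟩ := h.un' hz
  obtain ⟨w, rfl⟩ := g.surjective w
  have : C.N (g (C.v 0)) (g (C.v 1)) ⊔ C.N (g (C.v 0)) z ≤ (C.U (C.D + 1)).map (g : V →ₗ[F] V) := by
    have b : C.N (g (C.v 0)) (g (C.v 1)) ≤ (C.U (C.D + 1)).map (g : V →ₗ[F] V) := by
      rw [N_map hg, N_base]; exact map_mono (C.Φ.mono (by omega))
    refine sup_le b fun t m => (em _).elim (@b t) fun n => ?_
    obtain ⟨t, rfl⟩ := g.surjective t
    exact mem_mp.2 ((k t n).2.2 ⟨z, mem_sup_right (ms z), hz.i3.2, m⟩)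
  obtain ⟨u, b, c, d⟩ := (k w a).2.1 (mem_mp.1 (this hw))
  exact ⟨u, b, fun m => c (mem_sup_left m), d⟩

theorem fsup (hz : C.Col 2 x y z) : finrank F ↥(C.N x y ⊔ C.N x z) = C.D + 1 := by
  have := finrank_sup_add_finrank_inf_eq (C.N x y) (C.N x z)
  rw [C.fI hz, C.fN hz.i3.1, C.fN hz.p23.i3.1] at this
  have := h.e
  omega

theorem mu : ∃ E, E ≤ finrank F V ∧ {w | C.Col C.D (C.v 0) (C.v 1) w} = (C.U E : Set V) \ C.U C.D ∧
    (E = C.D + 1 ∨ (E = 6 ∧ C.D = 4 ∧ C.μ C.D = 2)) := by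
  have h3 := C.three_le
  have he := h.e
  obtain ⟨n1, z, hz, n2⟩ := h.of_colD h.cD
  have m1 : C.μ C.D < C.D := finrank_lt_finrank_of_lt (lt_of_le_of_ne inf_le_left fun e => n1 (mem_comm.1 (e.ge rm).2))
  have m2 : C.D ≤ C.μ C.D + 2 := by
    have a := C.fI hz
    have b := C.fI (col_of hz n2 n1)
    have c := finrank_sup_add_finrank_inf_eq (C.N (C.v 0) (C.v 1) ⊓ C.N (C.v 0) z) (C.N (C.v 0) z ⊓ C.N (C.v 0) (C.v C.D))
    have d := finrank_mono (show (C.N (C.v 0) (C.v 1) ⊓ C.N (C.v 0) z) ⊔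
      (C.N (C.v 0) z ⊓ C.N (C.v 0) (C.v C.D)) ≤ C.N (C.v 0) z from sup_le inf_le_right inf_le_left)
    have e : _ ≤ C.μ C.D := finrank_mono (show (C.N (C.v 0) (C.v 1) ⊓ C.N (C.v 0) z) ⊓
      (C.N (C.v 0) z ⊓ C.N (C.v 0) (C.v C.D)) ≤ _ from fun _ a => ⟨a.1.1, a.2.2⟩)
    rw [C.fN hz.p23.i3.1] at d
    omega
  have hc := dcount ((C.N (C.v 0) (C.v 1) : Set V) \ ↑(𝐋 (C.v 0) (C.v 1))) {w | C.Col C.D (C.v 0) (C.v 1) w}
    (fun z w => w ∈ C.N (C.v 0) z) (𝐪 ^ C.D - 𝐪 ^ C.μ 2) (𝐪 ^ C.μ C.D - 𝐪 ^ 1) (fun z hz => by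
      have hz' := mem_N.1 hz.1 ⟨C.i2, hz.2⟩
      rw [← ncd inf_le_right (C.fN hz'.p23.i3.1) (C.fI hz')]
      congr 1; ext w
      exact ⟨fun a => ⟨a.2, fun b => (h.of_colD a.1).1 b.1⟩, fun a => ⟨h.colD hz' a.1 fun b => a.2 ⟨b, a.1⟩, a.1⟩⟩)
    fun w hw => by
      rw [← ncd (K := F ∙ C.v 0) (by simpa using ⟨lm, lm⟩) (C.fI hw) (finrank_span_singleton C.i2.1)]
      congr 1; ext z
      exact ⟨fun a => ⟨⟨a.1.1, mem_comm.1 a.2⟩, fun b => a.1.2 (mem_sup_left b)⟩, fun a => ⟨⟨a.1.1, fun b =>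
        (h.of_colD hw).1 (mem_comm.1 (lle.2 ⟨lm, a.1.2⟩ ((l_eq ⟨C.i2.1, a.2⟩ l1 b).ge l2)))⟩, mem_comm.1 a.1.2⟩⟩
  rw [ncd l_le (C.fN C.i2) (i2_iff.1 C.i2)] at hc
  have ed := fun {b} => C.Φ.eq_diff (X := {w | C.Col C.D (C.v 0) (C.v 1) w}) (fun s hs w hw => Col.smap hw hs)
    (fun c c0 w hw => Col.smul hw c0) (fun a => (Col.i3 a).2 (zero_mem _)) (a := C.D) (b := b)
  obtain ⟨m, hm⟩ := Nat.exists_eq_add_of_le' h3
  have q := two_le_q (F := F)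
  have e4 : C.D = m + 4 := by omega
  rcases (by omega : C.μ C.D = m + 3 ∨ C.μ C.D = m + 2) with e | e <;> rw [e, hm] at hc
  · obtain ⟨b, c⟩ := ed (b := C.D + 1) (by omega) (e4 ▸ ar1 q (e4 ▸ hc))
    exact ⟨_, b (by omega), c, .inl rfl⟩
  · obtain ⟨rfl, a⟩ := ar2 q (e4 ▸ hc)
    obtain ⟨b, c⟩ := ed (b := 6) (by omega) (e4 ▸ a)
    exact ⟨_, b (by omega), c, .inr ⟨rfl, e4, e⟩⟩

theorem N_le_M (hz : C.Col 2 x y z) : C.N x z ≤ C.M x y := fun _ hw =>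
  (em _).elim mem_sup_left fun a => mem_sup_right (subset_span (h.colD hz hw a))

theorem key {E : ℕ} (hM : ∀ x y, I2 F x y → finrank F (C.M x y) = E) (hc : E = C.D + 1 ∨ E = 6 ∧ C.D = 4)
    (hz : C.Col 2 x y z) : C.M x z = C.M x y := by
  have l1' : C.N x y ⊔ C.N x z ≤ C.M x y := sup_le le_sup_left (h.N_le_M hz)
  have l2' : C.N x y ⊔ C.N x z ≤ C.M x z := sup_le (h.N_le_M hz.p23) le_sup_left
  have f1 := hM _ _ hz.i3.1
  have f2 := hM _ _ hz.p23.i3.1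
  have f3 := h.fsup hz
  have he := h.e
  rcases hc with e | ⟨e, e'⟩
  · rw [← eq_of_le_of_finrank_eq l1' (by omega), ← eq_of_le_of_finrank_eq l2' (by omega)]
  have i := hz.p12.p23
  obtain ⟨w, w1, w2⟩ := exists_mem_notMem (L := C.N y z) (K := 𝐏 y z x) (by rw [C.fN i.i3.1, i.1]; omega)
  have w3 : w ∉ C.N x y ⊔ C.N x z := fun a => by
    obtain ⟨u, m, n, a⟩ := h.sup_mem hz a
    rw [p12, p23] at m
    obtain ⟨c, m⟩ := mem_sup1.1 m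
    have u0 : u - c • x ≠ 0 := fun o => n (sub_eq_zero.1 o ▸ smul_mem _ c (ms x))
    obtain ⟨t, t1, t2⟩ := exists_mem_notMem (L := 𝐋 y z) (K := F ∙ (u - c • x))
      (by rw [i2_iff.1 i.i3.1, finrank_span_singleton u0]; omega)
    have e1 := l_eq ⟨u0, t2⟩ m t1
    have j : C.Col 2 (u - c • x) t x := i.cg (by rw [e1])
    refine w2 (e1 ▸ (eq_of_le_of_finrank_eq (C.p_le j) (by rw [j.1, C.fI j]; omega)).ge ⟨N_cg e1 ▸ w1, ?_⟩)
    rwa [N_cg (l_eq j.p23.i3.1 (sub_mem l2 (smul_mem _ c l1)) l1)]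
  have f4 := finrank_sup_span_singleton w3
  have l3 : C.N x y ⊔ C.N x z ⊔ (F ∙ w) ≤ C.M x y :=
    sup_le l1' (by rw [span_singleton_le_iff_mem, M_cg (sup_comm ..)]; exact h.N_le_M hz.p12 w1)
  have l4 : C.N x y ⊔ C.N x z ⊔ (F ∙ w) ≤ C.M x z :=
    sup_le l2' (by rw [span_singleton_le_iff_mem, M_cg (sup_comm ..)]; exact h.N_le_M hz.p23.p12 ((N_comm (C := C) y z).le w1))
  rw [← eq_of_le_of_finrank_eq l3 (by omega), ← eq_of_le_of_finrank_eq l4 (by omega)]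

theorem c1 (hN : ∀ a ∈ C.U (C.D + 1), ∀ b ∈ C.U (C.D + 1), I2 F a b → C.N a b ≤ C.U (C.D + 1)) : False := by
  have h3 := C.three_le
  have he := h.e
  have l := C.Φ.mono (Nat.le_succ C.D)
  have fW := C.Φ.finrank_U h.lt.le
  have fB := C.Φ.finrank_U (Nat.succ_le_of_lt h.lt)
  have : ∀ a, ∃ b, a ∈ C.U C.D → a ≠ 0 → I2 F a b ∧ C.N a b = C.U C.D := fun a => by
    by_contra! k
    obtain ⟨m, a0, -⟩ := k 0
    have hc := dcount ((C.U (C.D + 1) : Set V) \ ↑(F ∙ a)) ((C.U (C.D + 1) : Set V) \ C.U C.D) (fun b w => w ∈ C.N a b)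
      (𝐪 ^ C.D - 𝐪 ^ C.μ 2) (𝐪 ^ C.D - 𝐪 ^ 1) (fun b hb => by
        have i : I2 F a b := ⟨a0, hb.2⟩
        rw [← ncd inf_le_left (C.fN i) (fr_hyp (hN a (l m) b hb.1 i) l ((k b).2.2 i) (he ▸ C.fN i) (he ▸ fW) (he ▸ fB))]
        congr 1; ext w
        exact ⟨fun t => ⟨t.2, fun j => t.1.2 j.2⟩, fun t => ⟨⟨hN a (l m) b hb.1 i t.1, fun j => t.2 ⟨t.1, j⟩⟩, t.1⟩⟩)
      fun w hw => by
        have i : I2 F a w := ⟨a0, fun j => hw.2 ((span_singleton_le_iff_mem _ _).2 m j)⟩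
        rw [← ncd (K := F ∙ a) (by simpa using lm) (C.fN i) (finrank_span_singleton a0)]
        congr 1; ext b
        exact ⟨fun t => ⟨mem_comm.1 t.2, t.1.2⟩, fun t => ⟨⟨hN a (l m) w hw.1 i t.1, t.2⟩, mem_comm.1 t.1⟩⟩
    obtain ⟨n, hn⟩ := Nat.exists_eq_add_of_le' h3
    rw [ncd (by simpa using l m) fB (finrank_span_singleton a0), ncd l fB fW, he, hn] at hc
    exact ar3 two_le_q hc
  choose b hb using this
  have ch : ∀ a ∈ C.U C.D, a ≠ 0 → ∀ t, t ∈ 𝐋 a (b a) ↔ (I2 F a t → C.N a t = C.U C.D) := fun a m a0 t => by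
    obtain ⟨i, e⟩ := hb a m a0
    refine ⟨fun j k => (N_cg (l_eq k l1 j)).trans e, fun k => by_contra fun n => ?_⟩
    have e' := k ⟨a0, fun j => n (mem_sup_left j)⟩
    have := C.fI (mem_N.1 (e.ge (e'.le rm)) ⟨i, n⟩)
    rw [e, e', inf_idem, fW] at this
    omega
  have le : ∀ a ∈ C.U C.D, a ≠ 0 → 𝐋 a (b a) ≤ C.U C.D := fun a m a0 => (hb a m a0).2 ▸ l_le
  refine no_spread2 C.hq C.Φ (m := C.D) (by omega) h.lt.le (A := fun a => 𝐋 a (b a))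
    ⟨fun _ _ _ => l1, fun a m a0 t n t0 => ?_, fun a m a0 => i2_iff.1 (hb a m a0).1, le⟩ fun s hs a m a0 t n => ?_
  · refine (eq_of_le_of_finrank_eq (fun r j => (ch t (le a m a0 n) t0 r).2 fun k => (N_cg (l_eq k n j)).trans (hb a m a0).2)
      ?_).symm
    rw [i2_iff.1 (hb a m a0).1, i2_iff.1 (hb t (le a m a0 n) t0).1]
  · refine (ch _ (C.Φ.inv _ s hs _ m) (by simpa) _).2 fun k => ?_
    rw [N_map (C.le hs), (ch a m a0 t).1 n (i2_map.1 k), C.U_map hs]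

theorem c2 {B : Submodule F V} (hx : x ∈ B) (x0 : x ≠ 0) (fB : finrank F B = 6) (e : C.D = 4) (e' : C.μ C.D = 2)
    (hN : ∀ a ∈ B, I2 F x a → C.N x a ≤ B ∧ ∀ w ∈ B, w ∈ C.N x a ∨ C.Col C.D x a w) : False := by
  have he := h.e
  obtain ⟨φ, hφ, -⟩ := exists_dual_one (W := (⊥ : Submodule F V)) (v := x) (by simpa)
  have p0 : φ x ≠ 0 := hφ ▸ one_ne_zero
  let A := ((B ⊓ LinearMap.ker φ : Submodule F V) : Set V) \ {0}
  have i2 : ∀ a ∈ A, I2 F x a := fun a m => ⟨x0, fun j => by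
    obtain ⟨c, rfl⟩ := mem_span_singleton.1 j
    have := m.1.2
    simp only [SetLike.mem_coe, LinearMap.mem_ker, map_smul, hφ, smul_eq_mul, mul_one] at this
    exact m.2 (by simp [this])⟩
  have cd : ∀ (L : Submodule F V) {n}, finrank F L = n → ((L : Set V) \ {0}).ncard + 1 = 𝐪 ^ n := fun L n f => by
    rw [← f, ← card_sub, Set.ncard_sdiff_singleton_add_one L.zero_mem]
  have cn : ∀ a ∈ A, ∀ b n, finrank F ↥(C.N x a ⊓ C.N x b) = n + 1 →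
      {d | d ∈ A ∧ d ∈ C.N x a ∧ d ∈ C.N x b}.ncard + 1 = 𝐪 ^ n := fun a m b n f => by
    rw [← cd (C.N x a ⊓ C.N x b ⊓ LinearMap.ker φ) (by have := fr_ker (L := C.N x a ⊓ C.N x b) ⟨lm, lm⟩ p0; omega)]
    congr 2; ext d
    exact ⟨fun t => ⟨⟨t.2, t.1.1.2⟩, t.1.2⟩, fun t => ⟨⟨⟨(hN a m.1.1 (i2 a m)).1 t.1.1.1, t.1.2⟩, t.2⟩, t.1.1⟩⟩
  have ee : ∀ {a b}, (F ∙ a) = (F ∙ b) → C.N x a = C.N x b := fun k => N_cg (by rw [k])
  refine no_pent C.hq A (cd _ (by have := fr_ker hx p0; omega)) (fun a b => b ∈ C.N x a) (fun a b => (F ∙ a) = F ∙ b) (fun _ _ => mem_comm.1)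
    (fun _ _ => Eq.symm) (fun _ _ => rfl) (fun a _ b _ k => ee k ▸ rm) (fun a m => ?_)
    (fun a _ b _ d _ k => by rw [ee k, k]; simp) (fun a m b _ k => cn a m b 3 (by rw [← ee k, inf_idem, C.fN (i2 a m), e]))
    (fun a m b n k j => cn a m b 2 ?_) fun a m b n k => (cn a m b 1 ?_).trans (pow_one _)
  · refine Eq.trans ?_ ((cd (F ∙ a) (finrank_span_singleton m.2)).trans (pow_one _))
    congr 2; ext b
    refine ⟨fun t => ⟨t.2 ▸ ms b, t.1.2⟩, fun t => ⟨⟨(span_singleton_le_iff_mem _ _).2 m.1 t.1, t.2⟩, ?_⟩⟩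
    exact (eq_of_le_of_finrank_eq (by simpa using t.1) (by rw [finrank_span_singleton m.2, finrank_span_singleton t.2])).symm
  · rw [C.fI (mem_N.1 j ⟨i2 a m, fun o => k ?_⟩)]; · omega
    obtain ⟨c, d, rfl⟩ := mem_span2.1 o
    have := n.1.2
    simp only [SetLike.mem_coe, LinearMap.mem_ker, map_add, map_smul, hφ, show φ a = 0 from m.1.2, smul_eq_mul, mul_one,
      mul_zero, add_zero] at this
    have d0 : d ≠ 0 := fun o => n.2 (by simp [this, o])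
    rw [this, zero_smul, zero_add, span_singleton_smul_eq (IsUnit.mk0 d d0)]
  · rw [C.fI (((hN a m.1.1 (i2 a m)).2 b n.1.1).resolve_left k), e']

theorem false : False := by
  obtain ⟨E, hE, hc, hcase⟩ := h.mu
  obtain ⟨e, hM⟩ := M_eq hE (by omega) hc
  have key := fun {x y z} => h.key (fun x y i => (hM x y i).1) (hcase.imp_right fun k => ⟨k.1, k.2.1⟩) (x := x) (y := y) (z := z)
  have hB := fun a b => block C.M M_cg (fun x y w hxy hxw hw => by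
    rcases (hM _ _ hxy).2 w hw with a | a
    · exact (em _).elim (fun b => M_cg (l_eq hxw l1 b)) fun b => key (mem_N.1 a ⟨hxy, b⟩)
    · obtain ⟨b, z, hz, c⟩ := h.of_colD a
      rw [key (col_of hz c b), key hz]) (a := a) (b := b) C.i2
  rw [e] at hB
  rcases hcase with rfl | ⟨rfl, e', e''⟩
  · exact h.c1 fun a m b n i => hB a b m n i ▸ le_sup_left
  have hx : C.v 0 ∈ C.U 6 := C.Φ.v_mem (by omega)
  exact h.c2 hx C.i2.1 (C.Φ.finrank_U hE) e' e'' fun a m i =>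
    ⟨hB _ a hx m i ▸ le_sup_left, fun w n => (hM _ _ i).2 w ((hB _ a hx m i).ge n)⟩

end Prim

end Ctx

end CF.Sing.KN
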