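import Cfsg.Agent.Sing.K0

/-! Lines, planes and counting in finite vector spaces. -/

set_option autoImplicit false
set_option linter.unusedSectionVars false

namespace CF.Sing.KN

open Module CF.Geom Submodule

variable {F V : Type*} [Field F] [AddCommGroup V] [Module F V] [Finite F] [Finite V] {x y z w u t x' y' z' : V}
  {L K : Submodule F V} {k : ℕ} {g s : V ≃ₗ[F] V}

local notation "𝐪" => Nat.card F
local notation "𝐋" x:max y:max => (F ∙ x) ⊔ (F ∙ y)
local notation "𝐏" x:max y:max z:max => (F ∙ x) ⊔ (F ∙ y) ⊔ (F ∙ z)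

theorem dcount {α β : Type*} [Finite α] [Finite β] (A : Set α) (B : Set β) (r : α → β → Prop)
    (m n : ℕ) (h1 : ∀ a ∈ A, {b | b ∈ B ∧ r a b}.ncard = m)
    (h2 : ∀ b ∈ B, {a | a ∈ A ∧ r a b}.ncard = n) : A.ncard * m = B.ncard * n := by
  classical
  rw [Set.ncard_eq_toFinset_card A, Set.ncard_eq_toFinset_card B]
  refine Finset.card_mul_eq_card_mul r (fun a ha => ?_) (fun b hb => ?_)
  · rw [← h1 a (by simpa using ha), ← Set.ncard_coe_finset]
    congr 1; ext; simp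
  · rw [← h2 b (by simpa using hb), ← Set.ncard_coe_finset]
    congr 1; ext; simp

theorem ncd (h : K ≤ L) {a b : ℕ} (ha : finrank F L = a) (hb : finrank F K = b) :
    ((L : Set V) \ K).ncard = 𝐪 ^ a - 𝐪 ^ b := by rw [← ha, ← hb, ← ncard_diff_sub h, Nat.add_sub_cancel]

theorem ms (x : V) : x ∈ F ∙ x := mem_span_singleton_self x
theorem l1 : x ∈ 𝐋 x y := mem_sup_left (ms x)
theorem l2 : y ∈ 𝐋 x y := mem_sup_right (ms y)
theorem lle : 𝐋 x y ≤ L ↔ x ∈ L ∧ y ∈ L := by simp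
theorem ple : 𝐏 x y z ≤ L ↔ x ∈ L ∧ y ∈ L ∧ z ∈ L := by simp [and_assoc]

theorem exch (m : w ∈ L ⊔ F ∙ z) (n : w ∉ L) : L ⊔ (F ∙ w) = L ⊔ F ∙ z :=
  eq_of_le_of_finrank_le (sup_le le_sup_left (by simpa)) (by
    rw [finrank_sup_span_singleton n, finrank_sup_span_singleton fun e => n (by rwa [sup_eq_left.2 (by simpa)] at m)])

theorem fr1 : finrank F (F ∙ x) ≤ 1 := (finrank_span_le_card _).trans (by simp)

theorem frs : finrank F ↥(L ⊔ F ∙ x) ≤ finrank F L + 1 := (finrank_add_le_finrank_add_finrank _ _).trans (by simp [fr1])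

theorem i2_iff : I2 F x y ↔ finrank F ↥(𝐋 x y) = 2 := by
  refine ⟨fun h => by rw [finrank_sup_span_singleton h.2, finrank_span_singleton h.1], fun h => ⟨?_, fun e => ?_⟩⟩
  · rintro rfl
    have := fr1 (F := F) (x := y)
    rw [span_zero_singleton, bot_sup_eq] at h; omega
  · have := fr1 (F := F) (x := x)
    rw [sup_eq_left.2 (by simpa)] at h; omega

theorem i3_iff : I3 F x y z ↔ finrank F ↥(𝐏 x y z) = 3 := by
  have a := frs (L := 𝐋 x y) (x := z)
  have b := frs (L := F ∙ x) (x := y)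
  have c := fr1 (F := F) (x := x)
  refine ⟨fun h => by rw [finrank_sup_span_singleton h.2, i2_iff.1 h.1], fun h => ⟨i2_iff.2 (by omega), fun e => ?_⟩⟩
  rw [sup_eq_left.2 (by simpa)] at h; omega

theorem i2s (h : I2 F x y) : I2 F y x := i2_iff.2 (sup_comm (F ∙ x) _ ▸ i2_iff.1 h)
theorem p12 (x y z : V) : 𝐏 x y z = 𝐏 y x z := by rw [sup_comm (F ∙ x)]
theorem p23 (x y z : V) : 𝐏 x y z = 𝐏 x z y := sup_right_comm ..
theorem mp2 (g : V ≃ₗ[F] V) (x y : V) : 𝐋 (g x) (g y) = (𝐋 x y).map (g : V →ₗ[F] V) := by simp [Submodule.map_sup, map_span]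
theorem mp3 (g : V ≃ₗ[F] V) (x y z : V) : 𝐏 (g x) (g y) (g z) = (𝐏 x y z).map (g : V →ₗ[F] V) := by
  simp [Submodule.map_sup, map_span]
theorem i2_map : I2 F (g x) (g y) ↔ I2 F x y := by rw [i2_iff, i2_iff, mp2, LinearEquiv.finrank_map_eq]
theorem i3_map : I3 F (g x) (g y) (g z) ↔ I3 F x y z := by rw [i3_iff, i3_iff, mp3, LinearEquiv.finrank_map_eq]
theorem mem_mp : g x ∈ L.map (g : V →ₗ[F] V) ↔ x ∈ L := by simp

theorem l_eq (h : I2 F x y) (a : x ∈ 𝐋 x' y') (b : y ∈ 𝐋 x' y') : 𝐋 x y = 𝐋 x' y' :=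
  eq_of_le_of_finrank_le (lle.2 ⟨a, b⟩) (by
    have := frs (L := F ∙ x') (x := y'); have := fr1 (F := F) (x := x'); rw [i2_iff.1 h]; omega)

theorem p_eq (h : I3 F x y z) (a : 𝐏 x y z ≤ 𝐏 x' y' z') : 𝐏 x y z = 𝐏 x' y' z' :=
  eq_of_le_of_finrank_le a (by
    have := frs (L := 𝐋 x' y') (x := z'); have := frs (L := F ∙ x') (x := y'); have := fr1 (F := F) (x := x')
    rw [i3_iff.1 h]; omega)

theorem fr_comap (L K : Submodule F V) : finrank F (K.comap L.subtype) = finrank F ↥(L ⊓ K) := by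
  rw [← finrank_map_subtype_eq, map_comap_subtype]

theorem fr_map {W : Type*} [AddCommGroup W] [Module F W] (f : V →ₗ[F] W) (L : Submodule F V) :
    finrank F (L.map f) + finrank F ↥(L ⊓ LinearMap.ker f) = finrank F L := by
  rw [← (f.domRestrict L).finrank_range_add_finrank_ker, LinearMap.range_domRestrict, LinearMap.ker_domRestrict, fr_comap]

theorem fr_ker {φ : Dual F V} (hx : x ∈ L) (h : φ x ≠ 0) : finrank F ↥(L ⊓ LinearMap.ker φ) + 1 = finrank F L := by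
  have := fr_map φ L
  have := (finrank_le (L.map φ)).trans (finrank_self F).le
  have := finrank_lt_finrank_of_lt (lt_of_le_of_ne (inf_le_left : L ⊓ LinearMap.ker φ ≤ L) fun e => h (e.ge hx).2)
  omega

theorem fr_hyp {B : Submodule F V} (a : L ≤ B) (b : K ≤ B) (n : L ≠ K) (c : finrank F L = k + 1) (d : finrank F K = k + 1)
    (e : finrank F B = k + 2) : finrank F ↥(L ⊓ K) = k := by
  have := finrank_sup_add_finrank_inf_eq L K
  have := finrank_mono (sup_le a b)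
  have := finrank_lt_finrank_of_lt (lt_of_le_of_ne (inf_le_left : L ⊓ K ≤ L) fun i =>
    n (eq_of_le_of_finrank_eq (inf_eq_left.1 i) (c.trans d.symm)))
  omega

/-- closure lemma for blocks -/
theorem block (P : V → V → Submodule F V) (hc : ∀ {a b a' b'}, 𝐋 a b = 𝐋 a' b' → P a b = P a' b')
    (hP : ∀ x y w, I2 F x y → I2 F x w → w ∈ P x y → P x w = P x y) {a b : V} (hxy : I2 F x y)
    (ha : a ∈ P x y) (hb : b ∈ P x y) (hab : I2 F a b) : P a b = P x y := by
  have k : ∀ {a b}, a ∈ P x y → b ∈ P x y → I2 F a b → I2 F x a → P a b = P x y := fun ha hb hab h1 => by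
    have h2 := (hc (sup_comm ..)).trans (hP _ _ _ hxy h1 ha)
    exact h2 ▸ hP _ _ _ (i2s h1) hab (h2 ▸ hb)
  by_cases e : I2 F x a
  · exact k ha hb hab e
  refine (hc (sup_comm ..)).trans (k hb ha (i2s hab) ⟨hxy.1, fun m => hab.2 ?_⟩)
  obtain ⟨c, rfl⟩ := mem_span_singleton.1 (not_not.1 fun i => e ⟨hxy.1, i⟩)
  rwa [span_singleton_smul_eq (IsUnit.mk0 c fun i => hab.1 (by simp [i]))]

theorem mem_mk (h : x ∈ L) : (Submodule.Quotient.mk w : V ⧸ F ∙ x) ∈ L.map (F ∙ x).mkQ ↔ w ∈ L := by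
  rw [← mkQ_apply, ← mem_comap, comap_map_mkQ, sup_eq_right.2 (by simpa)]

theorem fr_quot (hx : x ≠ 0) : finrank F (V ⧸ F ∙ x) + 1 = finrank F V := by
  rw [← finrank_quotient_add_finrank (F ∙ x), finrank_span_singleton hx]

theorem mem_stab {G : Subgroup (V ≃ₗ[F] V)} (hg : g ∈ G) (h : g x ∈ F ∙ x) : (⟨g, hg⟩ : G) ∈ stabSet G (F ∙ x : Submodule F V) :=
  mem_stabSet_iff_le.2 fun u hu => by
    obtain ⟨c, rfl⟩ := mem_span_singleton.1 hu
    rw [map_smul]; exact smul_mem _ c h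

theorem two (hq : 3 ≤ 𝐪) : ∃ l : F, l ≠ 0 ∧ l ≠ 1 := by
  by_contra! n
  have := Nat.card_le_card_of_surjective (fun b : Bool => if b then (1 : F) else 0) fun l =>
    (em (l = 0)).elim (fun e => ⟨false, e.symm⟩) fun e => ⟨true, (n l e).symm⟩
  simp at this; omega

end CF.Sing.KN
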