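import Cfsg.Agent.Sing.KS0

/-! Spreads invariant under a group with a transitive flag. -/

set_option autoImplicit false
set_option linter.unusedSectionVars false

namespace CF.Sing

open Module CF.Geom Submodule KN

variable {F V : Type*} [Field F] [AddCommGroup V] [Module F V] [Finite F] [Finite V] {G S : Subgroup (V ≃ₗ[F] V)}

local notation "𝐪" => Nat.card F

structure Spr (A : V → Submodule F V) (Y : Submodule F V) (d : ℕ) : Prop where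
  mem : ∀ w ∈ Y, w ≠ 0 → w ∈ A w
  eqA : ∀ w ∈ Y, w ≠ 0 → ∀ w' ∈ A w, w' ≠ 0 → A w' = A w
  rk : ∀ w ∈ Y, w ≠ 0 → finrank F (A w) = d
  le : ∀ w ∈ Y, w ≠ 0 → A w ≤ Y

theorem Spr.start (Φ : Flag S) {m d : ℕ} (d2 : 2 ≤ d) (hd : d < m) (hm : m ≤ finrank F V) {A : V → Submodule F V}
    (hA : Spr A (Φ.U m) d) (hs : ∀ s ∈ S, ∀ w ∈ Φ.U m, w ≠ 0 → ∀ a ∈ A w, s a ∈ A (s w)) :
    (∀ w ∈ Φ.U m, w ∉ Φ.U d → ∀ a ∈ A w, a ∈ Φ.U d → a = 0) ∧ ∀ w ∈ Φ.U (d + 1), w ∉ Φ.U d →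
      Φ.U d ⊔ A w = Φ.U (2 * d) ∧ ∃ w1 ∈ A w, ∀ c : F, ∃ r ∈ S, r w1 = w1 + c • w ∧ r w = w := by
  have v1 : Φ.v 0 ∈ Φ.U m := Φ.v_mem (by omega)
  have v0 : Φ.v 0 ≠ 0 := fun e => Φ.nm (k := 0) (by omega) (e ▸ zero_mem _)
  have e0 : A (Φ.v 0) = Φ.U d :=
    (Φ.eq_U fun s m x hx => by simpa only [Φ.s0 m] using hs s m _ v1 v0 x hx).trans (by rw [hA.rk _ v1 v0])
  have z : ∀ {w k}, w ∉ Φ.U k → w ≠ 0 := fun n e => n (e ▸ zero_mem _)
  have dis : ∀ w ∈ Φ.U m, w ∉ Φ.U d → ∀ a ∈ A w, a ∈ Φ.U d → a = 0 := fun w m n a i j => by_contra fun o =>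
    n (e0 ▸ ((hA.eqA w m (z n) a i o).symm.trans (hA.eqA _ v1 v0 a (e0 ▸ j) o)).le (hA.mem w m (z n)))
  have nm : ∀ s ∈ S, ∀ {a}, a ∉ Φ.U d → s a ∉ Φ.U d := fun s m a n i => n (by simpa using Φ.inv d _ (inv_mem m) _ i)
  have l := Φ.mono (Nat.succ_le_of_lt hd)
  let X := {a | a ∉ Φ.U d ∧ ∃ w ∈ Φ.U (d + 1), w ∉ Φ.U d ∧ a ∈ A w}
  have hc := dcount ((Φ.U (d + 1) : Set V) \ Φ.U d) X (fun w a => a ∈ A w) (𝐪 ^ d - 𝐪 ^ 0) (𝐪 ^ 1 - 𝐪 ^ 0)
    (fun w ⟨a, b⟩ => by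
      rw [← ncd bot_le (hA.rk w (l a) (z b)) (finrank_bot F V)]
      congr 1; ext t
      exact ⟨fun i => ⟨i.2, z i.1.1⟩, fun i => ⟨⟨fun j => i.2 (dis w (l a) b t i.1 j), w, a, b, i.1⟩, i.1⟩⟩)
    fun a ⟨n, w, b, c, e⟩ => by
      rw [← ncd bot_le (finrank_span_singleton (K := F) (z c)) (finrank_bot F V)]
      congr 1; ext t
      have w1 := hA.mem w (l b) (z c)
      refine ⟨fun ⟨⟨i, j⟩, k⟩ => ⟨?_, z j⟩, fun ⟨i, j⟩ => ?_⟩
      · obtain ⟨x, y⟩ := mem_sup1.1 ((exch (Φ.succ d ▸ b) c).ge (Φ.succ d ▸ i))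
        have f := (hA.eqA t (l i) (z j) a k (z n)).symm.trans (hA.eqA w (l b) (z c) a e (z n))
        exact mem_span_singleton.2 ⟨x, (sub_eq_zero.1 (dis w (l b) c _
          (sub_mem (f.le (hA.mem t (l i) (z j))) (smul_mem _ x w1)) y)).symm⟩
      · obtain ⟨x, rfl⟩ := mem_span_singleton.1 i
        exact ⟨⟨smul_mem _ x b, by rwa [SetLike.mem_coe, smul_mem_iff _ fun o => j (by simp [o])]⟩,
          (hA.eqA w (l b) (z c) _ (smul_mem _ x w1) j).ge e⟩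
  have q := two_le_q (F := F)
  rw [ncd (Φ.mono (Nat.le_succ d)) (Φ.finrank_U (by omega)) (Φ.finrank_U (by omega)), Nat.succ_eq_add_one,
    show 𝐪 ^ (d + 1) - 𝐪 ^ d = (𝐪 ^ 1 - 𝐪 ^ 0) * 𝐪 ^ d by rw [Nat.sub_mul, ← pow_add, ← pow_add, add_comm, zero_add],
    mul_assoc, mul_comm] at hc
  have hc := Nat.eq_of_mul_eq_mul_right (Nat.sub_pos_of_lt (Nat.pow_lt_pow_right q one_pos)) hc
  obtain ⟨a, b⟩ := Φ.eq_diff (X := X) (fun s m a ⟨n, w, b, c, e⟩ => ⟨nm s m n, s w, Φ.inv _ s m w b, nm s m c,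
    hs s m w (l b) (z c) a e⟩) (fun c c0 a ⟨n, w, b, d, e⟩ => ⟨by rwa [smul_mem_iff _ c0], w, b, d, smul_mem _ c e⟩)
    (fun h => h.1 (zero_mem _)) (a := d) (b := 2 * d) (by omega) (by
      rw [← hc, Nat.mul_sub, ← pow_add, ← pow_add, two_mul]
      exact Nat.sub_add_cancel (Nat.pow_le_pow_right (by omega) (by omega)))
  have f := Φ.finrank_U (a (by omega))
  refine ⟨dis, fun w i j => ?_⟩
  have e : Φ.U d ⊔ A w = Φ.U (2 * d) := eq_of_le_of_finrank_eq (sup_le (Φ.mono (by omega)) fun t k =>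
    (em _).elim (fun o => Φ.mono (by omega) o) fun o => (b.le ⟨o, w, i, j, k⟩).1) (by
      have := finrank_sup_add_finrank_inf_eq (Φ.U d) (A w)
      rw [(Submodule.eq_bot_iff (Φ.U d ⊓ A w)).2 fun t k => dis w (l i) j t k.2 k.1, finrank_bot, Φ.finrank_U (k := d) (by omega),
        hA.rk w (l i) (z j)] at this
      omega)
  obtain ⟨w1, k, n⟩ : ∃ w1 ∈ A w, w1 ∉ Φ.U (d + 1) := by
    by_contra! n
    have := finrank_mono (e.ge.trans (sup_le (Φ.mono (Nat.le_succ d)) n))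
    rw [f, Φ.finrank_U (by omega)] at this; omega
  refine ⟨e, w1, k, fun c => ?_⟩
  obtain ⟨r, m, o⟩ := Φ.move n (smul_mem _ c i)
  have w1 := hA.mem w (l i) (z j)
  have r0 : r _ ≠ 0 := mt r.map_eq_zero_iff.1 (z n)
  have r1 := Φ.inv _ r m w (l i)
  have := (hA.eqA _ r1 (z (nm r m j)) _ (hs r m w (l i) (z j) _ k) r0).symm.trans
    (hA.eqA w (l i) (z j) _ (o ▸ add_mem k (smul_mem _ c w1)) r0)
  exact ⟨r, m, o, sub_eq_zero.1 (dis w (l i) j _ (sub_mem (this.le (hA.mem _ r1 (z (nm r m j)))) w1) (Φ.mov' m i))⟩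

theorem alg2 {l : F} (l0 : l ≠ 0) (l1 : l ≠ 1) (b0 b1 : F → F → F)
    (H1 : ∀ c, ∃ d, ∀ x y, b0 (x + d * y) y = b0 x y + d * b1 x y - c * (x + d * y) ∧ b1 (x + d * y) y = b1 x y - c * y)
    (H2 : ∀ e, ∃ c d g, ∀ x y, b0 (e + x + d * y) y = g + b0 x y + d * b1 x y - c * (e + x + d * y)) : False := by
  obtain ⟨d1, h1⟩ := H1 1
  have a : ∀ x, d1 * b1 x 0 = x := fun x => by
    have := (h1 x 0).1
    rw [mul_zero, add_zero] at this; linear_combination -this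
  have m0 : b1 1 0 ≠ 0 := fun o => by simpa [o] using a 1
  have b : b1 0 0 = 0 := (mul_eq_zero.1 (a 0)).resolve_left fun o => by simpa [o] using a 1
  have H : ∀ d y, b0 (d * y) y = b0 0 y + d * b1 0 y - b1 1 0 * d * (d * y) ∧ b1 (d * y) y = b1 0 y - b1 1 0 * d * y :=
    fun d y => by
      obtain ⟨d', h⟩ := H1 (b1 1 0 * d)
      have := (h 1 0).1
      rw [mul_zero, add_zero] at this
      obtain rfl : d' = d := mul_left_cancel₀ m0 (by linear_combination -this)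
      simpa only [zero_add] using h 0 y
  have K : ∀ d y, b0 (d * y) 0 - b0 0 0 = d * b1 0 y - b1 1 0 * d * (d * y) := fun d y => by
    obtain ⟨c, D, g, h⟩ := H2 (d * y)
    have h1 := h 0 0
    have h2 := h (-D * y) y
    rw [show d * y + -D * y + D * y = d * y by ring, (H _ _).1, (H _ _).1, (H _ _).2] at h2
    rw [mul_zero, add_zero, add_zero, b] at h1
    linear_combination h1 - h2
  have k1 := K l l
  have k2 := K (l * l) 1
  have k3 := K 1 l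
  have k4 := K l 1
  rw [mul_one] at k2 k4
  rw [one_mul] at k3
  have : b1 1 0 * l ^ 2 * (l - 1) ^ 2 = 0 := by linear_combination k2 - k1 - l * (k4 - k3)
  simp [m0, l0, sub_eq_zero, l1] at this

theorem no_spread2 (hq : 3 ≤ Nat.card F) (Φ : Flag S) {m : ℕ} (h3 : 3 ≤ m) (hm : m ≤ finrank F V)
    {A : V → Submodule F V} (hA : Spr A (Φ.U m) 2)
    (hs : ∀ s ∈ S, ∀ w ∈ Φ.U m, w ≠ 0 → ∀ a ∈ A w, s a ∈ A (s w)) : False := by
  obtain ⟨dis, st⟩ := hA.start Φ le_rfl h3 hm hs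
  obtain ⟨l, l0, l1⟩ := two hq
  have u2 : ∀ x y : F, x • Φ.v 0 + y • Φ.v 1 ∈ Φ.U 2 := fun x y => Φ.U2 ▸ mem_span2.2 ⟨x, y, rfl⟩
  have n2 := Φ.nm (k := 2) (by omega)
  have m3 := Φ.v_mem (show 2 < 3 by omega)
  have n : ∀ x y : F, Φ.v 2 + (x • Φ.v 0 + y • Φ.v 1) ∉ Φ.U 2 := fun x y => by rwa [Submodule.add_mem_iff_left _ (u2 x y)]
  have i : ∀ x y : F, Φ.v 2 + (x • Φ.v 0 + y • Φ.v 1) ∈ Φ.U 3 := fun x y => add_mem m3 (Φ.mono (by omega) (u2 x y))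
  obtain ⟨e4, w, hw, hr⟩ := st _ m3 n2
  have w4 : w ∈ Φ.U 4 := e4.le (mem_sup_right hw)
  have ex : ∀ x y : F, ∃ p r : F, w + (p • Φ.v 0 + r • Φ.v 1) ∈ A (Φ.v 2 + (x • Φ.v 0 + y • Φ.v 1)) := fun x y => by
    obtain ⟨u, a, t, b, rfl⟩ := mem_sup.1 ((st _ (i x y) (n x y)).1.ge w4)
    obtain ⟨p, r, e⟩ := mem_span2.1 (Φ.U2.le (neg_mem a))
    exact ⟨p, r, by simpa [← e] using b⟩
  choose b0 b1 hb using ex
  have key : ∀ s ∈ S, ∀ e c g h : F, s (Φ.v 2) = Φ.v 2 + e • Φ.v 0 → s w - w - c • Φ.v 2 = g • Φ.v 0 + h • Φ.v 1 →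
      ∃ d, ∀ x y, b0 (e + x + d * y) y = g + b0 x y + d * b1 x y - c * (e + x + d * y) ∧
        b1 (e + x + d * y) y = h + b1 x y - c * y := fun s m e c g h e1 e2 => by
    obtain ⟨d, e3⟩ := mem_span_singleton.1 (Φ.U1.le (Φ.mov 1 s m))
    refine ⟨d, fun x y => ?_⟩
    have z := fun (x y : F) => (ne_of_mem_of_not_mem (zero_mem _) (n x y)).symm
    have j := hs s m _ (Φ.mono h3 (i x y)) (z x y) _ (hb x y)
    rw [eq_sub_iff_add_eq] at e3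
    rw [sub_sub, sub_eq_iff_eq_add] at e2
    rw [show s (Φ.v 2 + (x • Φ.v 0 + y • Φ.v 1)) = Φ.v 2 + ((e + x + d * y) • Φ.v 0 + y • Φ.v 1) by
      simp only [map_add, map_smul, e1, ← e3, Φ.s0 m]; module] at j
    have k := dis _ (Φ.mono h3 (i _ _)) (n _ _) ((b0 (e + x + d * y) y - (g + b0 x y + d * b1 x y - c * (e + x + d * y))) • Φ.v 0 +
      (b1 (e + x + d * y) y - (h + b1 x y - c * y)) • Φ.v 1) (by
        convert add_mem (sub_mem (hb _ _) j) (smul_mem _ c (hA.mem _ (Φ.mono h3 (i _ _)) (z _ _))) using 1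
        simp only [map_add, map_smul, e2, ← e3, Φ.s0 m]; module) (u2 _ _)
    have o := by_contra fun o => Φ.nm (k := 1) (by omega) ((smul_mem_iff _ o).1
      (Φ.U1.ge ((eq_neg_of_add_eq_zero_right k).symm ▸ neg_mem (smul_mem _ _ (ms _)))))
    rw [o, zero_smul, add_zero, smul_eq_zero] at k
    exact ⟨sub_eq_zero.1 (k.resolve_right fun o => Φ.nm (k := 0) (by omega) (o ▸ zero_mem _)), sub_eq_zero.1 o⟩
  refine alg2 l0 l1 b0 b1 (fun c => ?_) fun e => ?_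
  · obtain ⟨r, m, a, b⟩ := hr c
    simpa only [zero_add] using key r m 0 c 0 0 (by simp [b]) (by simp [a])
  · obtain ⟨s, m, a⟩ := Φ.move n2 (smul_mem _ e (Φ.v_mem (show 0 < 2 by omega)))
    obtain ⟨c, b⟩ := mem_sup1.1 ((Φ.succ 2).le (Φ.mov' m w4))
    obtain ⟨g, h, b⟩ := mem_span2.1 (Φ.U2.le b)
    exact let ⟨d, k⟩ := key s m e c g h a b; ⟨c, d, g, fun x y => (k x y).1⟩

theorem no_spread3 (Φ : Flag S) {d : ℕ} (hd : 3 ≤ d) (hlt : d < finrank F V)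
    {A : V → Submodule F V} (hA : Spr A ⊤ d)
    (hs : ∀ s ∈ S, ∀ w, w ≠ 0 → ∀ a ∈ A w, s a ∈ A (s w)) {h : V ≃ₗ[F] V}
    (hh : ∀ w, w ≠ 0 → ∀ a ∈ A w, h a ∈ A (h w)) (hU : ∀ u ∈ Φ.U (d + 1), h u ∈ Φ.U (d + 1))
    (h1 : ∀ u ∈ Φ.U d, h u - u ∈ Φ.U 1) (h0 : h (Φ.v 0) ≠ Φ.v 0)
    (hco : (orderOf h).Coprime (Nat.card F)) : False := by
  obtain ⟨dis, st⟩ := Spr.start Φ (by omega) hlt le_rfl (Φ.U_top ▸ hA) fun s m w _ => hs s m w
  replace dis := fun w => dis w (Φ.U_top ▸ mem_top)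
  have l := Φ.mono (show 1 ≤ d by omega)
  have l' := Φ.mono (Nat.le_succ d)
  have hm : ∀ {u}, h u ∈ Φ.U d ↔ u ∈ Φ.U d := by
    intro u
    conv_lhs => rw [← map_eq_of_le (W := Φ.U d) h (fun u m => by simpa using add_mem (l (h1 u m)) m) le_rfl, mem_mp]
  have nd := Φ.nm hlt
  obtain ⟨w, i, j, μ, hw⟩ : ∃ w ∈ Φ.U (d + 1), w ∉ Φ.U d ∧ ∃ μ : F, h w = μ • w := by
    obtain ⟨μ, e⟩ := mem_sup1.1 ((Φ.succ d).le (hU _ (Φ.v_mem (Nat.lt_succ_self d))))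
    have μ0 : μ ≠ 0 := fun o => nd (hm.1 (by simpa [o] using e))
    let k : Module.End F V := μ⁻¹ • (h : V →ₗ[F] V)
    have p : ∀ i : ℕ, (k ^ i) (Φ.v d) - Φ.v d ∈ Φ.U d := fun i => by
      induction i with
      | zero => simp
      | succ i ih =>
        convert smul_mem _ μ⁻¹ (add_mem (hm.2 ih) e) using 1
        simp [pow_succ', k, smul_sub, μ0]
    have e1 : k ^ orderOf h = μ⁻¹ ^ orderOf h • 1 := by
      rw [smul_pow, ← LinearEquiv.automorphismGroup.toLinearMapMonoidHom_apply, ← map_pow, pow_orderOf_eq_one, map_one]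
    have e2 : k ^ orderOf h = 1 := by
      have := p (orderOf h)
      rw [e1] at this ⊢
      rw [show μ⁻¹ ^ orderOf h = 1 from sub_eq_zero.1 (by_contra fun o => nd ((smul_mem_iff _ o).1
        (by simpa [sub_smul] using this))), one_smul]
    have N0 : (orderOf h : F) ≠ 0 := by
      have := Fintype.ofFinite F
      have := hco.cast (R := F)
      rw [Nat.card_eq_fintype_card, FiniteField.cast_card_eq_zero, isCoprime_zero_right] at this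
      exact this.ne_zero
    have s : (∑ i ∈ Finset.range (orderOf h), k ^ i) (Φ.v d) - (orderOf h : F) • Φ.v d ∈ Φ.U d := by
      convert sum_mem fun i (_ : i ∈ Finset.range (orderOf h)) => p i using 1
      simp [Nat.cast_smul_eq_nsmul]
    refine ⟨_, (Φ.succ d).ge (mem_sup1.2 ⟨_, s⟩), fun o => nd ((smul_mem_iff _ N0).1 (by simpa using sub_mem o s)), μ, ?_⟩
    have := LinearMap.congr_fun (mul_geom_sum k (orderOf h)) (Φ.v d)
    rw [e2, sub_self, Module.End.mul_apply, LinearMap.sub_apply, LinearMap.zero_apply, sub_eq_zero] at this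
    exact (inv_smul_eq_iff₀ μ0).1 this
  obtain ⟨e, w1, k, hr⟩ := st w i j
  obtain ⟨r, m, r1, r2⟩ := hr 1
  have z : ∀ {w}, w ∉ Φ.U d → w ≠ 0 := fun n e => n (e ▸ zero_mem _)
  have n : ∀ u ∈ Φ.U d, w + u ∉ Φ.U d := fun u a => by rwa [Submodule.add_mem_iff_left _ a]
  have nr : ∀ {a}, a ∉ Φ.U d → r a ∉ Φ.U d := fun n i => n (by simpa using Φ.inv d _ (inv_mem m) _ i)
  let δ : V →ₗ[F] V := (h : V →ₗ[F] V) ∘ₗ r - (r : V →ₗ[F] V) ∘ₗ h
  have r0 : ∀ u ∈ Φ.U 1, r u = u := fun u a => by simpa [Φ.U0, sub_eq_zero] using Φ.mov' m a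
  have d1 : ∀ u ∈ Φ.U d, δ u ∈ F ∙ Φ.v 0 := fun u a => by
    have := sub_mem (h1 _ (Φ.inv d r m u a)) (Φ.inv 1 r m _ (h1 u a))
    rw [Φ.U1] at this
    simpa [δ] using this
  have dw : δ w = 0 := by simp [δ, r2, hw]
  have dA : ∀ u ∈ Φ.U d ⊓ LinearMap.ker δ, ∀ a ∈ A (w + u), δ a ∈ A (h (r (w + u))) := fun u a b c => by
    have e : h (r (w + u)) = r (h (w + u)) := sub_eq_zero.1 (show δ (w + u) = 0 by rw [map_add, dw, a.2, add_zero])
    exact sub_mem (hh _ (z (nr (n u a.1))) _ (hs r m _ (z (n u a.1)) b c))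
      (e ▸ hs r m _ (z (mt hm.1 (n u a.1))) _ (hh _ (z (n u a.1)) b c))
  have ex : ∀ u ∈ Φ.U d, ∃ t ∈ Φ.U d, w1 + t ∈ A (w + u) := fun u a => by
    obtain ⟨t, b, c, f, rfl⟩ := mem_sup.1 ((e.trans (st _ (add_mem i (l' a)) (n u a)).1.symm).le (mem_sup_right k))
    exact ⟨-t, neg_mem b, by simpa using f⟩
  have v1 := Φ.v_mem one_pos
  have v0 : Φ.v 0 ∈ Φ.U d ⊓ LinearMap.ker δ := ⟨l v1, by
    have := r0 _ (show h (Φ.v 0) ∈ _ by simpa using add_mem (h1 _ (l v1)) v1)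
    simp [δ, this, Φ.s0 m]⟩
  have vd : ∀ c : F, c • Φ.v 0 ∈ Φ.U d := fun c => smul_mem _ c v0.1
  have nw : δ w1 ∉ Φ.U d := fun o => by
    obtain ⟨t, a, b⟩ := ex _ v0.1
    have c := hs r m _ (z (n _ v0.1)) _ b
    rw [map_add r w, r2, Φ.s0 m, map_add, r1, one_smul] at c
    have c : r t = t + Φ.v 0 := sub_eq_zero.1 (dis _ (n _ v0.1) _ (by
      convert sub_mem (sub_mem c b) (hA.mem _ mem_top (z (n _ v0.1))) using 1; abel)
      (sub_mem (Φ.inv d r m t a) (add_mem a v0.1)))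
    have f := dis _ (mt hm.1 (nr (n _ (zero_mem _)))) _ (dA 0 (zero_mem _) w1 (by rwa [add_zero])) o
    have g := dis _ (mt hm.1 (nr (n _ v0.1))) _ (dA _ v0 _ b) (by rw [map_add, f, zero_add]; exact l (Φ.U1 ▸ d1 t a))
    have := r0 _ (h1 t a)
    rw [map_add, f, zero_add] at g
    rw [map_sub, c, sub_eq_iff_eq_add] at this
    exact h0 (by simpa [δ, c, this, sub_eq_zero, ← add_assoc] using g)
  have : ∀ u : ↥(Φ.U d ⊓ LinearMap.ker δ), ∃ c : F, δ w1 + c • Φ.v 0 ∈ A (h (r (w + u))) := fun u => by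
    obtain ⟨t, a, b⟩ := ex _ u.2.1
    obtain ⟨c, f⟩ := mem_span_singleton.1 (d1 t a)
    exact ⟨c, by rw [f, ← map_add]; exact dA _ u.2 _ b⟩
  choose c hc using this
  have := Nat.card_le_card_of_injective c fun u u' e => by
    have a := fun u : ↥(Φ.U d ⊓ LinearMap.ker δ) => mt hm.1 (nr (n _ u.2.1))
    have b := fun u => hA.eqA _ mem_top (z (a u)) _ (hc u) (z (by rwa [Submodule.add_mem_iff_left _ (vd _)]))
    have := dis _ (a u) _ (sub_mem (hA.mem _ mem_top (z (a u))) (((b u').symm.trans (e ▸ b u)).le (hA.mem _ mem_top (z (a u')))))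
      (by simpa using hm.2 (Φ.inv d r m _ (sub_mem u.2.1 u'.2.1)))
    simpa [sub_eq_zero] using this
  have f := fr_map δ (Φ.U d)
  have g := (finrank_mono (map_le_iff_le_comap.2 d1)).trans fr1
  rw [Φ.finrank_U hlt.le] at f
  have := Nat.pow_lt_pow_right (two_le_q (F := F)) (show 1 < finrank F ↥(Φ.U d ⊓ LinearMap.ker δ) by omega)
  rw [← card_top, pow_one] at this
  omega

end CF.Sing
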